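/- Tensor decompositions carrying a product form: contractions against the form, Eichler maps of
the second factor, the unipotent radical of the stabiliser of `E ⊗ w₀`. -/
import Cfsg.Agent.H56.TenMat
import Cfsg.Agent.H62.SpTv

set_option autoImplicit false

namespace H91

open Module H56 H56.Ten H62
open LinearMap (BilinForm)

variable {F E W V : Type*} [Field F] [AddCommGroup E] [Module F E] [AddCommGroup W] [Module F W]
  [AddCommGroup V] [Module F V]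

/-- The form `f` is the tensor product of the reflexive forms `fE` and `fW`. -/
structure TF (T : Ten F E W V) (fE : BilinForm F E) (fW : BilinForm F W) (f : BilinForm F V)
    (δ ε : F) : Prop where
  ndE : fE.Nondegenerate
  ndW : fW.Nondegenerate
  nd : f.Nondegenerate
  symE : ∀ x y, fE y x = δ * fE x y
  symW : ∀ x y, fW y x = ε * fW x y
  sqE : δ * δ = 1
  sqW : ε * ε = 1
  tens : ∀ e w e' w', f (T.t e w) (T.t e' w') = fE e e' * fW w w'

/-- Contraction against `fW (·, u)`. -/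
def tpi (T : Ten F E W V) (fW : BilinForm F W) (u : W) : V →ₗ[F] E := T.cR (fW.flip u)

/-- The hyperplane orthogonal to `w`. -/
abbrev W1 (fW : BilinForm F W) (w : W) : Submodule F W := LinearMap.ker (fW.flip w)

/-- `B` is an Eichler map (a transvection when `u = 0`). -/
def IsEB (fW : BilinForm F W) (ε : F) (w u : W) (B : W ≃ₗ[F] W) : Prop :=
  ∃ c : F, ∀ x, B x = x + fW x u • w - (ε * fW x w) • u - (c * fW x w) • w

/-- `g` acts trivially on `E ⊗ w₀` and on `E ⊗ w₀^⊥ / E ⊗ w₀`. -/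
def UL (T : Ten F E W V) (fW : BilinForm F W) (w₀ : W) (g : V ≃ₗ[F] V) : Prop :=
  (∀ e, g (T.t e w₀) = T.t e w₀) ∧
    ∀ e w, fW w w₀ = 0 → g (T.t e w) - T.t e w ∈ T.LS (F ∙ w₀)

/-- The maps `γ` with `y ↦ y + γ (π y) ⊗ w₀` in `M`. -/
def ZS (T : Ten F E W V) (fW : BilinForm F W) (M : Subgroup (V ≃ₗ[F] V)) (w₀ : W) :
    Set (End F E) := {γ | ∃ z ∈ M, ∀ y, z y = y + T.t (γ (tpi T fW w₀ y)) w₀}

/-- `g` is an isometry of `f`. -/
def Iso (f : BilinForm F V) (g : V ≃ₗ[F] V) : Prop := ∀ x y, f (g x) (g y) = f x y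

theorem Iso.mul {f : BilinForm F V} {g h : V ≃ₗ[F] V} (hg : Iso f g) (hh : Iso f h) :
    Iso f (g * h) := fun x y => by rw [LinearEquiv.mul_apply, LinearEquiv.mul_apply, hg, hh]

theorem Iso.inv {f : BilinForm F V} {g : V ≃ₗ[F] V} (hg : Iso f g) : Iso f g⁻¹ := fun x y => by
  rw [← hg]; simp

variable {T : Ten F E W V} {fE : BilinForm F E} {fW : BilinForm F W} {f : BilinForm F V}
  {δ ε : F} {M : Subgroup (V ≃ₗ[F] V)} {w₀ : W}

@[simp] theorem tpi_t (u : W) (e : E) (w : W) : tpi T fW u (T.t e w) = fW w u • e := by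
  simp [tpi]

theorem mem_W1 {w x : W} : x ∈ W1 fW w ↔ fW x w = 0 := Iff.rfl

theorem mem_LS_W1 {w : W} {y : V} : y ∈ T.LS (W1 fW w) ↔ tpi T fW w y = 0 := T.mem_LS_ker

theorem tpi_add (u v : W) (y : V) : tpi T fW (u + v) y = tpi T fW u y + tpi T fW v y := by
  simp [tpi, cR_add]

theorem tpi_smul (c : F) (u : W) (y : V) : tpi T fW (c • u) y = c • tpi T fW u y := by
  simp [tpi, cR_smul]

@[simp] theorem tpi_zero (y : V) : tpi T fW 0 y = 0 := by
  simpa using tpi_smul (T := T) (fW := fW) 0 0 y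

theorem rt_eb {w u : W} {B : W ≃ₗ[F] W} {c : F}
    (h : ∀ x, B x = x + fW x u • w - (ε * fW x w) • u - (c * fW x w) • w) (y : V) :
    T.rt B y = y + T.t (tpi T fW u y) w - ε • T.t (tpi T fW w y) u - c • T.t (tpi T fW w y) w :=
  T.induction y (by simp) (fun e x => by simp [h, smul_smul]) fun x y hx hy => by
    simp only [map_add, hx, hy, LinearMap.add_apply, smul_add]; abel

theorem IsEB.rt_of_mem {w u : W} {B : W ≃ₗ[F] W} (h : IsEB fW ε w u B) {y : V}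
    (hy : tpi T fW w y = 0) : T.rt B y = y + T.t (tpi T fW u y) w := by
  obtain ⟨c, hc⟩ := h
  simp [rt_eb hc, hy]

theorem IsEB.apply_of {w u x : W} {B : W ≃ₗ[F] W} (h : IsEB fW ε w u B) (hx : fW x w = 0) :
    B x = x + fW x u • w := by
  obtain ⟨c, hc⟩ := h
  simp [hc, hx]

theorem QA_congr [FiniteDimensional F E] {W₁ : Submodule F W} {h : w₀ ∈ W₁} {Φ Ψ : V →ₗ[F] E}
    (hΦ : Φ ∈ T.QA M h) (he : ∀ e, ∀ w ∈ W₁, Ψ (T.t e w) = Φ (T.t e w)) : Ψ ∈ T.QA M h := by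
  obtain ⟨h1, m, hm, h2⟩ := hΦ
  exact ⟨fun e => by rw [he e _ h, h1], m, hm, fun y hy => by rw [h2 y hy, T.eqOn_LS he hy]⟩

namespace TF

variable (H : TF T fE fW f δ ε)
include H

theorem swap : TF T.swap fW fE f ε δ :=
  ⟨H.ndW, H.ndE, H.nd, H.symW, H.symE, H.sqW, H.sqE, fun w e w' e' => by
    rw [swap_t, swap_t, H.tens, mul_comm]⟩

theorem f_t (y : V) (e : E) (u : W) : f y (T.t e u) = fE (tpi T fW u y) e :=
  T.induction y (by simp) (fun e w => by simp [H.tens, mul_comm]) fun x y hx hy => by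
    simp [hx, hy]

theorem sym (x y : V) : f y x = δ * ε * f x y :=
  T.induction x (by simp) (fun e w => T.induction y (by simp)
    (fun e' w' => by rw [H.tens, H.tens, H.symE, H.symW]; ring)
    fun x y hx hy => by simp [hx, hy, mul_add]) fun x y hx hy => by simp [hx, hy, mul_add]

theorem refl {x y : V} (h : f x y = 0) : f y x = 0 := by rw [H.sym, h, mul_zero]

theorem reflW {x y : W} (h : fW x y = 0) : fW y x = 0 := by rw [H.symW, h, mul_zero]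

theorem reflE {x y : E} (h : fE x y = 0) : fE y x = 0 := by rw [H.symE, h, mul_zero]

theorem eps_ne : ε ≠ 0 := left_ne_zero_of_mul_eq_one H.sqW

theorem extE {x y : E} (h : ∀ e, fE x e = fE y e) : x = y :=
  sub_eq_zero.1 (H.ndE.1 _ fun e => by simp [h])

theorem tpi_eq_zero {y : V} {w : W} (h : ∀ e, f y (T.t e w) = 0) : tpi T fW w y = 0 :=
  H.ndE.1 _ fun e => by rw [← H.f_t, h]

/-- An isometry fixing `E ⊗ w₀` pointwise moves vectors inside `E ⊗ w₀^⊥`. -/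
theorem tpi_sub {g : V ≃ₗ[F] V} (hg : Iso f g) (h : ∀ e, g (T.t e w₀) = T.t e w₀) (y : V) :
    tpi T fW w₀ (g y) = tpi T fW w₀ y :=
  H.extE fun e => by rw [← H.f_t, ← H.f_t, ← hg y, h]

theorem iso_of_rt [Nontrivial E] {B : W ≃ₗ[F] W} (h : Iso f (T.rt B)) : Iso fW B := fun x y => by
  obtain ⟨e, he⟩ := exists_ne (0 : E)
  obtain ⟨e', he'⟩ := exists_form_ne_zero H.ndE he
  have := h (T.t e' x) (T.t e y)
  rw [rt_t, rt_t, H.tens, H.tens] at this
  exact mul_left_cancel₀ he' this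

theorem iso_tm {A : E ≃ₗ[F] E} {B : W ≃ₗ[F] W} {μ : F} (hA : ∀ x y, μ * fE (A x) (A y) = fE x y)
    (hB : ∀ x y, fW (B x) (B y) = μ * fW x y) : Iso f (T.tm A B) := fun x y =>
  T.induction x (by simp) (fun e w => T.induction y (by simp)
    (fun e' w' => by rw [tm_t, tm_t, H.tens, H.tens, hB, ← hA e e']; ring)
    fun x y hx hy => by simp only [map_add, hx, hy]) fun x y hx hy => by
      simp only [map_add, LinearMap.add_apply, hx, hy]

theorem iso_rt {B : W ≃ₗ[F] W} (hB : Iso fW B) : Iso f (T.rt B) :=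
  H.iso_tm (μ := 1) (by simp) (fun x y => by rw [hB, one_mul])

theorem tpi_rt {B : W ≃ₗ[F] W} (hB : Iso fW B) (u : W) (y : V) :
    tpi T fW (B u) (T.rt B y) = tpi T fW u y :=
  T.induction y (by simp) (fun e w => by simp [hB w u]) fun x y hx hy => by simp [hx, hy]

variable [FiniteDimensional F E] [FiniteDimensional F W]

omit [FiniteDimensional F E] in
theorem mem_LS_of_tpi {J : Submodule F W} {y : V}
    (h : ∀ u, (∀ w ∈ J, fW w u = 0) → tpi T fW u y = 0) : y ∈ T.LS J :=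
  T.mem_LS_of_cR fun φ hφ => by
    obtain ⟨u, hu⟩ := exists_flip_eq H.ndW φ
    rw [show φ = fW.flip u from LinearMap.ext fun x => (hu x).symm]
    exact h u fun w hw => by rw [hu, hφ w hw]

omit [FiniteDimensional F E] in
theorem exists_one {w : W} (hw : w ≠ 0) : ∃ x, fW x w = 1 := by
  obtain ⟨x, hx⟩ := exists_form_ne_zero H.ndW hw
  exact ⟨(fW x w)⁻¹ • x, by simp [hx]⟩

omit [FiniteDimensional F E] in
theorem exists_pair {u w : W} (hw : w ∉ F ∙ u) : ∃ x, fW w x = 1 ∧ fW u x = 0 := by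
  obtain ⟨φ, h1, h2⟩ := exists_dual_pair hw
  obtain ⟨x, hx⟩ := exists_flip_eq H.ndW φ
  exact ⟨x, by rw [hx, h1], by rw [hx, h2]⟩

/-- An isometry fixing `E ⊗ w₀^⊥` pointwise. -/
theorem exists_gamma (hw : w₀ ≠ 0) {z : V ≃ₗ[F] V} (hz : Iso f z)
    (h : ∀ y, tpi T fW w₀ y = 0 → z y = y) :
    ∃ γ : End F E, ∀ y, z y = y + T.t (γ (tpi T fW w₀ y)) w₀ := by
  obtain ⟨x, hx⟩ := H.exists_one hw
  obtain ⟨ψ, hψ⟩ := exists_dual_of_ne_zero (F := F) hw
  refine ⟨T.cR ψ ∘ₗ ((z : V →ₗ[F] V) - LinearMap.id) ∘ₗ T.t.flip x, fun y => ?_⟩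
  have h1 : z y - y = z (T.t (tpi T fW w₀ y) x) - T.t (tpi T fW w₀ y) x := by
    have := h (y - T.t (tpi T fW w₀ y) x) (by simp [hx])
    rw [map_sub] at this
    linear_combination (norm := module) this
  have h2 : z y - y ∈ T.LS (F ∙ w₀) := H.mem_LS_of_tpi fun u hu => H.tpi_eq_zero fun e => by
    have h3 := H.reflW (hu _ (Submodule.mem_span_singleton_self _))
    rw [map_sub, LinearMap.sub_apply, ← hz y, h (T.t e u) (by simp [h3]), sub_self]
  obtain ⟨e, he⟩ := T.mem_LS_span.1 h2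
  simp only [LinearMap.comp_apply, LinearMap.flip_apply, LinearMap.sub_apply, LinearEquiv.coe_coe,
    LinearMap.id_apply, ← h1, he, cR_t, hψ, one_smul]
  rw [← he]; abel

omit H [FiniteDimensional F W] in
theorem _root_.H91.UL.exists_phi (hw : w₀ ≠ 0) {g : V ≃ₗ[F] V} (hg : UL T fW w₀ g) :
    ∃ Φ : V →ₗ[F] E, (∀ e, Φ (T.t e w₀) = 0) ∧
      ∀ y ∈ T.LS (W1 fW w₀), g y = y + T.t (Φ y) w₀ := by
  obtain ⟨ψ, hψ⟩ := exists_dual_of_ne_zero (F := F) hw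
  refine ⟨T.cR ψ ∘ₗ ((g : V →ₗ[F] V) - LinearMap.id), fun e => by simp [hg.1], fun y hy => ?_⟩
  have h2 : g y - y ∈ T.LS (F ∙ w₀) := Submodule.mem_comap.1
    ((T.LS_le (L := (T.LS (F ∙ w₀)).comap ((g : V →ₗ[F] V) - LinearMap.id))).2
      (fun e w hw => Submodule.mem_comap.2 (hg.2 e w hw)) hy)
  obtain ⟨e, he⟩ := T.mem_LS_span.1 h2
  simp only [LinearMap.comp_apply, LinearMap.sub_apply, LinearEquiv.coe_coe,
    LinearMap.id_apply, he, cR_t, hψ, one_smul]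
  rw [← he]; abel

end TF

/-- The adjoint of `α` for `fE`. -/
noncomputable def adj [FiniteDimensional F E] (h : fE.Nondegenerate) (α : End F E) : End F E :=
  fE.leftAdjointOfNondegenerate h α

theorem adj_spec [FiniteDimensional F E] (h : fE.Nondegenerate) (α : End F E) (x y : E) :
    fE (adj h α x) y = fE x (α y) := fE.isAdjointPairLeftAdjointOfNondegenerate h α x y

/-- The standing hypotheses on an overgroup `M` of the tensor product group. -/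
structure MC (T : Ten F E W V) (fE : BilinForm F E) (fW : BilinForm F W) (f : BilinForm F V)
    (δ ε : F) (M : Subgroup (V ≃ₗ[F] V)) : Prop extends TF T fE fW f δ ε where
  isom : ∀ m ∈ M, Iso f m
  half : ∀ u, ∃ c, fW u u = c * (1 + ε)
  eb : ∀ w u, fW w w = 0 → fW u w = 0 → ∃ B, T.rt B ∈ M ∧ IsEB fW ε w u B
  lift : ∀ w, w ≠ 0 → fW w w = 0 → ∀ k ∈ T.grp, Iso f k → ∀ g ∈ M, UL T fW w (k⁻¹ * g) → k ∈ M

namespace MC

variable (H : MC T fE fW f δ ε M)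
include H

theorem exists_iso {y z : W} (hz : fW z z = 0) (h : fW y z ≠ 0) :
    ∃ c : F, fW (y - c • z) (y - c • z) = 0 := by
  obtain ⟨c, hc⟩ := H.half y
  refine ⟨c / fW y z, ?_⟩
  simp only [map_sub, map_smul, LinearMap.sub_apply, LinearMap.smul_apply, smul_eq_mul, hz, hc,
    H.symW y z]
  field_simp
  ring

theorem tpi_mem_QA (h0 : fW w₀ w₀ = 0) {u : W} (hu : fW u w₀ = 0) :
    tpi T fW u ∈ T.QA M (W₁ := W1 fW w₀) h0 := by
  obtain ⟨B, h1, h2⟩ := H.eb w₀ u h0 hu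
  exact ⟨fun e => by simp [H.reflW hu], _, h1, fun y hy => h2.rt_of_mem (mem_LS_W1.1 hy)⟩

theorem hperp (m : V ≃ₗ[F] V) (hm : m ∈ M) (h : ∀ e, m (T.t e w₀) = T.t e w₀) :
    ∀ y ∈ T.LS (W1 fW w₀), m y ∈ T.LS (W1 fW w₀) := fun y hy => by
  rw [mem_LS_W1, H.tpi_sub (H.isom m hm) h, mem_LS_W1.1 hy]

variable [FiniteDimensional F E]

/-- The commutator formula. -/
theorem comm_mem_ZS (h0 : fW w₀ w₀ = 0) {u : W} (hu : fW u w₀ = 0) {α : End F E}
    (hα : α ∈ T.E0 M u (W₁ := W1 fW w₀) h0) : adj H.ndE α - ε • α ∈ ZS T fW M w₀ := by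
  obtain ⟨Φ, ⟨h1, m, hm, h2⟩, h3⟩ := hα
  obtain ⟨B, hB, hE⟩ := H.eb w₀ u h0 hu
  have m0 : ∀ e, m (T.t e w₀) = T.t e w₀ := fun e => by
    simp [h2 _ (T.t_mem_LS e (J := W1 fW w₀) h0), h1]
  have n0 : ∀ e, T.rt B (T.t e w₀) = T.t e w₀ := fun e => by
    simp [hE.apply_of h0, H.reflW hu]
  refine ⟨(T.rt B * m)⁻¹ * (m * T.rt B), mul_mem (inv_mem (mul_mem hB hm)) (mul_mem hm hB),
    fun y => (T.rt B * m).injective ?_⟩
  have e1 : tpi T fW w₀ (m y - y) = 0 := by rw [map_sub, H.tpi_sub (H.isom m hm) m0, sub_self]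
  have e2 : tpi T fW w₀ (T.rt B y - y) = 0 := by
    rw [map_sub, H.tpi_sub (H.isom _ hB) n0, sub_self]
  have e3 := hE.rt_of_mem (T := T) e1
  have e4 := h2 _ (mem_LS_W1.2 e2)
  have e5 : tpi T fW u (m y - y) = - adj H.ndE α (tpi T fW w₀ y) := H.extE fun e => by
    have k1 := h2 _ (T.t_mem_LS e (J := W1 fW w₀) hu)
    have k2 := H.isom m hm y (T.t e u)
    have k3 := H.isom m hm y (T.t (α e) w₀)
    rw [k1, map_add, h3] at k2
    rw [m0] at k3
    rw [← H.f_t, map_neg, LinearMap.neg_apply, adj_spec, ← H.f_t, map_sub, LinearMap.sub_apply]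
    linear_combination k2 - k3
  have e6 : Φ (T.rt B y - y) = - ε • α (tpi T fW w₀ y) := by
    obtain ⟨c, hc⟩ := hE
    rw [rt_eb hc]
    simp [h1, h3]
  rw [map_sub, e5] at e3
  rw [map_sub, e6] at e4
  simp only [LinearEquiv.mul_apply, LinearEquiv.coe_inv, LinearEquiv.apply_symm_apply, map_add,
    m0, n0, LinearMap.sub_apply, LinearMap.smul_apply, map_sub, map_smul, map_neg,
    LinearMap.neg_apply, neg_smul] at e3 e4 ⊢
  linear_combination (norm := module) e4 - e3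

variable [FiniteDimensional F W]

omit [FiniteDimensional F E] in
theorem exists_partner (hw : w₀ ≠ 0) (h0 : fW w₀ w₀ = 0) : ∃ x, fW x w₀ = 1 ∧ fW x x = 0 := by
  obtain ⟨x, hx⟩ := H.exists_one hw
  obtain ⟨c, hc⟩ := H.exists_iso h0 (y := x) (by simp [hx])
  exact ⟨_, by simp [hx, h0], hc⟩

/-- If all values and all central elements are scalar, the stabiliser of `E ⊗ w₀` in `M` preserves
the decomposition. -/
theorem stab_le [Nontrivial E] (hw : w₀ ≠ 0) (h0 : fW w₀ w₀ = 0)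
    (h3 : ∃ x y, fW x w₀ = 0 ∧ fW y w₀ = 0 ∧ fW x y = 1)
    (hs : ∀ z, fW z w₀ = 0 → ∀ α ∈ T.E0 M z (W₁ := W1 fW w₀) h0, ∃ c : F, α = c • 1)
    (hz : ∀ γ ∈ ZS T fW M w₀, ∃ c : F, γ = c • 1)
    (g : V ≃ₗ[F] V) (hg : g ∈ M) (h : ∀ v ∈ T.LS (F ∙ w₀), g v ∈ T.LS (F ∙ w₀)) : g ∈ T.grp := by
  have := T.finite
  have gI := H.isom g hg
  have hs' : ∀ Φ ∈ T.QA M (W₁ := W1 fW w₀) h0, ∃ φ : Dual F W, ∀ e, ∀ z ∈ W1 fW w₀,
      Φ (T.t e z) = φ z • e := fun Φ hΦ => exists_dual_of_scalar fun z hz => by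
    obtain ⟨c, hc⟩ := hs z hz (Φ ∘ₗ T.t.flip z) ⟨Φ, hΦ, fun e => rfl⟩
    exact ⟨c, fun e => LinearMap.congr_fun hc e⟩
  obtain ⟨A, hA⟩ := T.exists_equiv_of_stab hw h
  have hA' : ∀ e, g.symm (T.t e w₀) = T.t (A.symm e) w₀ := fun e => g.injective (by simp [hA])
  have gp : ∀ y, tpi T fW w₀ y = 0 → tpi T fW w₀ (g y) = 0 := fun y hy =>
    H.tpi_eq_zero fun e => by rw [← A.apply_symm_apply e, ← hA, gI, H.f_t, hy]; simp
  obtain ⟨B, b1, b2⟩ := T.exists_tensor_mod (W₁ := W1 fW w₀) hA fun φ' hφ => by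
    obtain ⟨u, hu⟩ := exists_flip_eq H.ndW φ'
    have e1 : φ' = fW.flip u := LinearMap.ext fun x => (hu x).symm
    obtain ⟨C, c1, c2⟩ := H.eb w₀ u h0 (H.reflW (by rw [hu, hφ]))
    obtain ⟨φ, hφ⟩ := hs' ((A.symm : E →ₗ[F] E) ∘ₗ T.cR φ' ∘ₗ (g : V →ₗ[F] V))
      ⟨by simp [hA, hφ], _, mul_mem (mul_mem (inv_mem hg) c1) hg, fun y hy => by
        simp [c2.rt_of_mem (gp y (mem_LS_W1.1 hy)), hA', e1, tpi]⟩
    exact ⟨φ, fun e w hw => A.symm.injective (by simpa using hφ e w hw)⟩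
  obtain ⟨e₀, he₀⟩ := exists_ne (0 : E)
  obtain ⟨e₁, he₁⟩ := exists_form_ne_zero H.ndE he₀
  have b3 : ∀ w, fW w w₀ = 0 → fW (B w) w₀ = 0 := fun w hw => by
    obtain ⟨x, hx⟩ := b2 e₀ w hw
    simpa [hx, h0, he₀] using gp (T.t e₀ w) (by simp [hw])
  have b4 : ∀ e e' w w', fW w w₀ = 0 → fW w' w₀ = 0 →
      fE (A e) (A e') * fW (B w) (B w') = fE e e' * fW w w' := fun e e' w w' k1 k2 => by
    obtain ⟨x, hx⟩ := b2 e w k1
    obtain ⟨x', hx'⟩ := b2 e' w' k2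
    have := gI (T.t e w) (T.t e' w')
    simpa [hx, hx', H.tens, h0, b3 w k1, H.reflW (b3 w' k2)] using this
  obtain ⟨x, y, x0, y0, xy⟩ := h3
  obtain ⟨μ, hμ⟩ : ∃ μ, ∀ e e', μ * fE (A e) (A e') = fE e e' :=
    ⟨fW (B x) (B y), fun e e' => by rw [mul_comm, b4 _ _ _ _ x0 y0, xy, mul_one]⟩
  have b5 : ∀ w w', fW w w₀ = 0 → fW w' w₀ = 0 → fW (B w) (B w') = μ * fW w w' :=
    fun w w' k1 k2 => mul_left_cancel₀ he₁ (by
      linear_combination μ * b4 e₁ e₀ w w' k1 k2 - fW (B w) (B w') * hμ e₁ e₀)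
  have hμ0 : μ ≠ 0 := fun e => he₁ (by rw [← hμ, e, zero_mul])
  obtain ⟨p, p1, p2⟩ := H.exists_partner hw h0
  have p3 : fW w₀ p = ε := by rw [H.symW, p1, mul_one]
  let q : W →ₗ[F] W := LinearMap.id - (fW.flip w₀).smulRight p
  have q1 : ∀ w, q w = w - fW w w₀ • p := fun w => rfl
  have q2 : ∀ w, fW (q w) w₀ = 0 := fun w => by simp [q1, p1]
  let B' : W →ₗ[F] W := B ∘ₗ q + (ε • (fW.flip p - fW.flip p ∘ₗ B ∘ₗ q)).smulRight w₀ +
    (μ • fW.flip w₀).smulRight p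
  have B1 : ∀ w, B' w = B (q w) + (ε * (fW w p - fW (B (q w)) p)) • w₀ + (μ * fW w w₀) • p :=
    fun w => rfl
  have B2 : ∀ w w', fW (B' w) (B' w') = μ * fW w w' := fun w w' => by
    have k1 := b5 _ _ (q2 w) (q2 w')
    have k2 := b3 _ (q2 w)
    have k3 := H.reflW (b3 _ (q2 w'))
    have k4 := H.symW (B (q w')) p
    have k5 := H.symW w' p
    have k6 := H.sqW
    conv_rhs at k1 => simp only [q1, map_sub, map_smul, LinearMap.sub_apply, LinearMap.smul_apply,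
      smul_eq_mul, p2, k5]
    simp only [B1, map_add, map_smul, LinearMap.add_apply, LinearMap.smul_apply, smul_eq_mul, h0,
      p1, p2, p3, k1, k2, k3, k4]
    linear_combination (μ * fW w' w₀ * (fW w p - fW (B (q w)) p)) * k6
  have hB : Function.Injective B' := (injective_iff_map_eq_zero B').2 fun w hw' =>
    H.ndW.1 w fun w' => mul_left_cancel₀ hμ0 (by rw [← B2, hw']; simp)
  let k := T.tm A (LinearEquiv.ofInjectiveEndo B' hB)
  have kI : Iso f k := H.iso_tm hμ B2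
  have B3 : B' w₀ = w₀ := by simp [B1, q1, h0, b1]
  have k1 : ∀ e, k.symm (T.t e w₀) = T.t (A.symm e) w₀ := fun e => k.injective (by simp [k, B3])
  have u1 : UL T fW w₀ (k⁻¹ * g) := ⟨fun e => by simp [hA, k1], fun e w hw => by
    obtain ⟨x, hx⟩ := b2 e w hw
    have e1 : k.symm (T.t (A e) (B' w)) = T.t e w := k.injective (by simp [k])
    have e2 : B w = B' w - (ε * (fW w p - fW (B w) p)) • w₀ := by simp [B1, q1, hw]
    refine T.mem_LS_span.2 ⟨A.symm x - (ε * (fW w p - fW (B w) p)) • e, ?_⟩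
    rw [LinearEquiv.mul_apply, hx, LinearEquiv.coe_inv]
    conv_lhs => rw [e2]
    simp only [map_add, map_sub, map_smul, e1, k1, LinearEquiv.symm_apply_apply,
      LinearMap.sub_apply, LinearMap.smul_apply]
    abel⟩
  have u2 : k⁻¹ * g ∈ M := mul_mem (inv_mem (H.lift w₀ hw h0 k (T.tm_mem _ _) kI g hg u1)) hg
  obtain ⟨Φ, f1, f2⟩ := u1.exists_phi hw
  obtain ⟨φ, hφ⟩ := hs' Φ ⟨f1, _, u2, f2⟩
  obtain ⟨v, hv⟩ := exists_flip_eq H.ndW φ
  have v0 : fW w₀ v = 0 := by simpa [f1, he₀, hv] using (hφ e₀ w₀ h0).symm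
  obtain ⟨C, c1, c2⟩ := H.eb w₀ v h0 (H.reflW v0)
  have u3 := mul_mem (inv_mem c1) u2
  obtain ⟨γ, hγ⟩ := H.exists_gamma hw (H.isom _ u3) fun y hy => (T.rt C).injective (by
    rw [c2.rt_of_mem hy, LinearEquiv.mul_apply, LinearEquiv.coe_inv, LinearEquiv.apply_symm_apply,
      f2 y (mem_LS_W1.2 hy), T.eqOn_LS (f := Φ) (g := tpi T fW v)
        (fun e w hw => by rw [hφ e w hw, tpi_t, hv]) (mem_LS_W1.2 hy)])
  obtain ⟨c, rfl⟩ := hz γ ⟨_, u3, hγ⟩
  have e3 : (T.rt C)⁻¹ * (k⁻¹ * g) =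
      T.rt (LinearEquiv.transvection (f := c • fW.flip w₀) (v := w₀) (by simp [h0])) :=
    LinearEquiv.ext fun y => by rw [hγ, rt_tv, cR_smul]; rfl
  rw [← mul_inv_cancel_left k g, ← mul_inv_cancel_left (T.rt C) (k⁻¹ * g), e3]
  exact mul_mem (T.tm_mem _ _) (mul_mem (T.rt_mem _) (T.rt_mem _))

omit [FiniteDimensional F E] in
/-- An element of the Levi factor of the isotropic line `⟨w₀, z⟩` mapping `w₀` to `-z`. -/
theorem exists_s (h0 : fW w₀ w₀ = 0) {z : W} (hz : fW z z = 0) (hzw : fW z w₀ = 0)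
    (hi : z ∉ F ∙ w₀) (hw : w₀ ≠ 0) : ∃ s, T.rt s ∈ M ∧ s w₀ = -z ∧
      ∀ w ∈ W1 fW w₀ ⊓ W1 fW z, s.symm w ∈ W1 fW w₀ ⊓ W1 fW z ∧
        ∀ ψ : Dual F W, ψ w₀ = 0 → ψ z = 0 → ψ (s.symm w) = ψ w := by
  obtain ⟨v₁, a1, a2⟩ := H.exists_pair (notMem_span_symm hw hi)
  obtain ⟨v₂, a3, a4⟩ := H.exists_pair hi
  obtain ⟨B₁, b1, b2⟩ := H.eb z (-v₁) hz (by simp [H.reflW a2])
  obtain ⟨B₂, b3, b4⟩ := H.eb w₀ v₂ h0 (H.reflW a4)
  have hwz := H.reflW hzw
  have k1 : ∀ w ∈ W1 fW w₀ ⊓ W1 fW z, ∃ a b : F, (B₂ * B₁) w = w + a • w₀ + b • z :=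
    fun w hw => ⟨fW w v₂ - fW w v₁, -fW w v₁, by
      rw [LinearEquiv.mul_apply, b2.apply_of hw.2, map_add, map_smul, b4.apply_of hw.1,
        b4.apply_of hzw, a3]
      simp only [map_neg]; module⟩
  have k2 : ∀ w ∈ W1 fW w₀ ⊓ W1 fW z, (B₂ * B₁) w ∈ W1 fW w₀ ⊓ W1 fW z := fun w hw => by
    obtain ⟨a, b, e⟩ := k1 w hw
    rw [e]
    exact add_mem (add_mem hw (Submodule.smul_mem _ _ ⟨h0, hwz⟩)) (Submodule.smul_mem _ _ ⟨hzw, hz⟩)
  refine ⟨B₂ * B₁, by rw [map_mul]; exact mul_mem b3 b1, ?_, fun w hw => ?_⟩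
  · rw [LinearEquiv.mul_apply, b2.apply_of hwz, map_add, map_smul, b4.apply_of h0,
      b4.apply_of hzw, a3, a4, map_neg, a1]
    module
  · have k3 := inv_mem_of_le k2 w hw
    obtain ⟨a, b, e⟩ := k1 _ k3
    refine ⟨k3, fun ψ h1 h2 => ?_⟩
    have := congrArg ψ e
    simp only [LinearEquiv.coe_inv, LinearEquiv.apply_symm_apply, map_add, map_smul, h1, h2,
      smul_zero, add_zero] at this
    exact this.symm

/-- Central elements are values. -/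
theorem ZS_scalar [Nontrivial E] (hw : w₀ ≠ 0) (h0 : fW w₀ w₀ = 0) {z : W} (hz : fW z z = 0)
    (hzw : fW z w₀ = 0) (hi : z ∉ F ∙ w₀)
    (hs : ∀ z, fW z w₀ = 0 → ∀ α ∈ T.E0 M z (W₁ := W1 fW w₀) h0, ∃ c : F, α = c • 1) :
    ∀ γ ∈ ZS T fW M w₀, ∃ c : F, γ = c • 1 := by
  rintro γ ⟨m, hm, h1⟩
  obtain ⟨s, s1, s2, -⟩ := H.exists_s h0 hz hzw hi hw
  obtain ⟨u, u1, u2⟩ := H.exists_pair hi
  have sI := H.iso_of_rt (H.isom _ s1)
  have h2 : ∀ y, (T.rt s * m * (T.rt s)⁻¹) y = y + T.t (γ (tpi T fW z y)) z := fun y => by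
    have := H.tpi_rt sI w₀ ((T.rt s)⁻¹ y)
    rw [s2, ← neg_one_smul F z, tpi_smul] at this
    rw [LinearEquiv.mul_apply, LinearEquiv.mul_apply, h1, map_add, ← this]
    simp [s2]
  have h3 := mul_mem (mul_mem s1 hm) (inv_mem s1)
  have h4 : ∀ e, (T.rt s * m * (T.rt s)⁻¹) (T.t e w₀) = T.t e w₀ := fun e => by
    rw [h2]; simp [H.reflW hzw]
  have h5 := H.tpi_mem_QA h0 (H.reflW u2)
  obtain ⟨c, hc⟩ := hs u (H.reflW u2) (ε • γ)
    ⟨_, sub_mem (comp_mem_QA h5 h3 h4 (H.hperp _ h3 h4)) h5, fun e => by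
      simp only [LinearMap.sub_apply, LinearMap.comp_apply, LinearEquiv.coe_coe, h2]
      simp [H.symW z u, u1]⟩
  exact ⟨ε * c, by rw [mul_smul, ← hc, smul_smul, H.sqW, one_smul]⟩

/-- The algebra generated by the values at an isotropic vector consists of pure maps. -/
theorem pure_mem (hw : w₀ ≠ 0) (h0 : fW w₀ w₀ = 0) {z : W} (hz : fW z z = 0)
    (hzw : fW z w₀ = 0) (hi : z ∉ F ∙ w₀) (h5 : 5 ≤ finrank F W) {β : End F E}
    (hβ : β ∈ Algebra.adjoin F (T.E0 M z (W₁ := W1 fW w₀) h0)) :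
    β ∘ₗ tpi T fW z ∈ T.QA M (W₁ := W1 fW w₀) h0 := by
  obtain ⟨s, s1, s2, s3⟩ := H.exists_s h0 hz hzw hi hw
  have hwz := H.reflW hzw
  obtain ⟨u, ⟨u1, u2⟩, u', ⟨u3, u4⟩, u5⟩ : ∃ u ∈ W1 fW w₀ ⊓ W1 fW z,
      ∃ u' ∈ W1 fW w₀ ⊓ W1 fW z, fW u u' = 1 := by
    obtain ⟨x, -, x1, x2⟩ := exists_mem_notMem_ker (W := ⊤) (Z := Submodule.span F {x | x ∈ [w₀, z]})
      [fW.flip w₀, fW.flip z] (by
        have := finrank_span_list_le (F := F) [w₀, z]
        simp only [finrank_top, List.length] at *; omega)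
    obtain ⟨φ, p1, p2⟩ := exists_dual_eq_one x1
    obtain ⟨y, hy⟩ := exists_flip_eq H.ndW φ
    exact ⟨x, ⟨x2 _ (by simp), x2 _ (by simp)⟩, y,
      ⟨H.reflW (by rw [hy, p2 _ (Submodule.subset_span (by simp))]),
        H.reflW (by rw [hy, p2 _ (Submodule.subset_span (by simp))])⟩, by rw [hy, p1]⟩
  rw [SetLike.mem_coe, mem_W1] at u1 u2 u3 u4
  have hE := adjoin_E0_le (T := T) (M := M) (z := z) (W₁ := W1 fW w₀) (h := h0)
    (W₂ := W1 fW w₀ ⊓ W1 fW z) (ψ := fW.flip u') ⟨h0, hwz⟩ inf_le_left (H.reflW u3)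
    H.hperp s1 s2 (fun w hw => ⟨(s3 w hw).1, (s3 w hw).2 _ (H.reflW u3) (H.reflW u4)⟩)
    (fun c => ⟨_, H.tpi_mem_QA h0 (u := c • u') (by simp [u3]), by simp⟩) β hβ
  obtain ⟨Φ, f1, f2⟩ := hE (-ε)
  obtain ⟨B, b1, c, b2⟩ := H.eb z u hz u2
  have b3 : ∀ e, T.rt B (T.t e w₀) = T.t e w₀ := fun e => by simp [b2, hwz, H.reflW u1]
  refine QA_congr (sub_mem (comp_mem_QA f1 b1 b3 (H.hperp _ b1 b3)) f1) fun e w _ => ?_
  have k1 := f2 e z ⟨hzw, hz⟩
  have k2 := f2 e u ⟨u1, u2⟩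
  simp only [LinearMap.BilinForm.flip_apply, u5, H.reflW u4, mul_zero, zero_smul, mul_one] at k1 k2
  simp only [LinearMap.comp_apply, tpi_t, LinearMap.sub_apply, LinearEquiv.coe_coe, rt_t, b2,
    map_add, map_sub, map_smul, k1, k2, smul_smul]
  rw [show ε * fW w z * -ε = - fW w z by linear_combination (-fW w z) * H.sqW]
  simp

omit [FiniteDimensional F E] in
theorem W1_le {z : W} (hz : fW z z = 0) (hzw : fW z w₀ = 0) (hi : z ∉ F ∙ w₀) {X : Submodule F W}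
    (h1 : z ∈ X) (h2 : ∀ w, fW w w₀ = 0 → fW w w = 0 → fW w z ≠ 0 → w ∈ X) {w : W}
    (hw : fW w w₀ = 0) : w ∈ X := by
  have k : ∀ w, fW w w₀ = 0 → fW w z ≠ 0 → w ∈ X := fun w k1 k2 => by
    obtain ⟨c, hc⟩ := H.exists_iso hz k2
    simpa using add_mem (h2 _ (by simp [k1, hzw]) hc (by simpa [hz] using k2)) (X.smul_mem c h1)
  by_cases h3 : fW w z = 0
  · obtain ⟨u, u1, u2⟩ := H.exists_pair hi
    have u3 : fW u z ≠ 0 := fun e => by simp [H.reflW e] at u1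
    simpa using sub_mem (k (w + u) (by simp [hw, H.reflW u2]) (by simpa [h3] using u3))
      (k u (H.reflW u2) u3)
  · exact k w hw h3

theorem scalar_of_iso (h0 : fW w₀ w₀ = 0) {z : W} (hz : fW z z = 0) (hzw : fW z w₀ = 0)
    (hi : z ∉ F ∙ w₀) (hs : ∀ z, fW z w₀ = 0 → fW z z = 0 → z ∉ F ∙ w₀ →
      ∀ α ∈ T.E0 M z (W₁ := W1 fW w₀) h0, ∃ c : F, α = c • 1) :
    ∀ z, fW z w₀ = 0 → ∀ α ∈ T.E0 M z (W₁ := W1 fW w₀) h0, ∃ c : F, α = c • 1 := by
  rintro w hw α ⟨Φ, h1, h2⟩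
  have k : ∀ w, (∃ c : F, Φ ∘ₗ T.t.flip w = c • 1) ↔
      w ∈ (F ∙ (1 : End F E)).comap ((LinearMap.llcomp F E V E Φ) ∘ₗ T.t.flip) := fun w => by
    rw [Submodule.mem_comap, Submodule.mem_span_singleton]
    exact exists_congr fun c => eq_comm
  obtain ⟨c, hc⟩ := (k w).2 (H.W1_le hz hzw hi ((k z).1 (hs z hzw hz hi _ ⟨Φ, h1, fun _ => rfl⟩))
    (fun w k1 k2 k3 => (k w).1 (hs w k1 k2 (fun e => by
      obtain ⟨c, rfl⟩ := Submodule.mem_span_singleton.1 e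
      simp [H.reflW hzw] at k3) _ ⟨Φ, h1, fun _ => rfl⟩)) hw)
  exact ⟨c, hc ▸ LinearMap.ext fun e => (h2 e).symm⟩

/-- If the values at one isotropic vector generate the full algebra, all pure maps occur. -/
theorem pure_all (hw : w₀ ≠ 0) (h0 : fW w₀ w₀ = 0) {z : W} (hz : fW z z = 0)
    (hzw : fW z w₀ = 0) (hi : z ∉ F ∙ w₀) (h5 : 5 ≤ finrank F W)
    (ht : Algebra.adjoin F (T.E0 M z (W₁ := W1 fW w₀) h0) = ⊤) {u : W} (hu : fW u w₀ = 0)
    (β : End F E) : β ∘ₗ tpi T fW u ∈ T.QA M (W₁ := W1 fW w₀) h0 := by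
  let X : Submodule F W :=
    { carrier := {u | ∀ β : End F E, β ∘ₗ tpi T fW u ∈ T.QA M (W₁ := W1 fW w₀) h0}
      zero_mem' := fun β => by
        convert zero_mem (T.QA M (W₁ := W1 fW w₀) h0) using 1
        ext y; simp
      add_mem' := fun ha hb β => by
        convert add_mem (ha β) (hb β) using 1
        ext y; simp [tpi_add]
      smul_mem' := fun c u ha β => by
        convert ha (c • β) using 1
        ext y; simp [tpi_smul] }
  have k : ∀ β : End F E, β ∘ₗ tpi T fW z ∈ T.QA M (W₁ := W1 fW w₀) h0 := fun β =>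
    H.pure_mem hw h0 hz hzw hi h5 (ht ▸ Algebra.mem_top)
  refine H.W1_le (X := X) hz hzw hi k (fun w k1 k2 k3 β => H.pure_mem hw h0 k2 k1 (fun e => ?_) h5
    (Algebra.subset_adjoin ⟨_, k ((fW w z)⁻¹ • β), fun e => by simp [smul_smul, k3]⟩)) hu β
  obtain ⟨c, rfl⟩ := Submodule.mem_span_singleton.1 e
  simp [H.reflW hzw] at k3

/-- Membership of an isometry that acts on `E ⊗ w₀^⊥` like a member of `M`. -/
theorem mem_of_QA (hw : w₀ ≠ 0) (h0 : fW w₀ w₀ = 0) {Φ : V →ₗ[F] E}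
    (hΦ : Φ ∈ T.QA M (W₁ := W1 fW w₀) h0) {g : V ≃ₗ[F] V} (hg : Iso f g)
    (h : ∀ y, tpi T fW w₀ y = 0 → g y = y + T.t (Φ y) w₀)
    (hγ : ∀ m ∈ M, ∀ γ : End F E, (∀ y, (m⁻¹ * g) y = y + T.t (γ (tpi T fW w₀ y)) w₀) →
      γ ∈ ZS T fW M w₀) : g ∈ M := by
  obtain ⟨-, m, hm, h2⟩ := hΦ
  obtain ⟨γ, h3⟩ := H.exists_gamma hw ((H.isom m hm).inv.mul hg) fun y hy => m.injective (by
    rw [h2 y (mem_LS_W1.2 hy), ← h y hy]; simp)
  obtain ⟨n, hn, h4⟩ := hγ m hm γ h3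
  rw [← mul_inv_cancel_left m g, show m⁻¹ * g = n from LinearEquiv.ext fun y => by rw [h3, h4]]
  exact mul_mem hm hn

end MC

/-- An alternating endomorphism is of the form `β* - δ β`. -/
theorem exists_adj_sub [FiniteDimensional F E] (h : fE.Nondegenerate)
    (hs : ∀ x y, fE y x = δ * fE x y) {γ : End F E} (hγ : ∀ x, fE (γ x) x = 0) :
    ∃ β, γ = adj h β - δ • β := by
  let b := finBasis F E
  let g : BilinForm F E := fE ∘ₗ γ
  have g0 : g.IsAlt := hγ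
  let k : BilinForm F E := b.constr F fun i => b.constr F fun j => if i < j then g (b i) (b j) else 0
  have k1 : g = k - k.flip := LinearMap.BilinForm.ext_basis b fun i j => by
    simp only [k, LinearMap.sub_apply, LinearMap.BilinForm.flip_apply, Basis.constr_basis]
    rcases lt_trichotomy i j with h | rfl | h
    · simp [h, h.not_gt]
    · simpa using g0 _
    · simp [h, h.not_gt, g0.neg_eq]
  let β : End F E := (LinearMap.BilinForm.toDual fE.flip h.flip).symm.toLinearMap ∘ₗ k.flip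
  have hβ : ∀ x y, fE x (β y) = k x y := fun x y =>
    LinearMap.BilinForm.apply_toDual_symm_apply (B := fE.flip) (hB := h.flip) _ x
  refine ⟨β, LinearMap.ext fun x => sub_eq_zero.1 (h.1 _ fun y => ?_)⟩
  have := LinearMap.congr_fun (LinearMap.congr_fun k1 x) y
  simp only [g, LinearMap.comp_apply, LinearMap.sub_apply, LinearMap.BilinForm.flip_apply,
    ← hβ, hs (β x) y] at this
  simp [adj_spec, this]

end H91
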