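/- Rank estimates for unipotent elements of a tensor product group. -/
import Cfsg.Agent.H91.TenForm
import Cfsg.Agent.H60.Geom

set_option autoImplicit false

namespace H91

open Module H56 H56.Ten H62
open LinearMap (BilinForm)

variable {F E W V : Type*} [Field F] [AddCommGroup E] [Module F E] [AddCommGroup W] [Module F W]
  [AddCommGroup V] [Module F V]

/-- `g` is unipotent. -/
def Unip (g : V ≃ₗ[F] V) : Prop := IsNilpotent ((g : End F V) - 1)

theorem coe_pow_end (g : V ≃ₗ[F] V) (n : ℕ) : ((g ^ n : V ≃ₗ[F] V) : End F V) = (g : End F V) ^ n := by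
  induction n with
  | zero => rfl
  | succ n ih => rw [pow_succ, pow_succ, ← ih]; rfl

theorem unip_iff (p : ℕ) [hp : Fact p.Prime] [CharP F p] {g : V ≃ₗ[F] V} :
    Unip g ↔ ∃ k, g ^ p ^ k = 1 := by
  rcases subsingleton_or_nontrivial V with h | h
  · exact ⟨fun _ => ⟨0, Subsingleton.elim _ _⟩, fun _ => ⟨0, Subsingleton.elim _ _⟩⟩
  have : CharP (End F V) p := charP_of_injective_algebraMap (algebraMap F (End F V)).injective p
  have key : ∀ k, ((g : End F V) - 1) ^ p ^ k = 0 ↔ g ^ p ^ k = 1 := fun k => by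
    rw [sub_pow_char_pow_of_commute p k (Commute.one_right _), one_pow, sub_eq_zero, ← coe_pow_end]
    exact ⟨fun h => LinearEquiv.toLinearMap_injective h, fun h => by rw [h]; rfl⟩
  exact ⟨fun ⟨n, hn⟩ => ⟨n, (key n).1 (pow_eq_zero_of_le (Nat.lt_pow_self hp.out.one_lt).le hn)⟩,
    fun ⟨k, hk⟩ => ⟨_, (key k).2 hk⟩⟩

theorem Unip.conj {g : V ≃ₗ[F] V} (h : Unip g) (k : V ≃ₗ[F] V) : Unip (k * g * k⁻¹) := by
  have := h.map (k.conjAlgEquiv F)
  rwa [map_sub, map_one] at this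

theorem unip_of_three {g : V ≃ₗ[F] V} {L L' : Submodule F V} (h1 : ∀ y, g y - y ∈ L')
    (h2 : ∀ y ∈ L', g y - y ∈ L) (h3 : ∀ y ∈ L, g y = y) : Unip g :=
  ⟨3, LinearMap.ext fun y => by
    rw [pow_succ', pow_two]
    exact sub_eq_zero.2 (h3 _ (h2 _ (h1 y)))⟩

/-- The fixed space. -/
def fx (g : V ≃ₗ[F] V) : Submodule F V := LinearMap.ker ((g : V →ₗ[F] V) - LinearMap.id)

theorem mem_fx {g : V ≃ₗ[F] V} {x : V} : x ∈ fx g ↔ g x = x := sub_eq_zero

theorem finrank_mv_add_fx [FiniteDimensional F V] (g : V ≃ₗ[F] V) :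
    finrank F (mv g) + finrank F (fx g) = finrank F V := LinearMap.finrank_range_add_finrank_ker _

theorem Unip.exists_dual {B : W ≃ₗ[F] W} (hB : Unip B) {J₀ J : Submodule F W}
    (hJ : ∀ w ∈ J, B w ∈ J) (h0 : ∀ w ∈ J₀, B w ∈ J₀) (hne : ¬ J ≤ J₀) :
    ∃ φ : Dual F W, (∃ x ∈ J, φ x = 1) ∧ (∀ w ∈ J₀, φ w = 0) ∧ ∀ w ∈ J, φ (B w) = φ w := by
  have h1 : ¬ J ≤ J₀ ⊔ J.map ((B : End F W) - 1) := fun h => by
    obtain ⟨n, hn⟩ := hB
    have : ∀ n : ℕ, J ≤ J₀ ⊔ J.map (((B : End F W) - 1) ^ n) := fun n => by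
      induction n with
      | zero => simp [End.one_eq_id]
      | succ n ih =>
        refine h.trans (sup_le le_sup_left ((Submodule.map_mono ih).trans ?_))
        rw [Submodule.map_sup, pow_succ', End.mul_eq_comp, Submodule.map_comp]
        refine sup_le_sup_right ?_ _
        rintro _ ⟨w, hw, rfl⟩
        exact sub_mem (h0 w hw) hw
    exact hne (by simpa [hn] using this n)
  obtain ⟨x, x1, x2⟩ := SetLike.not_le_iff_exists.1 h1
  obtain ⟨φ, p1, p2⟩ := exists_dual_eq_one x2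
  exact ⟨φ, ⟨x, x1, p1⟩, fun w hw => p2 w (Submodule.mem_sup_left hw), fun w hw => by
    simpa [sub_eq_zero] using p2 _ (Submodule.mem_sup_right (Submodule.mem_map_of_mem hw))⟩

variable {T : Ten F E W V}

theorem tm_pow (A : E ≃ₗ[F] E) (B : W ≃ₗ[F] W) (n : ℕ) : T.tm A B ^ n = T.tm (A ^ n) (B ^ n) := by
  induction n with
  | zero => simp
  | succ n ih => rw [pow_succ, ih, tm_mul, ← pow_succ, ← pow_succ]

theorem smul_mul_pow_apply {c : F} (hc : c ≠ 0) (A : E ≃ₗ[F] E) (n : ℕ) (x : E) :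
    ((LinearEquiv.smulOfNeZero F E c hc * A) ^ n) x = c ^ n • (A ^ n) x := by
  induction n with
  | zero => simp
  | succ n ih => simp [pow_succ', ih, smul_smul, mul_comm]

/-- Both factors of a unipotent tensor product can be chosen unipotent. -/
theorem exists_unip_factors [Finite F] [Nontrivial E] [Nontrivial W] {X : V ≃ₗ[F] V}
    (hX : X ∈ T.grp) (hU : Unip X) : ∃ A B, X = T.tm A B ∧ Unip A ∧ Unip B := by
  obtain ⟨A, B, rfl⟩ := hX
  have hp : Fact (ringChar F).Prime := ⟨CharP.char_is_prime F _⟩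
  set p := ringChar F
  obtain ⟨k, hk⟩ := (unip_iff p).1 hU
  rw [tm_pow] at hk
  obtain ⟨w, hw⟩ := exists_ne (0 : W)
  obtain ⟨e, he⟩ := exists_ne (0 : E)
  obtain ⟨φ, hφ⟩ := exists_dual_of_ne_zero (F := F) hw
  have h1 : ∀ e w, T.t ((A ^ p ^ k) e) ((B ^ p ^ k) w) = T.t e w := fun e w => by
    rw [← tm_t, hk]; rfl
  have h2 : ∀ e, φ ((B ^ p ^ k) w) • (A ^ p ^ k) e = e := fun e => by
    simpa [hφ] using congrArg (T.cR φ) (h1 e w)
  obtain ⟨μ, hμ⟩ := Finite.surjective_of_injective (iterateFrobenius F p k).injective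
    (φ ((B ^ p ^ k) w))
  rw [iterateFrobenius_def] at hμ
  have h0 : μ ≠ 0 := by
    rintro rfl
    exact he (by rw [← h2 e, ← hμ, zero_pow (pow_pos hp.out.pos k).ne', zero_smul])
  refine ⟨LinearEquiv.smulOfNeZero F E μ h0 * A, LinearEquiv.smulOfNeZero F W μ⁻¹ (inv_ne_zero h0) * B,
    T.equiv_ext fun e w => by simp [smul_smul, h0], (unip_iff p).2 ⟨k, LinearEquiv.ext fun x => by
      rw [smul_mul_pow_apply, hμ, h2]; rfl⟩, (unip_iff p).2 ⟨k, LinearEquiv.ext fun x => ?_⟩⟩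
  rw [smul_mul_pow_apply, ← T.t_right_inj he]
  conv_lhs => rw [← h2 e, ← hμ]
  simp [smul_smul, h0, h1]

variable [FiniteDimensional F E] [FiniteDimensional F W]

theorem finrank_fx_le {A : E ≃ₗ[F] E} {B : W ≃ₗ[F] W} (hB : Unip B) {J₀ : Submodule F W}
    (h0 : ∀ w ∈ J₀, B w ∈ J₀) (n : ℕ) : ∀ J : Submodule F W, (∀ w ∈ J, B w ∈ J) → J₀ ≤ J →
    finrank F J = finrank F J₀ + n → finrank F ↥(fx (T.tm A B) ⊓ T.LS J) ≤
      finrank F ↥(fx (T.tm A B) ⊓ T.LS J₀) + n * finrank F (fx A) := by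
  have := T.finite
  induction n with
  | zero =>
    intro J _ h1 h2
    obtain rfl := Submodule.eq_of_le_of_finrank_eq h1 (by omega)
    simp
  | succ n ih =>
    intro J hJ h1 h2
    obtain ⟨φ, ⟨x, x1, x2⟩, p1, p2⟩ := hB.exists_dual hJ h0 fun h => by
      have := Submodule.finrank_mono h; omega
    have h3 := ih (J ⊓ LinearMap.ker φ) (fun w hw => ⟨hJ w hw.1, by
      rw [SetLike.mem_coe, LinearMap.mem_ker, p2 w hw.1]; exact hw.2⟩) (le_inf h1 p1) (by
        have k1 := finrank_le_finrank_inf_ker_add_one J φ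
        have k2 := Submodule.finrank_lt_finrank_of_lt (lt_of_le_of_ne
          (inf_le_left (a := J) (b := LinearMap.ker φ)) fun e => by simpa [x2] using (e.ge x1).2)
        omega)
    let ψ := (T.cR φ).domRestrict (fx (T.tm A B) ⊓ T.LS J)
    have k1 := LinearMap.finrank_range_add_finrank_ker ψ
    have k2 : finrank F (LinearMap.range ψ) ≤ finrank F (fx A) := Submodule.finrank_mono (by
      rintro _ ⟨⟨y, y1, y2⟩, rfl⟩
      have := T.cR_tm φ A B y
      rw [mem_fx.1 y1, T.eqOn_LS (f := T.cR (φ ∘ₗ (B : W →ₗ[F] W))) (g := T.cR φ)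
        (fun e w hw => by simp [p2 w hw]) y2] at this
      exact mem_fx.2 this.symm)
    have k3 : finrank F (LinearMap.ker ψ) ≤
        finrank F ↥(fx (T.tm A B) ⊓ T.LS (J ⊓ LinearMap.ker φ)) := by
      rw [← Submodule.finrank_map_subtype_eq]
      refine Submodule.finrank_mono ?_
      rintro _ ⟨⟨y, y1, y2⟩, y3, rfl⟩
      exact ⟨y1, (T.LS_inf _ _).ge ⟨y2, T.mem_LS_ker.2 y3⟩⟩
    rw [add_mul]
    omega

/-- **Rank lemma, first form.** -/
theorem mul_le_finrank_mv (A : E ≃ₗ[F] E) {B : W ≃ₗ[F] W} (hB : Unip B) :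
    finrank F W * finrank F (mv A) ≤ finrank F (mv (T.tm A B)) := by
  have := T.finite
  have h1 := finrank_fx_le (T := T) (A := A) hB (J₀ := ⊥) (by simp) (finrank F W) ⊤ (by simp) bot_le
    (by simp)
  have h2 := finrank_mv_add_fx (T.tm A B)
  rw [T.finrank_eq, ← finrank_mv_add_fx A, add_mul, mul_comm, mul_comm (finrank F (fx A))] at h2
  rw [LS_top, inf_top_eq, LS_bot, inf_bot_eq, finrank_bot] at h1
  omega

/-- A unipotent similarity of a symmetric form moving vectors inside a line is trivial. -/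
theorem Unip.eq_one_of_symm {b : BilinForm F E} (hb : b.Nondegenerate) (hs : ∀ x y, b y x = b x y)
    (h2 : (2 : F) ≠ 0) (h3 : 3 ≤ finrank F E) {A : E ≃ₗ[F] E} (hA : Unip A) {μ : F}
    (h : ∀ x y, b (A x) (A y) = μ * b x y) (h1 : finrank F (mv A) ≤ 1) : A = 1 := by
  obtain ⟨⟨v, hv⟩, h4⟩ := finrank_le_one_iff.1 h1
  by_contra hne
  obtain ⟨x₀, hx₀⟩ : ∃ x, A x - x ≠ 0 := by
    by_contra hc
    push Not at hc
    exact hne (LinearEquiv.ext fun x => sub_eq_zero.1 (hc x))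
  have k : ∀ x, ∃ c : F, A x = x + c • v := fun x => by
    obtain ⟨c, hc⟩ := h4 ⟨_, sub_mem_mv A x⟩
    exact ⟨c, by rw [show c • v = A x - x from congrArg Subtype.val hc]; abel⟩
  have v0 : v ≠ 0 := by
    rintro rfl
    obtain ⟨c, hc⟩ := k x₀
    simp [hc] at hx₀
  have k1 : A v = v := by
    obtain ⟨c, hc⟩ := k v
    obtain ⟨n, hn⟩ := hA
    have : ∀ n : ℕ, (((A : End F E) - 1) ^ n) v = c ^ n • v := fun n => by
      induction n with
      | zero => simp
      | succ n ih => simp [pow_succ', ih, hc, smul_smul, mul_comm]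
    have h5 := this n
    rw [hn, LinearMap.zero_apply, eq_comm, smul_eq_zero, or_iff_left v0] at h5
    simpa [eq_zero_of_pow_eq_zero h5] using hc
  obtain ⟨ψ, hψ⟩ := exists_dual_of_ne_zero (F := F) v0
  let φ : Dual F E := ψ ∘ₗ ((A : E →ₗ[F] E) - LinearMap.id)
  have k2 : ∀ x, A x = x + φ x • v := fun x => by
    obtain ⟨c, hc⟩ := k x
    simp [φ, hc, hψ]
  obtain ⟨z, -, z1, z2⟩ := exists_mem_notMem_ker [φ, b.flip v] (W := ⊤) (Z := ⊥) (by simp; omega)
  have z3 : φ z = 0 := z2 _ (by simp)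
  have z4 : b z v = 0 := z2 (b.flip v) (by simp)
  obtain ⟨y, hy⟩ := exists_form_ne_zero hb (show z ≠ 0 by simpa using z1)
  have hμ : μ = 1 := mul_right_cancel₀ hy (by
    have := h y z
    rw [k2 z, z3, zero_smul, add_zero, k2 y] at this
    simpa [hs z v, z4] using this.symm)
  have p0 : φ x₀ ≠ 0 := fun e => by simp [k2 x₀, e] at hx₀
  have k3 : b v v = 0 := by
    have := h x₀ v
    rw [k1, k2 x₀, hμ] at this
    simpa [p0] using this
  have k4 : ∀ x y, φ y * b x v + φ x * b y v = 0 := fun x y => by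
    have := h x y
    rw [k2 x, k2 y, hμ] at this
    simp only [map_add, map_smul, LinearMap.add_apply, LinearMap.smul_apply, smul_eq_mul, k3,
      hs y v] at this
    linear_combination this
  have k5 : b x₀ v = 0 := mul_left_cancel₀ (mul_ne_zero h2 p0) (by linear_combination k4 x₀ x₀)
  exact v0 (hb.2 v fun y => by simpa [k5, p0] using k4 x₀ y)

/-- **Rigidity by rank.** A unipotent isometry preserving the decomposition with `E` orthogonal and
of rank less than `2 dim W` acts on the second factor only. -/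
theorem TF.exists_eq_rt_of_unip [Finite F] {fE : BilinForm F E} {fW : BilinForm F W}
    {f : BilinForm F V} {ε : F} (H : TF T fE fW f 1 ε) (h2 : (2 : F) ≠ 0) (h3 : 3 ≤ finrank F E)
    {X : V ≃ₗ[F] V} (hX : X ∈ T.grp) (hU : Unip X) (hI : Iso f X)
    (h : finrank F (mv X) < 2 * finrank F W) : ∃ B, X = T.rt B := by
  have : Nontrivial E := Module.nontrivial_of_finrank_pos (R := F) (by omega)
  have : Nontrivial W := Module.nontrivial_of_finrank_pos (R := F) (by omega)
  obtain ⟨A, B, rfl, hA, hB⟩ := exists_unip_factors hX hU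
  obtain ⟨w, hw⟩ := exists_ne (0 : W)
  obtain ⟨w', hw'⟩ := exists_form_ne_zero H.ndW hw
  have h4 : ∀ x y, fE (A x) (A y) * fW (B w') (B w) = fE x y * fW w' w := fun x y => by
    simpa [H.tens] using hI (T.t x w') (T.t y w)
  have h5 : fW (B w') (B w) ≠ 0 := fun e => by
    obtain ⟨x, hx⟩ := exists_ne (0 : E)
    obtain ⟨y, hy⟩ := exists_form_ne_zero H.ndE hx
    exact mul_ne_zero hy hw' (by rw [← h4, e, mul_zero])
  obtain rfl := hA.eq_one_of_symm H.ndE (fun x y => by rw [H.symE, one_mul]) h2 h3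
    (μ := fW w' w / fW (B w') (B w)) (fun x y => by field_simp; linear_combination h4 x y) (by
      have := mul_le_finrank_mv (T := T) A hB
      by_contra hc
      have := Nat.mul_le_mul_left (finrank F W) (show 2 ≤ finrank F (mv A) by omega)
      omega)
  exact ⟨B, rfl⟩

end H91
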