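/- Klein's counting argument for a finite group partitioned by "axis groups". -/
import Cfsg.Agent.Base

set_option autoImplicit false
set_option linter.unusedSectionVars false

namespace H91

open MulAction

section Klein

variable {S X : Type*} [Group S] [Finite S] [MulAction S X] [Finite X]

/-- A finite group acting on a set of "axes": every non-identity element lies in the group of
exactly one axis, which has index at most two in the stabiliser of the axis. -/
structure Axes (C : X → Subgroup S) : Prop where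
  le : ∀ x, ∀ g ∈ C x, g • x = x
  conj : ∀ (g : S) x, ∀ h ∈ C x, g * h * g⁻¹ ∈ C (g • x)
  ex : ∀ g : S, g ≠ 1 → ∃ x, g ∈ C x
  uniq : ∀ g : S, g ≠ 1 → ∀ x y, g ∈ C x → g ∈ C y → x = y
  idx : ∀ x, C x ≠ ⊥ → ∀ g h : S, g • x = x → h • x = x → g ∉ C x → h ∉ C x → g * h ∈ C x

variable {C : X → Subgroup S}

omit [Finite X] in
theorem Axes.card_smul (h : Axes C) (g : S) (x : X) : Nat.card (C (g • x)) = Nat.card (C x) := by
  have key : ∀ (g : S) x, Nat.card (C x) ≤ Nat.card (C (g • x)) := fun g x =>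
    Nat.card_le_card_of_injective (fun k : C x => (⟨g * k * g⁻¹, h.conj g x k k.2⟩ : C (g • x)))
      fun a b e => Subtype.ext (by simpa using congrArg Subtype.val e)
  refine le_antisymm ?_ (key g x)
  simpa using key g⁻¹ (g • x)

omit [Finite X] in
theorem Axes.card_orbit (h : Axes C) {x : X} (hx : C x ≠ ⊥) :
    Nat.card S = Nat.card (orbit S x) * Nat.card (C x) ∨
      Nat.card S = Nat.card (orbit S x) * (2 * Nat.card (C x)) := by
  have hle : C x ≤ stabilizer S x := fun g hg => h.le x g hg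
  have h1 : Nat.card S = Nat.card (orbit S x) * Nat.card (stabilizer S x) := by
    rw [← Nat.card_prod, Nat.card_congr (orbitProdStabilizerEquivGroup S x)]
  have h2 := Subgroup.index_mul_card ((C x).subgroupOf (stabilizer S x))
  rw [Nat.card_congr (Subgroup.subgroupOfEquivOfLe hle).toEquiv] at h2
  by_cases he : ∀ g : S, g • x = x → g ∈ C x
  · left
    rw [h1, show stabilizer S x = C x from le_antisymm (fun g hg => he g hg) hle]
  · right
    push Not at he
    obtain ⟨a, ha, ha'⟩ := he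
    have : ((C x).subgroupOf (stabilizer S x)).index = 2 := by
      rw [Subgroup.index_eq_two_iff]
      refine ⟨⟨a, ha⟩, fun b => ?_⟩
      simp only [Subgroup.mem_subgroupOf, Subgroup.coe_mul]
      by_cases hb : (b : S) ∈ C x
      · exact Or.inr ⟨hb, fun e => ha' (by simpa using (C x).mul_mem ((C x).inv_mem hb) e)⟩
      · exact Or.inl ⟨h.idx x hx _ _ b.2 ha hb ha', hb⟩
    rw [h1, ← h2, this]

theorem Axes.sum_eq (h : Axes C) [Fintype X] :
    ∑ x : X, (Nat.card (C x) - 1) = Nat.card S - 1 := by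
  classical
  have := Fintype.ofFinite S
  have h1 : ∀ x, Nat.card (C x) - 1 = ((Finset.univ.filter (· ∈ C x)).erase 1).card := fun x => by
    rw [Finset.card_erase_of_mem (by simp), Nat.card_eq_fintype_card, Fintype.card_subtype]
  simp_rw [h1]
  rw [← Finset.card_biUnion, Nat.card_eq_fintype_card, ← Finset.card_univ,
    ← Finset.card_erase_of_mem (Finset.mem_univ (1 : S))]
  · congr 1
    ext g
    simp only [Finset.mem_biUnion, Finset.mem_univ, Finset.mem_erase, Finset.mem_filter, true_and,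
      and_true]
    exact ⟨fun ⟨_, h1, _⟩ => h1, fun h1 => (h.ex g h1).imp fun _ h2 => ⟨h1, h2⟩⟩
  · intro x _ y _ hxy
    rw [Function.onFun, Finset.disjoint_left]
    intro g h1 h2
    simp only [Finset.mem_erase, Finset.mem_filter] at h1 h2
    exact hxy (h.uniq g h1.1 x y h1.2.2 h2.2.2)

theorem Axes.split (h : Axes C) {Y : Finset X} (hY : ∀ g : S, ∀ x ∈ Y, g • x ∈ Y) {x : X}
    (hx : x ∈ Y) : ∃ Y' : Finset X, (∀ g : S, ∀ x ∈ Y', g • x ∈ Y') ∧
      ∑ y ∈ Y, (Nat.card (C y) - 1) =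
        Nat.card (orbit S x) * (Nat.card (C x) - 1) + ∑ y ∈ Y', (Nat.card (C y) - 1) := by
  classical
  refine ⟨Y.filter (· ∉ orbit S x), fun g y hy => ?_, ?_⟩
  · rw [Finset.mem_filter] at hy ⊢
    refine ⟨hY g y hy.1, fun ⟨k, hk⟩ => hy.2 ⟨g⁻¹ * k, ?_⟩⟩
    simp only at hk ⊢
    rw [mul_smul, hk, inv_smul_smul]
  · rw [← Finset.sum_filter_add_sum_filter_not Y (· ∈ orbit S x)]
    congr 1
    rw [Finset.sum_congr rfl (g := fun _ => Nat.card (C x) - 1), Finset.sum_const, smul_eq_mul]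
    · congr 1
      rw [← Fintype.card_coe, ← Nat.card_eq_fintype_card]
      refine Nat.card_congr (Equiv.subtypeEquivRight fun y => ?_)
      rw [Finset.mem_filter]
      exact ⟨fun e => e.2, fun e => ⟨by obtain ⟨g, rfl⟩ := e; exact hY g x hx, e⟩⟩
    · intro y hy
      obtain ⟨g, rfl⟩ := (Finset.mem_filter.1 hy).2
      simp only [h.card_smul]

theorem Axes.step (h : Axes C) {Y : Finset X} (hY : ∀ g : S, ∀ x ∈ Y, g • x ∈ Y) :
    ∑ y ∈ Y, (Nat.card (C y) - 1) = 0 ∨ ∃ t, (4 * t = Nat.card S ∨ 3 * t = Nat.card S ∨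
      (3 * Nat.card S ≤ 8 * t ∧ 2 * t ≤ Nat.card S) ∨ 2 * Nat.card S ≤ 3 * t) ∧
      ∃ Y' : Finset X, (∀ g : S, ∀ x ∈ Y', g • x ∈ Y') ∧
      ∑ y ∈ Y, (Nat.card (C y) - 1) = t + ∑ y ∈ Y', (Nat.card (C y) - 1) := by
  by_cases h0 : ∑ y ∈ Y, (Nat.card (C y) - 1) = 0
  · exact Or.inl h0
  right
  obtain ⟨x, hx, h1⟩ := Finset.exists_ne_zero_of_sum_ne_zero h0
  refine ⟨_, ?_, h.split hY hx⟩
  have h2 : C x ≠ ⊥ := fun e => h1 (by rw [e]; simp)
  obtain ⟨j, hj⟩ : ∃ j, Nat.card (C x) = j + 2 := ⟨Nat.card (C x) - 2, by omega⟩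
  have h3 := h.card_orbit h2
  rw [hj] at h3 ⊢
  generalize Nat.card (orbit S x) = o at h3 ⊢
  generalize Nat.card S = N at h3 ⊢
  have e1 : o * (j + 2 - 1) = o * j + o := by rw [show j + 2 - 1 = j + 1 by omega]; ring
  rw [e1]
  have e2 : j = 0 ∨ j = 1 ∨ o * 2 ≤ o * j := by
    rcases (by omega : j = 0 ∨ j = 1 ∨ 2 ≤ j) with e | e | e
    exacts [Or.inl e, Or.inr (Or.inl e), Or.inr (Or.inr (Nat.mul_le_mul_left o e))]
  rw [show o * (j + 2) = o * j + 2 * o by ring, show o * (2 * (j + 2)) = 2 * (o * j) + 4 * o by ring]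
    at h3
  rcases e2 with rfl | rfl | e2 <;> omega

/-- An axis whose group has order divisible by four is fixed or has an orbit of length three. -/
theorem Axes.card_orbit_eq (h : Axes C) {x : X} (h4 : 4 ∣ Nat.card (C x)) :
    Nat.card (orbit S x) = 1 ∨ Nat.card (orbit S x) = 3 := by
  have := Fintype.ofFinite X
  have hs := h.sum_eq
  obtain ⟨j, hj⟩ := h4
  have hpos : 0 < Nat.card (C x) := Nat.card_pos
  have h2 : C x ≠ ⊥ := fun e => by rw [e] at hj; simp at hj; omega
  have h3 := h.card_orbit h2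
  obtain ⟨Y, hY, e0⟩ := h.split (Y := Finset.univ) (fun _ _ _ => Finset.mem_univ _)
    (Finset.mem_univ x)
  have : Nonempty (orbit S x) := ⟨⟨x, mem_orbit_self x⟩⟩
  have ho : 0 < Nat.card (orbit S x) := Nat.card_pos
  rw [hs] at e0
  obtain ⟨i, rfl⟩ : ∃ i, j = i + 1 := ⟨j - 1, by omega⟩
  rw [hj] at h3 e0
  generalize Nat.card (orbit S x) = o at h3 e0 ho ⊢
  rw [show 4 * (i + 1) - 1 = 4 * i + 3 by omega, show o * (4 * i + 3) = 4 * (o * i) + 3 * o by ring]
    at e0
  rw [show o * (4 * (i + 1)) = 4 * (o * i) + 4 * o by ring,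
    show o * (2 * (4 * (i + 1))) = 8 * (o * i) + 8 * o by ring] at h3
  have e2 : o * i = 0 ∨ o ≤ o * i := by
    rcases Nat.eq_zero_or_pos i with rfl | e
    exacts [Or.inl (by simp), Or.inr (Nat.le_mul_of_pos_right o e)]
  generalize o * i = m at h3 e0 e2
  rcases h.step hY with e1 | ⟨t1, ht1, Y1, hY1, e1⟩
  · omega
  rcases h.step hY1 with e3 | ⟨t2, ht2, Y2, hY2, e3⟩
  · omega
  rcases h.step hY2 with e4 | ⟨t3, ht3, Y3, hY3, e4⟩
  · omega
  · omega

theorem Axes.three (h : Axes C) {x : X} (h4 : 4 ∣ Nat.card (C x)) (a b c : S) (ha : a • x ≠ x)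
    (hb : b • x ≠ x) (hc : c • x ≠ x) : a • x = b • x ∨ a • x = c • x ∨ b • x = c • x := by
  classical
  by_contra hn
  push Not at hn
  have h1 : ({x, a • x, b • x, c • x} : Finset X).card = 4 := by
    rw [Finset.card_insert_of_notMem (by simp [ha.symm, hb.symm, hc.symm]),
      Finset.card_insert_of_notMem (by simp [hn.1, hn.2.1]), Finset.card_pair hn.2.2]
  have h2 : ({x, a • x, b • x, c • x} : Finset X).card ≤ Nat.card (orbit S x) := by
    rw [← Set.ncard_coe_finset, Nat.card_coe_set_eq]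
    refine Set.ncard_le_ncard (fun y hy => ?_) (Set.toFinite _)
    simp only [Finset.coe_insert, Finset.coe_singleton, Set.mem_insert_iff,
      Set.mem_singleton_iff] at hy
    rcases hy with rfl | rfl | rfl | rfl
    exacts [mem_orbit_self _, mem_orbit _ _, mem_orbit _ _, mem_orbit _ _]
  rcases h.card_orbit_eq h4 with e | e <;> omega

end Klein

end H91
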