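/- Reflection groups in a three-dimensional orthogonal space without Eichler elements. -/
import Cfsg.Agent.H60.Ext
import Cfsg.Agent.H91.FrKlein

set_option autoImplicit false
set_option linter.unusedSectionVars false

namespace H91

open QuadraticMap H56 H60 Module Submodule

variable {F V : Type*} [Field F] [AddCommGroup V] [Module F V] {Q : QuadraticForm F V}
  [FiniteDimensional F V]

theorem eq_one_of_fix_two (hQ : Q.polarBilin.Nondegenerate) {W T : Submodule F V} (hW : Nondeg Q W)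
    (h3 : finrank F W ≤ 3) (hT : T ≤ W) (h2 : 2 ≤ finrank F T) {g : O Q}
    (hg : g ∈ fixer Q (perp Q W : Set V)) (hd : dickson hQ g = 1) (hgT : ∀ x ∈ T, g x = x) :
    g = 1 := by
  have h1 : T ⊔ perp Q W ≤ g.fix := sup_le (fun x hx => O.mem_fix.2 (hgT x hx))
    fun x hx => O.mem_fix.2 (hg x hx)
  have h4 := finrank_sup_add_finrank_inf_eq T (perp Q W)
  rw [show T ⊓ perp Q W = ⊥ from eq_bot_iff.2 (hW.inf_perp ▸ inf_le_inf_right _ hT), finrank_bot]
    at h4
  have h5 := finrank_perp hQ W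
  have h6 := finrank_mono h1
  have h7 := g.rk_add_finrank_fix
  obtain ⟨r, hr⟩ := (dickson_eq_one_iff hQ g).1 hd
  have h8 : g.fix = ⊤ := eq_top_of_finrank_eq (by omega)
  exact O.ext fun x => O.mem_fix.1 (h8 ▸ mem_top)

theorem exists_fix_of_three (hQ : Q.polarBilin.Nondegenerate) {W : Submodule F V}
    (h3 : finrank F W = 3) {g : O Q} (hg : g ∈ fixer Q (perp Q W : Set V))
    (hd : dickson hQ g = 1) : ∃ a ∈ W, a ≠ 0 ∧ g a = a := by
  have h1 : g.mov ≤ W := by
    rw [← g.perp_fix hQ, ← perp_perp hQ W]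
    exact fun x hx y hy => hx y (O.mem_fix.2 (hg y hy))
  have h2 : g.rk ≤ 3 := h3 ▸ finrank_mono h1
  obtain ⟨r, hr⟩ := (dickson_eq_one_iff hQ g).1 hd
  have h7 := g.rk_add_finrank_fix
  have h4 := finrank_sup_add_finrank_inf_eq W g.fix
  have h5 := finrank_le (W ⊔ g.fix)
  have h6 : W ⊓ g.fix ≠ ⊥ := fun e => by rw [e, finrank_bot] at h4; omega
  obtain ⟨a, ha, ha0⟩ := exists_mem_ne_zero_of_ne_bot h6
  exact ⟨a, ha.1, ha0, O.mem_fix.1 ha.2⟩

theorem apply_mem_of_fixer (hQ : Q.polarBilin.Nondegenerate) {W : Submodule F V} {g : O Q}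
    (hg : g ∈ fixer Q (perp Q W : Set V)) {x : V} (hx : x ∈ W) : g x ∈ W :=
  apply_mem_of_sstab (by rw [← sstab_perp hQ]; exact fixer_le_sstab _ hg) hx

theorem exists_eich_of_fix [Finite F] (hQ : Q.polarBilin.Nondegenerate) (h2 : (2 : F) ≠ 0)
    {W : Submodule F V} (hW : Nondeg Q W) (h3 : finrank F W ≤ 3) {g : O Q}
    (hg : g ∈ fixer Q (perp Q W : Set V)) (hd : dickson hQ g = 1) {a : V} (ha : a ∈ W) (ha0 : a ≠ 0)
    (hQa : Q a = 0) (hga : g a = a) : ∃ w ∈ W, polar Q a w = 0 ∧ g = eich Q a w := by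
  obtain ⟨f, hf, hQf, haf⟩ := hW.exists_partner ha ha0 hQa
  have h1 : polar Q a (g f) = 1 := by rw [← hga, O.map_polar, haf]
  have hgf := apply_mem_of_fixer hQ hg hf
  have h4 : polar Q a (f - g f) = 0 := by rw [polar_sub_right, h1, haf, sub_self]
  have h5 := eich_apply_eq hQa (g.map_Q f).symm (haf.trans h1.symm) (by rw [haf]; exact one_ne_zero)
  rw [haf, inv_one, one_smul] at h5
  refine ⟨f - g f, sub_mem hf hgf, h4, ?_⟩
  have hT := EOin_le_fixer W (eich_mem_EOin (Q := Q) ha (sub_mem hf hgf))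
  have hi : LinearIndependent F ![a, f] := (IsHyp.mk hQa hQf haf).linearIndependent
  have h6 : finrank F (span F ({a, f} : Set V)) = 2 := by
    have := finrank_span_eq_card hi
    rwa [Matrix.range_cons_cons_empty] at this
  refine (inv_mul_eq_one.1 (eq_one_of_fix_two hQ hW h3 (T := span F {a, f})
    (span_le.2 (by simp [Set.insert_subset_iff, ha, hf])) h6.ge (mul_mem (inv_mem hT) hg)
    (by rw [map_mul, map_inv, hd, dickson_eich hQ (not_isExc_of_two_ne h2)]; simp) ?_)).symm
  refine fun x hx => O.mem_fix.1 (span_le.2 ?_ hx)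
  simp only [Set.insert_subset_iff, Set.singleton_subset_iff, SetLike.mem_coe, O.mem_fix,
    O.mul_apply, O.inv_apply_eq]
  exact ⟨by rw [hga, eich_apply_self hQa h4], h5.symm⟩

/-- The action of isometries on subspaces. -/
@[reducible] def imgAct (S : Subgroup (O Q)) : MulAction S (Submodule F V) where
  smul g L := img (g : O Q) L
  one_smul L := img_one (Q := Q) L
  mul_smul g h L := img_mul (g : O Q) (h : O Q) L

omit [FiniteDimensional F V] in
theorem img_span_singleton (g : O Q) (a : V) : img g (span F {a}) = span F {g a} := by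
  ext x
  rw [mem_img, mem_span_singleton, mem_span_singleton]
  exact exists_congr fun t => by rw [eq_comm, O.inv_apply_eq, map_smul, eq_comm]

open Classical in
theorem axes_three [Finite F] (hQ : Q.polarBilin.Nondegenerate) (h2 : (2 : F) ≠ 0)
    {W : Submodule F V} (hW : Nondeg Q W) (h3 : finrank F W = 3) {S : Subgroup (O Q)}
    (hS : ∀ g ∈ S, g ∈ fixer Q (perp Q W : Set V) ∧ dickson hQ g = 1)
    (hE : ∀ u ∈ W, ∀ w ∈ W, u ≠ 0 → Q u = 0 → polar Q u w = 0 → eich Q u w ∈ S →
      w ∈ span F {u}) :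
    letI := imgAct S
    Axes (fun L : Submodule F V => if L ≤ W ∧ finrank F L = 1 then
      (fixer Q (L : Set V)).subgroupOf S else ⊥) := by
  letI := imgAct S
  have hs : ∀ (g : S) (L : Submodule F V), g • L = img (g : O Q) L := fun _ _ => rfl
  refine ⟨fun L g hg => ?_, fun g L k hk => ?_, fun g hg => ?_, fun g hg L L' h h' => ?_,
    fun L hL g k hg hk hg' hk' => ?_⟩
  · split_ifs at hg with h
    · exact img_eq_iff.2 (fixer_le_sstab _ hg)
    · rw [Subgroup.mem_bot.1 hg, one_smul]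
  · split_ifs at hk with h
    · rw [if_pos ⟨fun x hx => by
        simpa using apply_mem_of_fixer hQ (hS g g.2).1 (h.1 (mem_img.1 hx)), by
        rw [hs, finrank_img, h.2]⟩]
      intro x hx
      have := hk _ (mem_img.1 hx)
      simp only [Subgroup.coe_subtype, Subgroup.coe_mul, Subgroup.coe_inv, O.mul_apply] at this ⊢
      rw [this, O.apply_inv_apply]
    · rw [Subgroup.mem_bot.1 hk, mul_one, mul_inv_cancel]; exact one_mem _
  · obtain ⟨a, ha, ha0, hga⟩ := exists_fix_of_three hQ h3 (hS g g.2).1 (hS g g.2).2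
    refine ⟨span F {a}, ?_⟩
    rw [if_pos ⟨(span_singleton_le_iff_mem _ _).2 ha, finrank_span_singleton ha0⟩]
    exact fun x hx => O.mem_fix.1 ((span_singleton_le_iff_mem _ _).2 (O.mem_fix.2 hga) hx)
  · split_ifs at h h' with h1 h4 h4
    · by_contra hne
      refine hg (Subtype.ext (eq_one_of_fix_two hQ hW h3.le (sup_le h1.1 h4.1) ?_ (hS g g.2).1
        (hS g g.2).2 fun x hx => O.mem_fix.1 ((sup_le (fun y hy => O.mem_fix.2 (h y hy))
          (fun y hy => O.mem_fix.2 (h' y hy)) : L ⊔ L' ≤ (g : O Q).fix) hx)))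
      by_contra h5
      exact hne ((eq_of_le_of_finrank_le le_sup_left (by omega)).trans
        (eq_of_le_of_finrank_le le_sup_right (by omega)).symm)
    all_goals first | exact absurd (Subgroup.mem_bot.1 h) hg | exact absurd (Subgroup.mem_bot.1 h') hg
  · split_ifs at hL hg' hk' ⊢ with h
    swap
    · exact absurd rfl hL
    obtain ⟨a, ha, ha0⟩ := exists_mem_ne_zero_of_ne_bot (p := L) fun e => by subst e; simp at h
    have hLa : L = span F {a} := (eq_of_le_of_finrank_le ((span_singleton_le_iff_mem _ _).2 ha)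
      (by rw [h.2, finrank_span_singleton ha0])).symm
    have hQa : Q a ≠ 0 := fun hQa => by
      obtain ⟨⟨g0, hg0⟩, hg1⟩ := Subgroup.ne_bot_iff_exists_ne_one.1 hL
      obtain ⟨w, hw, haw, e⟩ := exists_eich_of_fix hQ h2 hW h3.le (hS g0 g0.2).1 (hS g0 g0.2).2
        (h.1 ha) ha0 hQa (hg0 a ha)
      obtain ⟨t, rfl⟩ := mem_span_singleton.1 (hE a (h.1 ha) w hw ha0 hQa haw (e ▸ g0.2))
      rw [eich_smul_self t hQa] at e
      exact hg1 (Subtype.ext (Subtype.ext e))
    have hfix : ∀ g : S, (g : O Q) a = a → g ∈ (fixer Q (L : Set V)).subgroupOf S := fun g hg x hx =>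
      O.mem_fix.1 ((span_singleton_le_iff_mem _ _).2 (O.mem_fix.2 hg) (hLa ▸ hx))
    have hneg : ∀ g : S, g • L = L → g ∉ (fixer Q (L : Set V)).subgroupOf S → (g : O Q) a = -a :=
      fun g h1 h4 => by
        have h5 : (g : O Q) a ∈ L := by rw [← h1, hs, apply_mem_img]; exact ha
        obtain ⟨t, ht⟩ := mem_span_singleton.1 (hLa ▸ h5)
        have h6 := (g : O Q).map_Q a
        rw [← ht, Q_smul] at h6
        rcases mul_self_eq_one_iff.1 (mul_right_cancel₀ hQa (h6.trans (one_mul _).symm)) with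
          rfl | rfl
        · exact absurd (hfix g (by rw [← ht, one_smul])) h4
        · rw [← ht, neg_one_smul]
    exact hfix _ (by rw [Subgroup.coe_mul, O.mul_apply, hneg k hk hk', map_neg, hneg g hg hg', neg_neg])

omit [FiniteDimensional F V] in
theorem refl_mul_refl_comm {a b : V} (h : polar Q a b = 0) :
    refl Q a * refl Q b = refl Q b * refl Q a := by rw [mul_refl, refl_apply_of_orth h]

omit [FiniteDimensional F V] in
theorem coords_of_span_eq {x₁ x₂ z : V} (h2 : (2 : F) ≠ 0) (h₁ : Q x₁ ≠ 0) (h₂ : Q x₂ ≠ 0)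
    (hz : Q z ≠ 0) (h12 : polar Q x₁ x₂ = 0) (h1z : polar Q x₁ z = 0) (h2z : polar Q x₂ z = 0)
    {a b c a' b' c' : F}
    (h : span F {a • x₁ + b • x₂ + c • z} = span F {a' • x₁ + b' • x₂ + c' • z}) :
    ∃ t, a = t * a' ∧ b = t * b' ∧ c = t * c' := by
  obtain ⟨t, ht⟩ := mem_span_singleton.1 (h ▸ mem_span_singleton_self (a • x₁ + b • x₂ + c • z))
  have e1 := congrArg (polar Q x₁) ht
  have e2 := congrArg (polar Q x₂) ht
  have e3 := congrArg (polar Q z) ht
  simp only [polar_smul_right, polar_add_right, polar_self', h12, h1z, h2z, pc h12, pc h1z, pc h2z,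
    smul_eq_mul, mul_zero, add_zero, zero_add] at e1 e2 e3
  exact ⟨t, mul_right_cancel₀ (mul_ne_zero h2 h₁) (by linear_combination -e1),
    mul_right_cancel₀ (mul_ne_zero h2 h₂) (by linear_combination -e2),
    mul_right_cancel₀ (mul_ne_zero h2 hz) (by linear_combination -e3)⟩

omit [FiniteDimensional F V] in
theorem nondeg_three {x₁ x₂ z : V} (h2 : (2 : F) ≠ 0) (h₁ : Q x₁ ≠ 0) (h₂ : Q x₂ ≠ 0)
    (hz : Q z ≠ 0) (h12 : polar Q x₁ x₂ = 0) (h1z : polar Q x₁ z = 0) (h2z : polar Q x₂ z = 0) :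
    Nondeg Q (span F {x₁, x₂, z}) ∧ finrank F (span F ({x₁, x₂, z} : Set V)) = 3 := by
  have key : ∀ a b c : F, (∀ y ∈ ({x₁, x₂, z} : Set V), polar Q y (a • x₁ + b • x₂ + c • z) = 0) →
      a = 0 ∧ b = 0 ∧ c = 0 := fun a b c h => by
    have e1 := h x₁ (by simp)
    have e2 := h x₂ (by simp)
    have e3 := h z (by simp)
    simp only [polar_smul_right, polar_add_right, polar_self', h12, h1z, h2z, pc h12, pc h1z, pc h2z,
      smul_eq_mul, mul_zero, add_zero, zero_add, mul_eq_zero, h2, h₁, h₂, hz, or_false] at e1 e2 e3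
    exact ⟨e1, e2, e3⟩
  refine ⟨fun x hx h => ?_, ?_⟩
  · obtain ⟨a, b, c, rfl⟩ := mem_span_triple.1 hx
    obtain ⟨rfl, rfl, rfl⟩ := key a b c fun y hy => h y (subset_span hy)
    simp
  · have hi : LinearIndependent F ![x₁, x₂, z] := by
      rw [Fintype.linearIndependent_iff]
      intro g hg i
      rw [Fin.sum_univ_three] at hg
      have := key (g 0) (g 1) (g 2) fun y _ => by
        rw [show g 0 • x₁ + g 1 • x₂ + g 2 • z = 0 from hg, polar_zero_right]
      fin_cases i
      exacts [this.1, this.2.1, this.2.2]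
    have := finrank_span_eq_card hi
    rwa [show Set.range ![x₁, x₂, z] = {x₁, x₂, z} by
      simp only [Matrix.range_cons, Matrix.range_empty]; ext; simp; tauto] at this

open Classical in
/-- A reflection in `a x₁ + b x₂ + z` together with the dihedral group of order eight of the plane
`⟨x₁, x₂⟩` generates Eichler elements unless it lies in the Weyl group `B₃`. -/
theorem three_dim [Finite F] (hQ : Q.polarBilin.Nondegenerate) (h2 : (2 : F) ≠ 0)
    {G : Subgroup (O Q)} {x₁ x₂ z : V} {c : F} (hc : c ≠ 0) (h₁ : Q x₁ = c) (h₂ : Q x₂ = c)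
    (hz : Q z ≠ 0) (h12 : polar Q x₁ x₂ = 0) (h1z : polar Q x₁ z = 0) (h2z : polar Q x₂ z = 0)
    (hr1 : refl Q x₁ ∈ G) (hr12 : refl Q (x₁ - x₂) ∈ G)
    (hE : ∀ u ∈ span F ({x₁, x₂, z} : Set V), ∀ w ∈ span F ({x₁, x₂, z} : Set V), u ≠ 0 → Q u = 0 →
      polar Q u w = 0 → eich Q u w ∈ G → w ∈ span F {u})
    {a b : F} (ha : a ≠ 0) (hb : b ≠ 0) (hy : Q (a • x₁ + b • x₂ + z) ≠ 0)
    (hry : refl Q (a • x₁ + b • x₂ + z) ∈ G) : 4 * (a * a * c) = Q (a • x₁ + b • x₂ + z) := by
  have h₁' : Q x₁ ≠ 0 := h₁ ▸ hc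
  have h₂' : Q x₂ ≠ 0 := h₂ ▸ hc
  have : Finite V := Module.finite_of_finite F
  have : Finite (Submodule F V) := Finite.of_injective _ SetLike.coe_injective
  obtain ⟨hW, h3⟩ := nondeg_three h2 h₁' h₂' hz h12 h1z h2z
  set W := span F ({x₁, x₂, z} : Set V)
  have m1 : x₁ ∈ W := subset_span (by simp)
  have m2 : x₂ ∈ W := subset_span (by simp)
  have m3 : z ∈ W := subset_span (by simp)
  set y := a • x₁ + b • x₂ + z with hyd
  have m4 : y ∈ W := add_mem (add_mem (smul_mem _ _ m1) (smul_mem _ _ m2)) m3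
  have hd : Q (x₁ - x₂) ≠ 0 := by
    rw [Q_sub, h12, h₁, h₂, sub_zero, ← two_mul]; exact mul_ne_zero h2 hc
  set S : Subgroup (O Q) := G ⊓ (fixer Q (perp Q W : Set V) ⊓ (dickson hQ).ker)
  have hm : ∀ u ∈ W, ∀ v ∈ W, Q u ≠ 0 → Q v ≠ 0 → refl Q u ∈ G → refl Q v ∈ G →
      refl Q u * refl Q v ∈ S := fun u hu v hv h h' k k' => ⟨mul_mem k k',
    mul_mem (refl_mem_fixer fun x hx => hx u hu) (refl_mem_fixer fun x hx => hx v hv), by
      simp [dickson_refl hQ h, dickson_refl hQ h']⟩
  letI := imgAct S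
  have hA := axes_three hQ h2 hW h3 (S := S) (fun g hg => hg.2) fun u hu w hw h0 h h' k =>
    hE u hu w hw h0 h h' k.1
  have hz0 : z ≠ 0 := by rintro rfl; simp at hz
  let ρ : S := ⟨_, hm _ m1 _ (sub_mem m1 m2) h₁' hd hr1 hr12⟩
  let g : S := ⟨_, hm _ m4 _ m1 hy h₁' hry hr1⟩
  let g' : S := ⟨_, hm _ m1 _ m4 h₁' hy hr1 hry⟩
  have s1 : refl Q (x₁ - x₂) x₁ = x₂ := refl_sub_apply (h₁.trans h₂.symm) hd
  have s2 : refl Q (x₁ - x₂) x₂ = x₁ := by
    have := refl_refl (Q := Q) (x₁ - x₂) x₁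
    rwa [s1] at this
  have s3 : refl Q (x₁ - x₂) z = z := refl_apply_of_orth (by rw [polar_sub_left, h1z, h2z, sub_zero])
  have r1 : (ρ : O Q) x₁ = x₂ := by
    simp only [ρ, O.mul_apply]; rw [s1, refl_apply_of_orth h12]
  have r2 : (ρ : O Q) x₂ = -x₁ := by simp only [ρ, O.mul_apply]; rw [s2, refl_apply_self h₁']
  have r3 : (ρ : O Q) z = z := by simp only [ρ, O.mul_apply]; rw [s3, refl_apply_of_orth h1z]
  have hρ2 : (ρ : O Q) ^ 2 = refl Q x₁ * refl Q x₂ := by
    rw [← s1, ← conj_refl, refl_inv, pow_two]; simp only [ρ, mul_assoc]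
  have h4 : 4 ∣ Nat.card ↥(if span F {z} ≤ W ∧ finrank F (span F {z}) = 1 then
      (fixer Q (span F {z} : Set V)).subgroupOf S else ⊥) := by
    rw [if_pos ⟨(span_singleton_le_iff_mem _ _).2 m3, finrank_span_singleton hz0⟩]
    have : orderOf ρ = 2 ^ (1 + 1) := orderOf_eq_prime_pow (fun e => by
      have := congrArg (fun k : S => (k : O Q) x₁) e
      simp only [pow_one, pow_two, Subgroup.coe_mul, O.mul_apply (ρ : O Q), r1, r2,
        Subgroup.coe_one, O.one_apply] at this
      have h5 := congrArg (polar Q x₁) this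
      rw [polar_neg_right, polar_self', h₁] at h5
      exact mul_ne_zero h2 (mul_ne_zero h2 hc) (by linear_combination -h5)) (Subtype.ext (by
      rw [Subgroup.coe_pow, show 2 ^ (1 + 1) = 2 * 2 from rfl, pow_mul, hρ2, pow_two, mul_assoc,
        ← mul_assoc (refl Q x₂), ← refl_mul_refl_comm h12]
      simp [← mul_assoc]))
    rw [show 4 = orderOf ρ from this.symm]
    exact Subgroup.orderOf_dvd_natCard _ fun x hx =>
      O.mem_fix.1 ((span_singleton_le_iff_mem _ _).2 (O.mem_fix.2 r3) hx)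
  obtain ⟨l, hl⟩ : ∃ l, l = (Q y)⁻¹ * (2 * Q z) := ⟨_, rfl⟩
  have hl0 : l ≠ 0 := hl ▸ mul_ne_zero (inv_ne_zero hy) (mul_ne_zero h2 hz)
  have hv : refl Q y z = (-(l * a)) • x₁ + (-(l * b)) • x₂ + (1 - l) • z := by
    rw [refl_apply, show polar Q y z = 2 * Q z by
      simp [hyd, polar_add_left, polar_smul_left, h1z, h2z], ← hl, hyd]
    module
  have hs : ∀ (k : S) (v : V), k • span F {v} = span F {(k : O Q) v} := fun k v =>
    img_span_singleton _ _
  have e0 : span F {z} = span F {(0 : F) • x₁ + (0 : F) • x₂ + (1 : F) • z} := by simp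
  have e1 : g • span F {z} = span F {(-(l * a)) • x₁ + (-(l * b)) • x₂ + (1 - l) • z} := by
    rw [hs, ← hv]; simp only [g, O.mul_apply]; rw [refl_apply_of_orth h1z]
  have e2 : (ρ * g) • span F {z} = span F {(l * b) • x₁ + (-(l * a)) • x₂ + (1 - l) • z} := by
    rw [mul_smul, e1, hs]; simp only [map_add, map_smul, r1, r2, r3]; congr 2; module
  have e3 : (ρ * (ρ * g)) • span F {z} = span F {(l * a) • x₁ + (l * b) • x₂ + (1 - l) • z} := by
    rw [mul_smul, e2, hs]; simp only [map_add, map_smul, r1, r2, r3]; congr 2; module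
  have e4 : g' • span F {z} = span F {(l * a) • x₁ + (-(l * b)) • x₂ + (1 - l) • z} := by
    rw [hs]; simp only [g', O.mul_apply, hv, map_add, map_smul]
    rw [refl_apply_self h₁', refl_apply_of_orth h12, refl_apply_of_orth h1z]; congr 2; module
  have co := fun {a b c a' b' c' : F} => coords_of_span_eq (a := a) (b := b) (c := c) (a' := a')
    (b' := b') (c' := c') h2 h₁' h₂' hz h12 h1z h2z
  have la := mul_ne_zero hl0 ha
  have lb := mul_ne_zero hl0 hb
  have n1 : g • span F {z} ≠ span F {z} := fun e => by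
    obtain ⟨t, ht, -⟩ := co (e1.symm.trans (e.trans e0)); exact la (by linear_combination -ht)
  have n2 : (ρ * g) • span F {z} ≠ span F {z} := fun e => by
    obtain ⟨t, ht, -⟩ := co (e2.symm.trans (e.trans e0)); exact lb (by linear_combination ht)
  have n3 : (ρ * (ρ * g)) • span F {z} ≠ span F {z} := fun e => by
    obtain ⟨t, ht, -⟩ := co (e3.symm.trans (e.trans e0)); exact la (by linear_combination ht)
  have n4 : g' • span F {z} ≠ span F {z} := fun e => by
    obtain ⟨t, ht, -⟩ := co (e4.symm.trans (e.trans e0)); exact la (by linear_combination ht)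
  have hl1 : l = 1 := by
    by_contra h
    have h5 : ∀ t, 1 - l = t * (1 - l) → t = 1 := fun t e =>
      mul_right_cancel₀ (sub_ne_zero.2 (Ne.symm h)) (by linear_combination -e)
    refine mul_ne_zero h2 la ?_
    rcases hA.three h4 _ _ _ n1 n2 n3 with e | e | e
    · obtain ⟨t, t1, t2, t3⟩ := co (e1.symm.trans (e.trans e2))
      obtain rfl := h5 t t3
      linear_combination -t1 + t2
    · obtain ⟨t, t1, t2, t3⟩ := co (e1.symm.trans (e.trans e3))
      obtain rfl := h5 t t3
      linear_combination -t1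
    · obtain ⟨t, t1, t2, t3⟩ := co (e2.symm.trans (e.trans e3))
      obtain rfl := h5 t t3
      linear_combination -t1 - t2
  have hQy : Q y = a * a * c + b * b * c + Q z := by
    simp [hyd, Q_add, Q_smul, polar_add_left, polar_smul_left, polar_smul_right, h1z, h2z, h12, h₁,
      h₂]
  have hQz : 2 * Q z = Q y := by
    have := hl ▸ hl1
    field_simp at this
    linear_combination this
  subst hl1
  rcases hA.three h4 _ _ _ n1 n2 n4 with e | e | e
  · obtain ⟨t, t1, t2, -⟩ := co (e1.symm.trans (e.trans e2))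
    exact absurd (by linear_combination hQz + hQy - (a * c) * t1 - (b * c) * t2) hz
  · obtain ⟨t, t1, t2, -⟩ := co (e1.symm.trans (e.trans e4))
    exact absurd (by linear_combination (-b) * t1 - a * t2) (mul_ne_zero h2 (mul_ne_zero ha hb))
  · obtain ⟨t, t1, t2, -⟩ := co (e2.symm.trans (e.trans e4))
    linear_combination -2 * hQy - hQz - (2 * b * c) * t1 - (2 * a * c) * t2

end H91
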