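/- Overgroups of orthogonal frame stabilisers over prime fields: root subgroups. -/
import Cfsg.Agent.H60.DecTI
import Cfsg.Agent.H91.Fr3

set_option autoImplicit false
set_option linter.unusedSectionVars false

namespace H91

open QuadraticMap H56 H60 Module Submodule

variable {F V : Type*} [Field F] [AddCommGroup V] [Module F V] {Q : QuadraticForm F V}
  [FiniteDimensional F V] [Finite F]

theorem exists_sq_comb (h2 : (2 : F) ≠ 0) {a b : F} (ha : a ≠ 0) (hb : b ≠ 0) (c : F) :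
    ∃ s t : F, s * s * a + t * t * b = c := by
  have := Fintype.ofFinite F
  obtain ⟨s, t, h⟩ := FiniteField.exists_root_sum_quadratic
    (f := Polynomial.C a * Polynomial.X ^ 2 - Polynomial.C c) (g := Polynomial.C b * Polynomial.X ^ 2)
    (by compute_degree!) (by compute_degree!)
    (FiniteField.odd_card_of_char_ne_two (ringChar_ne_two_of_two_ne h2))
  simp only [Polynomial.eval_sub, Polynomial.eval_mul, Polynomial.eval_C, Polynomial.eval_pow,
    Polynomial.eval_X] at h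
  exact ⟨s, t, by linear_combination h⟩

theorem exists_ne_five' {ι : Type*} [Fintype ι] (h : 6 ≤ Fintype.card ι) (a b c d e : ι) :
    ∃ l, l ≠ a ∧ l ≠ b ∧ l ≠ c ∧ l ≠ d ∧ l ≠ e := by
  classical
  obtain ⟨l, -, hl⟩ := Finset.exists_mem_notMem_of_card_lt_card (s := {a, b, c, d, e})
    (t := Finset.univ) (by have := Finset.card_le_five (a := a) (b := b) (c := c) (d := d) (e := e)
                           rw [Finset.card_univ]; omega)
  exact ⟨l, by simpa using hl⟩

omit [FiniteDimensional F V] [Finite F] in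
theorem mem3 (x y z : V) (a b c : F) : a • x + b • y + c • z ∈ span F ({x, y, z} : Set V) :=
  mem_span_triple.2 ⟨a, b, c, rfl⟩

theorem plane_AA (hQ : Q.polarBilin.Nondegenerate) (h2 : (2 : F) ≠ 0) {M : Subgroup (O Q)}
    {p q k a b : V} {c : F} (hc : c ≠ 0) (hp : Q p ≠ 0) (hq : Q q ≠ 0) (hk : Q k = c) (ha : Q a = c)
    (hb : Q b ≠ 0) (hpq : polar Q p q = 0) (hpk : polar Q p k = 0) (hqk : polar Q q k = 0)
    (hpa : polar Q p a = 0) (hqa : polar Q q a = 0) (hpb : polar Q p b = 0) (hqb : polar Q q b = 0)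
    (hka : polar Q k a = 0) (hkb : polar Q k b = 0)
    (Ek : EOin Q (span F ({p, q, k} : Set V) : Set V) ≤ M)
    (Ea : EOin Q (span F ({p, q, a} : Set V) : Set V) ≤ M)
    (Eb : EOin Q (span F ({p, q, b} : Set V) : Set V) ≤ M) {α s t : F} (hα : α * α ≠ 1)
    (hu : s * s * Q p + t * t * Q q = -(α * α * c)) :
    (1 / c) • a ∈ AA M (s • p + t • q + α • k) := by
  have one : ∀ z, Q z ≠ 0 → polar Q p z = 0 → polar Q q z = 0 →
      EOin Q (span F ({p, q, z} : Set V) : Set V) ≤ M → ∀ x ∈ span F ({p, q, z} : Set V),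
      ∀ y ∈ span F ({p, q, z} : Set V), Q x ≠ 0 → Q y = Q x → refl Q x * refl Q y ∈ M :=
    fun z hz h h' E x hx y hy h0 e => by
      obtain ⟨h3, h4⟩ := nondeg_three h2 hp hq hz hpq h h'
      exact E (refl_mul_refl_mem_EOin₃ hQ h3 h4.ge (Or.inl h2) hx hy h0 (e ▸ h0) (by rw [e]))
  have Qc : ∀ s t : F, Q (s • p + t • q) = s * s * Q p + t * t * Q q := fun s t => by
    simp [Q_add, Q_smul, polar_smul_left, polar_smul_right, hpq]
  have m2 : ∀ (s t : F) z, s • p + t • q ∈ span F ({p, q, z} : Set V) := fun s t z => by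
    simpa using mem3 p q z s t 0
  have two : ∀ z z', Q z ≠ 0 → polar Q p z = 0 → polar Q q z = 0 →
      EOin Q (span F ({p, q, z} : Set V) : Set V) ≤ M → Q z' ≠ 0 → polar Q p z' = 0 →
      polar Q q z' = 0 → EOin Q (span F ({p, q, z'} : Set V) : Set V) ≤ M →
      ∀ x ∈ span F ({p, q, z} : Set V), ∀ y ∈ span F ({p, q, z'} : Set V), Q x ≠ 0 → Q y = Q x →
      refl Q x * refl Q y ∈ M := fun z z' h1 h3 h4 E h1' h3' h4' E' x hx y hy h0 e => by
    obtain ⟨s, t, h⟩ := exists_sq_comb h2 hp hq (Q x)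
    rw [← Qc] at h
    have := M.mul_mem (one z h1 h3 h4 E x hx _ (m2 s t z) h0 h)
      (one z' h1' h3' h4' E' _ (m2 s t z') y hy (h ▸ h0) (e.trans h.symm))
    rwa [mul_assoc, ← mul_assoc (refl Q (s • p + t • q)), refl_mul_self, one_mul] at this
  have hγ : c - α * α * c ≠ 0 := fun e => hα (mul_right_cancel₀ hc (by linear_combination -e))
  have hk' : Q k ≠ 0 := hk ▸ hc
  have ha' : Q a ≠ 0 := ha ▸ hc
  obtain ⟨s', t', h1, h3⟩ : ∃ s' t' : F, s' * s' * Q p + t' * t' * Q q = c - α * α * c ∧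
      (s - s') * (s - s') * Q p + (t - t') * (t - t') * Q q + c ≠ 0 := by
    obtain ⟨s', t', h⟩ := exists_sq_comb h2 hp hq (c - α * α * c)
    by_contra hn
    push Not at hn
    have e1 := hn s' t' h
    have e2 := hn (-s') (-t') (by linear_combination h)
    exact mul_ne_zero h2 (mul_ne_zero h2 hγ) (by linear_combination e1 + e2 - 2 * hu - 2 * h)
  obtain ⟨σ, τ, h4⟩ := exists_sq_comb h2 (mul_ne_zero (mul_ne_zero hp hq) hγ) hb
    ((s - s') * (s - s') * Q p + (t - t') * (t - t') * Q q + c)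
  set x := (s - s') • p + (t - t') • q + (1 : F) • a with hx
  set x' := (σ * t' * Q q) • p + (-(σ * s' * Q p)) • q + τ • b with hx'
  have hQx : Q x = (s - s') * (s - s') * Q p + (t - t') * (t - t') * Q q + c := by
    simp [hx, Q_add, Q_smul, polar_smul_left, polar_smul_right, polar_add_left, hpq, hpa, hqa, ha]
  have hQx' : Q x' = Q x := by
    rw [hQx, ← h4, ← h1]
    simp only [hx', Q_add, Q_smul, polar_smul_left, polar_smul_right, polar_add_left, hpq, hpb, hqb,
      smul_eq_mul]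
    ring
  have hg := two a b ha' hpa hqa Ea hb hpb hqb Eb x (mem3 _ _ _ _ _ _) x' (mem3 _ _ _ _ _ _) (hQx ▸ h3) hQx'
  have hxk : polar Q x k = 0 := by
    simp [hx, polar_add_left, polar_smul_left, hpk, hqk, pc hka]
  have hxk' : polar Q x' k = 0 := by
    simp [hx', polar_add_left, polar_smul_left, hpk, hqk, pc hkb]
  have hv : s' • p + t' • q + α • k ∈ RR M k := by
    have : Q (s' • p + t' • q + α • k) = c := by
      simp only [Q_add, Q_smul, polar_smul_left, polar_smul_right, polar_add_left, hpq, hpk, hqk,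
        smul_eq_mul, hk]
      linear_combination h1
    exact ⟨this ▸ hc, one k hk' hpk hqk Ek _ (mem3 _ _ _ _ _ _) k (subset_span (by simp)) (this ▸ hc)
      (hk.trans this.symm)⟩
  have h5 := RR.apply hv hg
  have e1 : refl Q x' (s' • p + t' • q) = s' • p + t' • q := refl_apply_of_orth (by
    simp only [hx', polar_smul_left, polar_smul_right, polar_add_left, polar_add_right, hpq, pc hpq,
      pc hpb, pc hqb, smul_eq_mul, polar_self']
    ring)
  have e2 : refl Q x (s' • p + t' • q) = s • p + t • q + a := by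
    have e3 : x = (s • p + t • q + a) - (s' • p + t' • q) := by rw [hx]; module
    have e4 := refl_sub_apply (Q := Q) (x := s • p + t • q + a) (y := s' • p + t' • q) (by
      rw [Q_add, Qc, Qc, h1, hu, ha]
      simp only [polar_smul_left, polar_add_left, hpa, hqa, smul_eq_mul]
      ring) (by rw [← e3, hQx]; exact h3)
    rw [← e3] at e4
    rw [← e4, refl_refl]
  simp only [O.mul_apply] at h5
  rw [map_add, map_smul, refl_apply_of_orth hxk', e1, map_add, map_smul, refl_apply_of_orth hxk,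
    e2] at h5
  rw [← ha]
  refine RR.smul_mem_AA (w := k) ?_ ?_ ⟨ha', two a k ha' hpa hqa Ea hk' hpk hqk Ek a
    (subset_span (by simp)) k (subset_span (by simp)) ha' (hk.trans ha.symm)⟩ ?_
  · simp only [Q_add, Q_smul, polar_smul_left, polar_smul_right, polar_add_left, hpq, hpk, hqk,
      smul_eq_mul, hk]
    linear_combination hu
  · simp [polar_add_left, polar_smul_left, hpa, hqa, hka]
  · convert h5 using 1
    module

/-- An orthogonal frame over a prime field of odd order, with a proper overgroup `M` of its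
stabiliser in `Ω`. -/
structure Fr {ι : Type*} (D : ι → Submodule F V) (M : Subgroup (O Q)) (e : ι → V) (c : F) : Prop
    extends DecM 1 D M where
  mem : ∀ i, e i ∈ D i
  Qe : ∀ i, Q (e i) = c
  c0 : c ≠ 0
  h2 : (2 : F) ≠ 0
  pf : ∀ t : F, ∃ n : ℕ, (n : F) = t

namespace Fr

variable {ι : Type*} [Fintype ι] {D : ι → Submodule F V} {M : Subgroup (O Q)} {e : ι → V} {c : F}

theorem Qne (h : Fr D M e c) (i : ι) : Q (e i) ≠ 0 := h.Qe i ▸ h.c0

theorem ne0 (h : Fr D M e c) (i : ι) : e i ≠ 0 := fun e0 => h.Qne i (by simp [e0])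

theorem D_eq (h : Fr D M e c) (i : ι) : D i = span F {e i} :=
  (eq_of_le_of_finrank_le ((span_singleton_le_iff_mem _ _).2 (h.mem i))
    (by rw [h.dim, finrank_span_singleton (h.ne0 i)])).symm

theorem exists_smul (h : Fr D M e c) {i : ι} {x : V} (hx : x ∈ D i) : ∃ t : F, x = t • e i :=
  (mem_span_singleton.1 (h.D_eq i ▸ hx)).imp fun _ => Eq.symm

theorem o (h : Fr D M e c) {i j : ι} (hij : i ≠ j) : polar Q (e i) (e j) = 0 :=
  h.orth i j hij _ (h.mem i) _ (h.mem j)

theorem self (h : Fr D M e c) (i : ι) : polar Q (e i) (e i) = 2 * c := by rw [polar_self', h.Qe]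

theorem c2 (h : Fr D M e c) : 2 * c ≠ 0 := mul_ne_zero h.h2 h.c0

theorem eq_zero (h : Fr D M e c) {x : V} (hx : ∀ i, polar Q (e i) x = 0) : x = 0 :=
  h.eq_zero_of_perp fun i => by rw [h.D_eq, mem_perp_span_singleton]; exact hx i

theorem exists_ne' (h : Fr D M e c) {x : V} (hx : x ≠ 0) : ∃ i, polar Q (e i) x ≠ 0 :=
  not_forall.1 fun h1 => hx (h.eq_zero h1)

theorem mem_of (h : Fr D M e c) {T : Submodule F V} {x : V}
    (hx : ∀ l, polar Q (e l) x ≠ 0 → e l ∈ T) : x ∈ T := by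
  classical
  have : x - ∑ l, (polar Q (e l) x / (2 * c)) • e l = 0 := h.eq_zero fun i => by
    rw [polar_sub_right, ← polarBilin_apply_apply Q (e i) (∑ _, _), map_sum, Finset.sum_eq_single i]
    · rw [map_smul, polarBilin_apply_apply, h.self, smul_eq_mul, div_mul_cancel₀ _ h.c2, sub_self]
    · intro j _ hj
      rw [map_smul, polarBilin_apply_apply, h.o hj.symm, smul_zero]
    · simp
  rw [sub_eq_zero.1 this]
  refine sum_mem fun l _ => ?_
  by_cases h0 : polar Q (e l) x = 0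
  · simp [h0]
  · exact smul_mem _ _ (hx l h0)

theorem Q_sub' (h : Fr D M e c) {v w : V} (hv : Q v = c) (hw : Q w = c) (hvw : polar Q v w = 0) :
    Q (v - w) = 2 * c := by rw [Q_sub, hv, hw, hvw]; ring

theorem refl_sub_mem (h : Fr D M e c) {i j : ι} (hij : i ≠ j) {v w : V} (hv : v ∈ D i) (hw : w ∈ D j)
    (hQv : Q v = c) (hQw : Q w = c) : refl Q (v - w) ∈ dstab Q D := by
  have h0 : Q (v - w) ≠ 0 := by rw [h.Q_sub' hQv hQw (h.orth i j hij _ hv _ hw)]; exact h.c2
  have h1 := refl_sub_apply (hQv.trans hQw.symm) h0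
  have key : ∀ {i j : ι} {v w : V}, v ∈ D i → w ∈ D j → Q v = c → ∀ g : O Q, g v = w →
      ∀ x ∈ D i, g x ∈ D j := fun {i j v w} hv hw hQv g hg x hx => by
    obtain ⟨s, rfl⟩ := h.exists_smul hv
    obtain ⟨t, rfl⟩ := h.exists_smul hx
    have hs : s ≠ 0 := by rintro rfl; exact h.c0 (by simpa using hQv.symm)
    rw [show t • e i = (t / s) • s • e i by rw [smul_smul, div_mul_cancel₀ _ hs], map_smul, hg]
    exact smul_mem _ _ hw
  refine h.mem_dstab_of fun l => ?_
  by_cases hl : l = i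
  · exact ⟨j, hl ▸ key hv hw hQv _ h1⟩
  by_cases hl' : l = j
  · exact ⟨i, hl' ▸ key hw hv hQw _ (by
      have := refl_refl (Q := Q) (v - w) v
      rwa [h1] at this)⟩
  exact ⟨l, fun x hx => by
    rw [refl_apply_of_orth (by rw [polar_sub_left, h.orth i l (Ne.symm hl) _ hv _ hx,
      h.orth j l (Ne.symm hl') _ hw _ hx, sub_zero])]; exact hx⟩

theorem rr_mem (h : Fr D M e c) {a b : V} (ha : refl Q a ∈ dstab Q D) (hb : refl Q b ∈ dstab Q D)
    (h0 : Q a ≠ 0) (hab : Q b = Q a) : refl Q a * refl Q b ∈ M :=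
  h.le ⟨mul_mem ha hb, H56.refl_mul_refl_mem_commutator h.hQ h0 (hab ▸ h0) (by rw [hab])⟩

theorem d_mem (h : Fr D M e c) (i j : ι) : refl Q (e i) * refl Q (e j) ∈ M :=
  h.rr_mem (h.refl_mem (h.mem i)) (h.refl_mem (h.mem j)) (h.Qne i) ((h.Qe j).trans (h.Qe i).symm)

theorem sw_mem (h : Fr D M e c) {i j k l : ι} (hij : i ≠ j) (hkl : k ≠ l) :
    refl Q (e i - e j) * refl Q (e k - e l) ∈ M :=
  h.rr_mem (h.refl_sub_mem hij (h.mem i) (h.mem j) (h.Qe i) (h.Qe j))
    (h.refl_sub_mem hkl (h.mem k) (h.mem l) (h.Qe k) (h.Qe l))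
    (by rw [h.Q_sub' (h.Qe i) (h.Qe j) (h.o hij)]; exact h.c2)
    (by rw [h.Q_sub' (h.Qe i) (h.Qe j) (h.o hij), h.Q_sub' (h.Qe k) (h.Qe l) (h.o hkl)])

theorem sw_apply (h : Fr D M e c) {i j : ι} (hij : i ≠ j) : refl Q (e i - e j) (e i) = e j :=
  refl_sub_apply ((h.Qe i).trans (h.Qe j).symm)
    (by rw [h.Q_sub' (h.Qe i) (h.Qe j) (h.o hij)]; exact h.c2)

theorem AS_of_AA (h : Fr D M e c) {G : Subgroup (O Q)} {u w : V} {t : F} (ht : t ≠ 0)
    (hw : t • w ∈ AA G u) : w ∈ AS G u := by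
  refine mem_AS.2 ⟨?_, fun s => ?_⟩
  · simpa [ht] using hw.1
  · obtain ⟨n, hn⟩ := h.pf (s / t)
    have := (AA G u).nsmul_mem hw n
    rw [← Nat.cast_smul_eq_nsmul F, hn, smul_smul, div_mul_cancel₀ _ ht] at this
    exact this.2

theorem free3 (h : Fr D M e c) {u w : V} (hw : w ∈ AS M u) {l m n : ι} (hlm : l ≠ m) (hln : l ≠ n)
    (hmn : m ≠ n) (hl : polar Q (e l) u = 0) (hm : polar Q (e m) u = 0) (hn : polar Q (e n) u = 0)
    (h0 : polar Q (e l) w ≠ 0) : e l ∈ AS M u := by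
  have key : ∀ i j, i ≠ j → polar Q (e i) u = 0 → polar Q (e j) u = 0 →
      (c⁻¹ * polar Q (e i) w) • e i + (c⁻¹ * polar Q (e j) w) • e j ∈ AS M u := fun i j hij hi hj => by
    have := sub_mem hw (apply_mem_AS_of_fix (h.d_mem i j) (by
      rw [O.mul_apply, refl_apply_of_orth hj, refl_apply_of_orth hi]) hw)
    convert this using 1
    simp only [O.mul_apply, refl_apply, h.Qe, polar_sub_right, polar_smul_right, h.o hij]
    module
  have := sub_mem (add_mem (key l m hlm hl hm) (key l n hln hl hn)) (key m n hmn hm hn)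
  rw [← smul_mem_iff _ (mul_ne_zero h.h2 (mul_ne_zero (inv_ne_zero h.c0) h0))]
  convert this using 1
  module

theorem cyc (h : Fr D M e c) {l m n : ι} (hln : l ≠ n) (hmn : m ≠ n) :
    ∃ g ∈ M, g (e l) = e m ∧ ∀ x, polar Q (e l) x = 0 → polar Q (e m) x = 0 →
      polar Q (e n) x = 0 → g x = x :=
  ⟨_, h.sw_mem hmn.symm hln, by rw [O.mul_apply, h.sw_apply hln, h.sw_apply hmn.symm],
    fun x h1 h2 h3 => by
      rw [O.mul_apply, refl_apply_of_orth (v := e l - e n) (by rw [polar_sub_left, h1, h3, sub_zero]),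
        refl_apply_of_orth (by rw [polar_sub_left, h2, h3, sub_zero])]⟩

theorem move3 (h : Fr D M e c) {u : V} {l m n : ι} (hw : e l ∈ AS M u) (hln : l ≠ n)
    (hmn : m ≠ n) (hl : polar Q (e l) u = 0) (hm : polar Q (e m) u = 0) (hn : polar Q (e n) u = 0) :
    e m ∈ AS M u := by
  obtain ⟨g, hg, h1, h3⟩ := h.cyc hln hmn
  exact h1 ▸ apply_mem_AS_of_fix hg (h3 u hl hm hn) hw

/-- Two free frame vectors in a root subspace generate everything. -/
theorem G2 (h : Fr D M e c) (h6 : 6 ≤ Fintype.card ι) {u : V} (hu0 : u ≠ 0) (hu : Q u = 0) {a b : ι}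
    (hab : a ≠ b) (ha : polar Q (e a) u = 0) (hb : polar Q (e b) u = 0) (ha' : e a ∈ AS M u)
    (hb' : e b ∈ AS M u) : False := by
  obtain ⟨i, hi⟩ := h.exists_ne' hu0
  have hia : a ≠ i := fun e0 => hi (e0 ▸ ha)
  have hib : b ≠ i := fun e0 => hi (e0 ▸ hb)
  obtain ⟨κ, hκ⟩ : ∃ κ, κ = polar Q (e i) u / (2 * c) := ⟨_, rfl⟩
  have hκ0 : κ ≠ 0 := hκ ▸ div_ne_zero hi h.c2
  have hκ1 : polar Q (e i) u = κ * (2 * c) := by rw [hκ, div_mul_cancel₀ _ h.c2]
  obtain ⟨y, rfl⟩ : ∃ y, u = y + κ • e i := ⟨u - κ • e i, by simp⟩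
  simp only [polar_add_right, polar_smul_right, h.o hia, h.o hib, h.self, smul_eq_mul, mul_zero,
    add_zero, add_eq_right] at ha hb hκ1
  have hQy : Q y = -(κ * κ * c) := by
    rw [Q_add, Q_smul, h.Qe, polar_smul_right, pc hκ1] at hu
    linear_combination hu
  have hQy0 : Q y ≠ 0 := hQy ▸ neg_ne_zero.2 (mul_ne_zero (mul_ne_zero hκ0 hκ0) h.c0)
  have hX := ((nondeg_three h.h2 (h.Qne a) (h.Qne b) (h.Qne i) (h.o hab) (h.o hia)
    (h.o hib)).1.sup_span (z := y) (mem_perp_span.2 (by simp [ha, hb, hκ1]))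
    (by rw [polar_self']; exact mul_ne_zero h.h2 hQy0))
  set X := span F ({e a, e b, e i} : Set V) ⊔ span F {y}
  have mX : ∀ r s t k : F, r • e a + s • e b + t • e i + k • y ∈ X := fun r s t k =>
    add_mem (mem_sup_left (mem3 _ _ _ _ _ _)) (mem_sup_right (smul_mem _ _ (mem_span_singleton_self y)))
  have full : ∀ κ : F, κ ≠ 0 → Q y = -(κ * κ * c) → Q (y + κ • e i) = 0 → e a ∈ AS M (y + κ • e i) →
      e b ∈ AS M (y + κ • e i) → X ⊓ ort Q (y + κ • e i) ≤ AS M (y + κ • e i) :=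
    fun κ h0 h1 h3 h4 h5 x hx => by
      obtain ⟨z, hz, k, rfl⟩ := mem_sup_span_iff.1 hx.1
      obtain ⟨r, s, t, rfl⟩ := mem_span_triple.1 hz
      have h7 := mem_ort.1 hx.2
      simp only [polar_add_right, polar_add_left, polar_smul_right, polar_smul_left, pc ha, pc hb,
        hκ1, pc hκ1, h.o hia.symm, h.o hib.symm, h.self, polar_self', h1, smul_eq_mul] at h7
      have : t = k * κ := mul_right_cancel₀ (mul_ne_zero h0 h.c2) (by linear_combination h7)
      convert add_mem (add_mem (smul_mem _ r h4) (smul_mem _ s h5))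
        (smul_mem _ k (self_mem_AS M h3)) using 1
      rw [this]; module
  have e1 : (refl Q (e i) * refl Q (e a)) (y + κ • e i) = y + (-κ) • e i := by
    rw [O.mul_apply, refl_apply_of_orth (v := e a) (by simp [ha, h.o hia]), map_add, map_smul,
      refl_apply_of_orth hκ1, refl_apply_self (h.Qne i)]
    module
  have hE : EOin Q (X : Set V) ≤ M := by
    refine EOin_le_of_fullIn h.hQ hX (u := y + κ • e i) (u' := y + (-κ) • e i)
      (by convert mX 0 0 κ 1 using 1; module) (by convert mX 0 0 (-κ) 1 using 1; module)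
      (full κ hκ0 hQy hu ha' hb') (full _ (neg_ne_zero.2 hκ0) (by rw [hQy]; ring)
        (by rw [← e1, O.map_Q, hu]) ?_ ?_) hu (by rw [← e1, O.map_Q, hu]) ?_
    · have := apply_mem_AS (h.d_mem i a) ha'
      rwa [e1, O.mul_apply, refl_apply_self (h.Qne a), map_neg, refl_apply_of_orth (h.o hia.symm),
        neg_mem_iff] at this
    · have := apply_mem_AS (h.d_mem i a) hb'
      rwa [e1, O.mul_apply, refl_apply_of_orth (h.o hab), refl_apply_of_orth (h.o hib.symm)] at this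
    · simp only [polar_add_right, polar_add_left, polar_smul_right, polar_smul_left, hκ1, pc hκ1,
        h.self, polar_self', hQy, smul_eq_mul]
      exact fun e0 => mul_ne_zero h.h2 (mul_ne_zero (mul_ne_zero hκ0 hκ0) h.c2)
        (by linear_combination -e0)
  obtain ⟨s, t, hst⟩ := exists_sq_comb h.h2 h.c0 h.c0 (-c)
  set v := s • e a + t • e b + e i with hv
  have hvX : v ∈ X := by convert mX s t 1 0 using 1; rw [hv]; module
  have hQv : Q v = 0 := by
    simp only [hv, Q_add, Q_smul, polar_add_left, polar_smul_left, polar_smul_right, h.o hab, h.o hia,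
      h.o hib, h.Qe, smul_eq_mul]
    linear_combination hst
  have fr : ∀ l, l ≠ a → l ≠ b → l ≠ i → polar Q (e l) v = 0 := fun l h1 h3 h4 => by
    simp [hv, h.o h1, h.o h3, h.o h4]
  have hy : y ∈ AS M v := mem_AS_of_le hE hvX (by convert mX 0 0 0 1 using 1; module)
    (by simp [hv, polar_add_left, polar_smul_left, ha, hb, hκ1])
  obtain ⟨l, hl⟩ := h.exists_ne' (x := y) (by rintro rfl; simp at hQy0)
  have hla : l ≠ a := fun e0 => hl (e0 ▸ ha)
  have hlb : l ≠ b := fun e0 => hl (e0 ▸ hb)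
  have hli : l ≠ i := fun e0 => hl (e0 ▸ hκ1)
  have hel : e l ∈ AS M v := by
    obtain ⟨m, m1, m2, m3, m4, -⟩ := exists_ne_five' h6 a b i l l
    obtain ⟨n, n1, n2, n3, n4, n5⟩ := exists_ne_five' h6 a b i l m
    exact h.free3 hy m4.symm n4.symm n5.symm (fr l hla hlb hli) (fr m m1 m2 m3) (fr n n1 n2 n3) hl
  have all : ∀ m, m ≠ a → m ≠ b → m ≠ i → e m ∈ AS M v := fun m m1 m2 m3 => by
    obtain ⟨n, n1, n2, n3, n4, n5⟩ := exists_ne_five' h6 a b i l m
    exact h.move3 hel n4.symm n5.symm (fr l hla hlb hli) (fr m m1 m2 m3) (fr n n1 n2 n3)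
  have hF : Full M v := full_of_ort_le fun x hx => by
    set x0 := (polar Q (e a) x / (2 * c)) • e a + (polar Q (e b) x / (2 * c)) • e b +
      (polar Q (e i) x / (2 * c)) • e i with hx0
    have h1 : x - x0 ∈ AS M v := h.mem_of fun m hm => all m ?_ ?_ ?_
    · have h3 : x0 ∈ AS M v := mem_AS_of_le hE hvX (mem_sup_left (mem3 _ _ _ _ _ _)) (by
        have := mem_ort.1 (AS_le_ort M v h1)
        rwa [polar_sub_right, mem_ort.1 hx, zero_sub, neg_eq_zero] at this)
      simpa using add_mem h1 h3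
    all_goals
      rintro rfl
      refine hm ?_
      simp only [hx0, polar_sub_right, polar_add_right, polar_smul_right, h.self, h.o hab, h.o hia,
        h.o hib, h.o hab.symm, h.o hia.symm, h.o hib.symm, smul_eq_mul, div_mul_cancel₀ _ h.c2]
      ring
  refine h.nle (commutator_le_of_full h.hQ h.h5 hF hQv (h.d_mem i l) ?_)
  rw [O.mul_apply, refl_apply_of_orth (fr l hla hlb hli), refl_apply, polar_sub_right,
    polar_smul_right, pself hQv, polar_comm _ v, h.Qe]
  have : polar Q (e i) v = 2 * c := by simp [hv, h.o hia.symm, h.o hib.symm, h.self]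
  rw [this]
  simp [h.c0, h.h2]

theorem G1 (h : Fr D M e c) (h6 : 6 ≤ Fintype.card ι) {u w : V} (hu0 : u ≠ 0) (hu : Q u = 0)
    {a b l : ι} (hab : a ≠ b) (hla : l ≠ a) (hlb : l ≠ b) (ha : polar Q (e a) u = 0)
    (hb : polar Q (e b) u = 0) (hl : polar Q (e l) u = 0) (hw : w ∈ AS M u)
    (h0 : polar Q (e l) w ≠ 0) : False :=
  have h1 := h.free3 hw hla hlb hab hl ha hb h0
  h.G2 h6 hu0 hu hab ha hb (h.move3 h1 hlb hab hl ha hb) (h.move3 h1 hla hab.symm hl hb ha)

/-- An Eichler element with two free coordinates generates everything. -/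
theorem stepA (h : Fr D M e c) (h6 : 6 ≤ Fintype.card ι) {α : F} (hα0 : α ≠ 0) (hα : α * α ≠ 1)
    {u w : V} (hu0 : u ≠ 0) (hu : Q u = 0) {a b : ι} (hab : a ≠ b) (ha : polar Q (e a) u = 0)
    (hb : polar Q (e b) u = 0) (ha' : polar Q (e a) w = 0) (hb' : polar Q (e b) w = 0)
    (hw : w ∈ AS M u) : w ∈ span F {u} := by
  obtain ⟨k, hk⟩ := h.exists_ne' hu0
  have hka : k ≠ a := fun e0 => hk (e0 ▸ ha)
  have hkb : k ≠ b := fun e0 => hk (e0 ▸ hb)
  obtain ⟨w', hw'⟩ : ∃ w', w' = w - (polar Q (e k) w / polar Q (e k) u) • u := ⟨_, rfl⟩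
  by_contra hn
  have h0 : w' ≠ 0 := fun e0 => hn (mem_span_singleton.2 ⟨_, (sub_eq_zero.1 (hw' ▸ e0)).symm⟩)
  have h1 : w' ∈ AS M u := hw' ▸ sub_mem hw (smul_mem _ _ (self_mem_AS M hu))
  have h3 : polar Q (e k) w' = 0 := by
    rw [hw', polar_sub_right, polar_smul_right, smul_eq_mul, div_mul_cancel₀ _ hk, sub_self]
  have h4 : polar Q (e a) w' = 0 := by simp [hw', ha, ha']
  have h5 : polar Q (e b) w' = 0 := by simp [hw', hb, hb']
  clear hw' hn hw ha' hb'
  obtain ⟨κ, hκ⟩ : ∃ κ, κ = polar Q (e k) u / (2 * c) := ⟨_, rfl⟩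
  have hκ0 : κ ≠ 0 := hκ ▸ div_ne_zero hk h.c2
  have hκ1 : polar Q (e k) u = κ * (2 * c) := by rw [hκ, div_mul_cancel₀ _ h.c2]
  obtain ⟨y, rfl⟩ : ∃ y, u = y + κ • e k := ⟨u - κ • e k, by simp⟩
  simp only [polar_add_right, polar_smul_right, h.o hka.symm, h.o hkb.symm, h.self, smul_eq_mul,
    mul_zero, add_zero, add_eq_right] at ha hb hκ1
  have hQy : Q y = -(κ * κ * c) := by
    rw [Q_add, Q_smul, h.Qe, polar_smul_right, pc hκ1] at hu
    linear_combination hu
  have hQy0 : Q y ≠ 0 := hQy ▸ neg_ne_zero.2 (mul_ne_zero (mul_ne_zero hκ0 hκ0) h.c0)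
  have e1 : (refl Q (e k) * refl Q (e a)) (y + κ • e k) = y + (-κ) • e k := by
    rw [O.mul_apply, refl_apply_of_orth (v := e a) (by simp [ha, h.o hka.symm]), map_add, map_smul,
      refl_apply_of_orth hκ1, refl_apply_self (h.Qne k)]
    module
  have hu' : Q (y + (-κ) • e k) = 0 := by rw [← e1, O.map_Q, hu]
  have h7 : w' ∈ AS M (y + (-κ) • e k) := by
    have := apply_mem_AS (h.d_mem k a) h1
    rwa [e1, O.mul_apply, refl_apply_of_orth h4, refl_apply_of_orth h3] at this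
  by_cases hQw : Q w' = 0
  · refine h.G1 h6 h0 hQw hab hka hkb h4 h5 h3 (sub_mem (AS_swap hu hQw h1) (AS_swap hu' hQw h7)) ?_
    simp only [polar_sub_right, polar_add_right, polar_smul_right, h.self, smul_eq_mul]
    exact fun e0 => mul_ne_zero h.h2 (mul_ne_zero hκ0 h.c2) (by linear_combination e0)
  have hyw : polar Q y w' = 0 := by simpa [polar_add_left, polar_smul_left, h3] using h1.1
  have full : ∀ κ : F, κ ≠ 0 → Q y = -(κ * κ * c) → Q (y + κ • e k) = 0 → w' ∈ AS M (y + κ • e k) →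
      span F {y, w', e k} ⊓ ort Q (y + κ • e k) ≤ AS M (y + κ • e k) := fun κ h0 h1 h8 h9 x hx => by
    obtain ⟨r, s, t, rfl⟩ := mem_span_triple.1 hx.1
    have h7 := mem_ort.1 hx.2
    simp only [polar_add_right, polar_add_left, polar_smul_right, polar_smul_left, hyw, h3,
      hκ1, pc hκ1, h.self, polar_self', h1, smul_eq_mul] at h7
    have : t = r * κ := mul_right_cancel₀ (mul_ne_zero h0 h.c2) (by linear_combination h7)
    convert add_mem (smul_mem _ s h9) (smul_mem _ r (self_mem_AS M h8)) using 1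
    rw [this]; module
  have Ek : EOin Q (span F ({y, w', e k} : Set V) : Set V) ≤ M := by
    refine EOin_le_of_fullIn h.hQ (nondeg_three h.h2 hQy0 hQw (h.Qne k) hyw (pc hκ1) (pc h3)).1
      (u := y + κ • e k) (u' := y + (-κ) • e k)
      (by convert mem3 y w' (e k) 1 0 κ using 1; module)
      (by convert mem3 y w' (e k) 1 0 (-κ) using 1; module)
      (full κ hκ0 hQy hu h1) (full _ (neg_ne_zero.2 hκ0) (by rw [hQy]; ring) hu' h7) hu hu' ?_
    simp only [polar_add_right, polar_add_left, polar_smul_right, polar_smul_left, hκ1, pc hκ1,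
      h.self, polar_self', hQy, smul_eq_mul]
    exact fun e0 => mul_ne_zero h.h2 (mul_ne_zero (mul_ne_zero hκ0 hκ0) h.c2)
      (by linear_combination -e0)
  have Em : ∀ m n, k ≠ n → m ≠ n → polar Q (e m) y = 0 → polar Q (e n) y = 0 →
      polar Q (e m) w' = 0 → polar Q (e n) w' = 0 →
      EOin Q (span F ({y, w', e m} : Set V) : Set V) ≤ M := fun m n k1 k2 k3 k4 k5 k6 => by
    obtain ⟨g, hg, g1, g2⟩ := h.cyc k1 k2
    have key : ∀ x ∈ span F ({y, w', e m} : Set V), ∃ x' ∈ span F ({y, w', e k} : Set V), g x' = x :=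
      fun x hx => by
        obtain ⟨r, s, t, rfl⟩ := mem_span_triple.1 hx
        exact ⟨_, mem3 _ _ _ r s t, by
          simp only [map_add, map_smul, g1, g2 y hκ1 k3 k4, g2 w' h3 k5 k6]⟩
    refine EOin_le fun x hx z hz _ _ => ?_
    obtain ⟨x', hx', rfl⟩ := key x hx
    obtain ⟨z', hz', rfl⟩ := key z hz
    exact eich_conj_mem hg (Ek (eich_mem_EOin hx' hz'))
  have Ea := Em a b hkb hab ha hb h4 h5
  have Eb := Em b a hka hab.symm hb ha h5 h4
  obtain ⟨s, t, hst⟩ := exists_sq_comb h.h2 hQy0 hQw (-(α * α * c))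
  refine h.G2 h6 (u := s • y + t • w' + α • e k) (fun e0 => ?_) ?_ hab ?_ ?_
    (h.AS_of_AA (one_div_ne_zero h.c0) (plane_AA h.hQ h.h2 h.c0 hQy0 hQw (h.Qe k) (h.Qe a) (h.Qne b)
      hyw (pc hκ1) (pc h3) (pc ha) (pc h4) (pc hb) (pc h5) (h.o hka) (h.o hkb) Ek Ea Eb hα hst))
    (h.AS_of_AA (one_div_ne_zero h.c0) (plane_AA h.hQ h.h2 h.c0 hQy0 hQw (h.Qe k) (h.Qe b) (h.Qne a)
      hyw (pc hκ1) (pc h3) (pc hb) (pc h5) (pc ha) (pc h4) (h.o hkb) (h.o hka) Ek Eb Ea hα hst))
  · have := congrArg (polar Q (e k)) e0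
    simp [hκ1, h3, h.self, hα0, h.h2, h.c0] at this
  · simp only [Q_add, Q_smul, polar_add_left, polar_smul_left, polar_smul_right, hyw, pc hκ1, pc h3,
      h.Qe, smul_eq_mul]
    linear_combination hst
  · simp [ha, h4, h.o hka.symm]
  · simp [hb, h5, h.o hkb.symm]

end Fr

end H91
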