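/- Overgroups of orthogonal frame stabilisers over prime fields: reflections and maximality. -/
import Cfsg.Agent.H91.FrBase

set_option autoImplicit false
set_option linter.unusedSectionVars false

namespace H91

open QuadraticMap H56 H60 Module Submodule

variable {F V : Type*} [Field F] [AddCommGroup V] [Module F V] {Q : QuadraticForm F V}
  [FiniteDimensional F V] [Finite F]

theorem exists_ne_six' {ι : Type*} [Fintype ι] (h : 7 ≤ Fintype.card ι) (a b c d e f : ι) :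
    ∃ l, l ≠ a ∧ l ≠ b ∧ l ≠ c ∧ l ≠ d ∧ l ≠ e ∧ l ≠ f := by
  classical
  obtain ⟨l, -, hl⟩ := Finset.exists_mem_notMem_of_card_lt_card (s := {a, b, c, d, e, f})
    (t := Finset.univ) (by
      have := Finset.card_le_six (a := a) (b := b) (c := c) (d := d) (e := e) (f := f)
      rw [Finset.card_univ]; omega)
  exact ⟨l, by simpa using hl⟩

/-- A group meeting `Ω` inside `M` and containing the Weyl group `B` on the indices `≠ a, b`. -/
structure FrG {ι : Type*} (D : ι → Submodule F V) (M : Subgroup (O Q)) (e : ι → V) (c : F)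
    (G : Subgroup (O Q)) (a b : ι) : Prop extends Fr D M e c where
  ab : a ≠ b
  inf : G ⊓ commutator (O Q) ≤ M
  r1 : ∀ k, k ≠ a → k ≠ b → refl Q (e k) ∈ G
  r2 : ∀ k l, k ≠ a → k ≠ b → l ≠ a → l ≠ b → k ≠ l → refl Q (e k - e l) ∈ G

namespace FrG

variable {ι : Type*} [Fintype ι] {D : ι → Submodule F V} {M G : Subgroup (O Q)} {e : ι → V} {c : F}
  {a b : ι}

theorem deg (h : FrG D M e c G a b) (h6 : 6 ≤ Fintype.card ι) {p z : V} (h1 : refl Q (p + z) ∈ G)
    (h3 : refl Q (z - p) ∈ G) (hz : Q z = 0) (hz0 : z ≠ 0) (hzp : polar Q z p = 0)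
    (hp : Q (p + z) ≠ 0) {l : ι} (hla : l ≠ a) (hlb : l ≠ b) (ha : polar Q (e a) z = 0)
    (hb : polar Q (e b) z = 0) (hl : polar Q (e l) z = 0) (hl' : polar Q (e l) p ≠ 0) : False := by
  have := smul_mem_AA_of_refl hz (y := p + z) (by rw [polar_add_right, hzp, pself hz, add_zero]) hp h1
    (c := -2) (by rw [← refl_neg]; convert h3 using 2; module)
  refine h.G1 h6 hz0 hz h.ab hla hlb ha hb hl (AS_le_of_inf h.hQ h.h5 h.inf z
    (h.AS_of_AA (div_ne_zero (neg_ne_zero.2 h.h2) hp) this)) ?_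
  rwa [polar_add_right, hl, add_zero]

theorem one (h : FrG D M e c G a b) (h6 : 6 ≤ Fintype.card ι) {y : V} (ha : polar Q (e a) y = 0)
    (hb : polar Q (e b) y = 0) (hy : Q y ≠ 0) (hr : refl Q y ∈ G) {i j : ι} (hij : i ≠ j)
    (hi : polar Q (e i) y ≠ 0) (hj : polar Q (e j) y ≠ 0) :
    polar Q (e i) y * polar Q (e i) y ≠ 4 * c * Q y := fun h0 => by
  have hia : i ≠ a := fun e0 => hi (e0 ▸ ha)
  have hib : i ≠ b := fun e0 => hi (e0 ▸ hb)
  obtain ⟨κ, hκ⟩ : ∃ κ, polar Q (e i) y = κ * (2 * c) := ⟨_, (div_mul_cancel₀ _ h.c2).symm⟩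
  obtain ⟨z, rfl⟩ : ∃ z, y = κ • e i + z := ⟨y - κ • e i, by simp⟩
  rw [hκ] at h0
  simp only [polar_add_right, polar_smul_right, h.o hia.symm, h.o hib.symm, h.o hij.symm, h.self,
    smul_eq_mul, mul_zero, zero_add, add_eq_left] at ha hb hκ hj
  refine h.deg h6 hr ?_ ?_ ?_ ?_ hy hia hib ha hb hκ ?_
  · have := refl_apply_mem_of (h.r1 i hia hib) hr
    rw [map_add, map_smul, refl_apply_self (h.Qne i), refl_apply_of_orth hκ] at this
    convert this using 2; module
  · rw [Q_add, Q_smul, h.Qe, polar_smul_left, hκ] at h0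
    exact (mul_eq_zero.1 (by linear_combination -h0 : (2 * (2 * c)) * Q z = 0)).resolve_left
      (mul_ne_zero h.h2 h.c2)
  · rintro rfl; simp at hj
  · simp [pc hκ]
  · simpa [hκ] using hi

theorem quarter (h : FrG D M e c G a b) (h6 : 6 ≤ Fintype.card ι) {y : V} (ha : polar Q (e a) y = 0)
    (hb : polar Q (e b) y = 0) (hy : Q y ≠ 0) (hr : refl Q y ∈ G) {i j k : ι} (hij : i ≠ j)
    (hik : i ≠ k) (hjk : j ≠ k) (hi : polar Q (e i) y ≠ 0) (hj : polar Q (e j) y ≠ 0)
    (hk : polar Q (e k) y ≠ 0) : polar Q (e i) y * polar Q (e i) y = c * Q y ∧ (3 : F) ≠ 0 := by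
  have hia : i ≠ a := fun e0 => hi (e0 ▸ ha)
  have hib : i ≠ b := fun e0 => hi (e0 ▸ hb)
  have hja : j ≠ a := fun e0 => hj (e0 ▸ ha)
  have hjb : j ≠ b := fun e0 => hj (e0 ▸ hb)
  have h1 := h.one h6 ha hb hy hr hij hi hj
  obtain ⟨κ, hκ⟩ : ∃ κ, polar Q (e i) y = κ * (2 * c) := ⟨_, (div_mul_cancel₀ _ h.c2).symm⟩
  obtain ⟨μ, hμ⟩ : ∃ κ, polar Q (e j) y = κ * (2 * c) := ⟨_, (div_mul_cancel₀ _ h.c2).symm⟩
  have hκ0 : κ ≠ 0 := by rintro rfl; simp [hκ] at hi
  have hμ0 : μ ≠ 0 := by rintro rfl; simp [hμ] at hj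
  rw [hκ] at h1 ⊢
  obtain ⟨z, rfl⟩ : ∃ z, y = κ • e i + μ • e j + z := ⟨y - (κ • e i + μ • e j), by simp⟩
  simp only [polar_add_right, polar_smul_right, h.o hia.symm, h.o hib.symm, h.o hij.symm, h.self,
    h.o hja.symm, h.o hjb.symm, h.o hij, h.o hik.symm, h.o hjk.symm, smul_eq_mul, mul_zero, zero_add,
    add_zero, add_eq_left] at ha hb hκ hμ hk
  have hQ : Q (κ • e i + μ • e j + z) = κ * κ * c + μ * μ * c + Q z := by
    simp [Q_add, Q_smul, polar_add_left, polar_smul_left, polar_smul_right, hκ, hμ, h.o hij, h.Qe]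
  have hz : Q z ≠ 0 := fun hz => by
    refine h.deg h6 hr ?_ hz (by rintro rfl; simp at hk) (by simp [pc hκ, pc hμ]) hy hia hib ha hb hκ
      (by simp [h.o hij, h.self, hκ0, h.h2, h.c0])
    have := refl_apply_mem_of (h.r1 i hia hib) (refl_apply_mem_of (h.r1 j hja hjb) hr)
    simp only [map_add, map_smul, map_neg, refl_apply_self (h.Qne i), refl_apply_self (h.Qne j),
      refl_apply_of_orth hκ, refl_apply_of_orth hμ, refl_apply_of_orth (h.o hij),
      refl_apply_of_orth (h.o hij.symm)] at this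
    convert this using 2; module
  have h3 : (3 : F) ≠ 0 := fun h3 => by
    have key : ∀ t : F, t ≠ 0 → t = 1 ∨ t = -1 := fun t ht => by
      obtain ⟨n, rfl⟩ := h.pf t
      rw [← Nat.div_add_mod n 3] at ht ⊢
      rcases (by omega : n % 3 = 0 ∨ n % 3 = 1 ∨ n % 3 = 2) with e0 | e0 | e0 <;> rw [e0] at ht ⊢
      · exact absurd (by push_cast; linear_combination (n / 3 : ℕ) * h3) ht
      · left; push_cast; linear_combination (n / 3 : ℕ) * h3
      · right; push_cast; linear_combination ((n / 3 : ℕ) + 1) * h3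
    have k1 := mul_self_eq_one_iff.2 (key κ hκ0)
    have k2 := mul_self_eq_one_iff.2 (key μ hμ0)
    rcases key _ (div_ne_zero hy h.c0) with e0 | e0 <;> rw [div_eq_iff h.c0] at e0
    · exact h1 (by rw [e0]; linear_combination (4 * c * c) * k1)
    · exact hz (by linear_combination e0 - hQ - c * k1 - c * k2 - c * h3)
  refine ⟨?_, h3⟩
  have := three_dim h.hQ h.h2 h.c0 (h.Qe i) (h.Qe j) hz (h.o hij) hκ hμ (h.r1 i hia hib)
    (h.r2 i j hia hib hja hjb hij) (fun u hu w hw h0 h4 h5 h7 => ?_) hκ0 hμ0 hy hr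
  · linear_combination c * this
  have key : ∀ l, polar Q (e l) z = 0 → l ≠ i → l ≠ j → ∀ x ∈ span F ({e i, e j, z} : Set V),
      polar Q (e l) x = 0 := fun l k1 k2 k3 x hx => by
    obtain ⟨r, s, t, rfl⟩ := mem_span_triple.1 hx
    simp [k1, h.o k2, h.o k3]
  exact h.stepA h6 h.h2 (fun e0 => h3 (by linear_combination e0)) h0 h4 h.ab
    (key a ha hia.symm hja.symm u hu) (key b hb hib.symm hjb.symm u hu)
    (key a ha hia.symm hja.symm w hw) (key b hb hib.symm hjb.symm w hw)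
    (AS_le_of_inf h.hQ h.h5 h.inf u (h.AS_of_AA one_ne_zero (by rw [one_smul]; exact ⟨h5, h7⟩)))

/-- The reflections of `G` have support of size at most two. -/
theorem supp2 (h : FrG D M e c G a b) (h7 : 7 ≤ Fintype.card ι) {x : V} (ha : polar Q (e a) x = 0)
    (hb : polar Q (e b) x = 0) (hx : Q x ≠ 0) (hr : refl Q x ∈ G) {i j k : ι} (hij : i ≠ j)
    (hik : i ≠ k) (hjk : j ≠ k) (hi : polar Q (e i) x ≠ 0) (hj : polar Q (e j) x ≠ 0)
    (hk : polar Q (e k) x ≠ 0) : False := by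
  have h6 : 6 ≤ Fintype.card ι := by omega
  have hia : i ≠ a := fun e0 => hi (e0 ▸ ha)
  have hib : i ≠ b := fun e0 => hi (e0 ▸ hb)
  have hja : j ≠ a := fun e0 => hj (e0 ▸ ha)
  have hjb : j ≠ b := fun e0 => hj (e0 ▸ hb)
  have hka : k ≠ a := fun e0 => hk (e0 ▸ ha)
  have hkb : k ≠ b := fun e0 => hk (e0 ▸ hb)
  obtain ⟨q1, h3⟩ := h.quarter h6 ha hb hx hr hij hik hjk hi hj hk
  obtain ⟨q2, -⟩ := h.quarter h6 ha hb hx hr hij.symm hjk hik hj hi hk
  obtain ⟨q3, -⟩ := h.quarter h6 ha hb hx hr hik.symm hjk.symm hij hk hi hj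
  have c0 := h.c0
  have h2 := h.h2
  by_cases hf : ∃ l, l ≠ a ∧ l ≠ b ∧ polar Q (e l) x = 0
  · obtain ⟨l, hla, hlb, hl⟩ := hf
    have hil : i ≠ l := fun e0 => hi (e0 ▸ hl)
    have hjl : j ≠ l := fun e0 => hj (e0 ▸ hl)
    have hkl : k ≠ l := fun e0 => hk (e0 ▸ hl)
    have hw : refl Q x (refl Q (e i - e l) x) =
        (-1 / 2 : F) • x - ((2 * c)⁻¹ * polar Q (e i) x) • (e i - e l) := by
      rw [refl_apply x, refl_apply (e i - e l), h.Q_sub' (h.Qe i) (h.Qe l) (h.o hil)]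
      simp only [polar_sub_right, polar_sub_left, polar_smul_right, polar_self', hl, pc hl,
        smul_eq_mul, polar_comm _ x (e i)]
      match_scalars
      · field_simp; linear_combination q1
      all_goals ring
    have h1 := refl_apply_mem_of hr (refl_apply_mem_of (h.r2 i l hia hib hla hlb hil) hr)
    have h4 : Q (refl Q x (refl Q (e i - e l) x)) = Q x := by simp
    rw [hw] at h1 h4
    have := (h.quarter h6 (by simp [ha, h.o hia.symm, h.o hla.symm])
      (by simp [hb, h.o hib.symm, h.o hlb.symm]) (h4 ▸ hx) h1 hjk hjl hkl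
      (by simp [hj, h.o hij.symm, h.o hjl, h2]) (by simp [hk, h.o hik.symm, h.o hkl, h2])
      (by simp [hl, h.o hil.symm, h.self, hi, h2, c0])).1
    simp only [h4, polar_sub_right, polar_smul_right, h.o hij.symm, h.o hjl, smul_eq_mul, sub_self,
      mul_zero, sub_zero] at this
    have e0 : (-1 / 2 : F) * 2 = -1 := by field_simp
    exact mul_ne_zero h3 (mul_ne_zero c0 hx) (by
      linear_combination q2 - 4 * this + polar Q (e j) x ^ 2 * (2 * (-1 / 2) - 1) * e0)
  · push Not at hf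
    obtain ⟨l, hla, hlb, hli, hlj, hlk, -⟩ := exists_ne_six' h7 a b i j k k
    obtain ⟨m, hma, hmb, hmi, hmj, hmk, hml⟩ := exists_ne_six' h7 a b i j k l
    have hl := hf l hla hlb
    have hm := hf m hma hmb
    obtain ⟨q4, -⟩ := h.quarter h6 ha hb hx hr hli hlj hij hl hi hj
    have hw : refl Q x (refl Q (e i) (refl Q (e j) (refl Q (e k) x))) = (2 : F) • x -
        (c⁻¹ * polar Q (e i) x) • e i - (c⁻¹ * polar Q (e j) x) • e j -
        (c⁻¹ * polar Q (e k) x) • e k := by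
      rw [refl_apply x, refl_apply (e i), refl_apply (e j), refl_apply (e k)]
      simp only [polar_sub_right, polar_smul_right, polar_self', h.o hij, h.o hik, h.o hjk, h.Qe,
        smul_eq_mul, polar_comm _ x (e i), polar_comm _ x (e j), polar_comm _ x (e k)]
      match_scalars
      · field_simp; linear_combination (c * c) * (q1 + q2 + q3)
      all_goals ring
    have h1 := refl_apply_mem_of hr (refl_apply_mem_of (h.r1 i hia hib) (refl_apply_mem_of
      (h.r1 j hja hjb) (refl_apply_mem_of (h.r1 k hka hkb) hr)))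
    have h4 : Q (refl Q x (refl Q (e i) (refl Q (e j) (refl Q (e k) x)))) = Q x := by simp
    rw [hw] at h1 h4
    refine h.one h6 (by simp [ha, h.o hia.symm, h.o hja.symm, h.o hka.symm])
      (by simp [hb, h.o hib.symm, h.o hjb.symm, h.o hkb.symm]) (h4 ▸ hx) h1 hml.symm
      (by simp [hl, h.o hli, h.o hlj, h.o hlk, h2]) (by simp [hm, h.o hmi, h.o hmj, h.o hmk, h2]) ?_
    simp only [h4, polar_sub_right, polar_smul_right, h.o hli, h.o hlj, h.o hlk, smul_eq_mul]
    linear_combination 4 * q4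

end FrG

namespace Fr

variable {ι : Type*} [Fintype ι] {D : ι → Submodule F V} {M : Subgroup (O Q)} {e : ι → V} {c : F}

theorem maps (h : Fr D M e c) {g : O Q} {k j : ι} (hg : g (e k) ∈ D j) : ∀ x ∈ D k, g x ∈ D j :=
  fun x hx => by
    obtain ⟨t, rfl⟩ := h.exists_smul hx
    rw [map_smul]; exact smul_mem _ _ hg

theorem orth_of (h : Fr D M e c) {v x : V} {j : ι} (hv : v ∈ D j) (h0 : v ≠ 0)
    (hx : polar Q v x = 0) : polar Q (e j) x = 0 := by
  obtain ⟨t, rfl⟩ := h.exists_smul hv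
  simpa [left_ne_zero_of_smul h0] using hx

/-- An element of `M` mapping two frame lines to frame lines stabilises the frame. -/
theorem F2 (h : Fr D M e c) (h7 : 7 ≤ Fintype.card ι) {g : O Q} (hg : g ∈ M) {a₀ b₀ a b : ι}
    (h0 : a₀ ≠ b₀) (ha : g (e a₀) ∈ D a) (hb : g (e b₀) ∈ D b) : g ∈ dstab Q D := by
  have gn : ∀ k, g (e k) ≠ 0 := fun k => by simpa using h.ne0 k
  have go : ∀ {k l}, k ≠ l → polar Q (g (e k)) (g (e l)) = 0 := fun hkl => by simpa using h.o hkl
  have gQ : ∀ k, Q (g (e k)) = c := fun k => by simpa using h.Qe k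
  have hab : a ≠ b := by
    rintro rfl
    have := h.orth_of hb (gn _) (pc (h.orth_of ha (gn _) (go h0)))
    exact h.c2 (h.self a ▸ this)
  have hU := (h.nd a).sup_span (z := e b) (h.mem_perp_of hab.symm (h.mem b)) (h.self b ▸ h.c2)
  set G := Gstar h.hQ hU M
    (A := dstab Q D ⊓ fixer Q (perp Q (D a ⊔ span F {e b}) : Set V)) inf_le_right
  have hG : ∀ y v, polar Q (e a) y = 0 → polar Q (e b) y = 0 → v ∈ D a ⊔ span F {e b} →
      refl Q v ∈ dstab Q D → refl Q y * refl Q v ∈ M → refl Q y ∈ G :=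
    fun y v h1 h3 h4 h5 h6 => ⟨refl_mem_fixer fun x hx => by
      obtain ⟨z, hz, t, rfl⟩ := mem_sup_span_iff.1 hx
      obtain ⟨s, rfl⟩ := h.exists_smul hz
      simp [pc h1, pc h3], _, ⟨h5, refl_mem_fixer fun x hx => hx v h4⟩, h6⟩
  have hb' : ∀ v ∈ D b, v ∈ D a ⊔ span F {e b} := fun v hv => mem_sup_right (h.D_eq b ▸ hv)
  have H : FrG D M e c G a b := { h with
    ab := hab
    inf := Gstar_inf_le h.le' fun k hk => h.le ⟨hk.1.1, hk.2⟩
    r1 := fun k k1 k2 => hG _ _ (h.o k1.symm) (h.o k2.symm) (mem_sup_left (h.mem a))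
      (h.refl_mem (h.mem a)) (h.d_mem k a)
    r2 := fun k l k1 k2 l1 l2 hkl => hG _ _ (by simp [h.o k1.symm, h.o l1.symm])
      (by simp [h.o k2.symm, h.o l2.symm]) (sub_mem (mem_sup_left (h.mem a)) (hb' _ (h.mem b)))
      (h.refl_sub_mem hab (h.mem a) (h.mem b) (h.Qe a) (h.Qe b)) (h.sw_mem hkl hab) }
  have oa : ∀ k, k ≠ a₀ → polar Q (e a) (g (e k)) = 0 := fun k hk => h.orth_of ha (gn _) (go hk.symm)
  have ob : ∀ k, k ≠ b₀ → polar Q (e b) (g (e k)) = 0 := fun k hk => h.orth_of hb (gn _) (go hk.symm)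
  have cj : ∀ u v, refl Q u * refl Q v ∈ M → refl Q (g u) * refl Q (g v) ∈ M := fun u v huv => by
    have := M.mul_mem (M.mul_mem hg huv) (M.inv_mem hg)
    rwa [← conj_mul, conj_refl, conj_refl] at this
  have R1 := fun k (k1 : k ≠ a₀) (k2 : k ≠ b₀) => hG _ _ (oa k k1) (ob k k2) (mem_sup_left ha)
    (h.refl_mem ha) (cj _ _ (h.d_mem k a₀))
  have R2 := fun k l (k1 : k ≠ a₀) (k2 : k ≠ b₀) (l1 : l ≠ a₀) (l2 : l ≠ b₀) (hkl : k ≠ l) =>
    hG (g (e k) - g (e l)) _ (by simp [oa k k1, oa l l1]) (by simp [ob k k2, ob l l2])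
      (sub_mem (mem_sup_left ha) (hb' _ hb)) (h.refl_sub_mem hab ha hb (gQ _) (gQ _))
      (by simpa only [map_sub] using cj _ _ (h.sw_mem hkl h0))
  refine h.mem_dstab_of fun k => ?_
  by_cases k1 : k = a₀
  · exact ⟨a, h.maps (k1 ▸ ha)⟩
  by_cases k2 : k = b₀
  · exact ⟨b, h.maps (k2 ▸ hb)⟩
  obtain ⟨i, hi⟩ := h.exists_ne' (gn k)
  refine ⟨i, h.maps (h.mem_of fun j hj => ?_)⟩
  by_contra hn
  have hij : i ≠ j := fun e0 => hn (e0 ▸ h.mem i)
  have S1 := fun l (l1 : l ≠ a₀) (l2 : l ≠ b₀) {r : ι} (r1 : i ≠ r) (r2 : j ≠ r) =>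
    H.supp2 h7 (oa l l1) (ob l l2) (gQ l ▸ h.c0) (R1 l l1 l2) hij r1 r2
  have key : ∀ l, l ≠ a₀ → l ≠ b₀ → g (e l) ∈ span F ({e i, e j} : Set V) := fun l l1 l2 =>
    h.mem_of fun r hr => by
      by_cases r1 : i = r
      · exact subset_span (by simp [r1])
      by_cases r2 : j = r
      · exact subset_span (by simp [r2])
      have r3 : polar Q (e r) (g (e k)) = 0 := by_contra (S1 k k1 k2 r1 r2 hi hj)
      have hkl : k ≠ l := fun e0 => hr (e0 ▸ r3)
      have q1 : Q (g (e k) - g (e l)) ≠ 0 := by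
        rw [h.Q_sub' (gQ k) (gQ l) (go hkl)]; exact h.c2
      have R3 := refl_apply_mem_of (R1 l l1 l2) (R2 k l k1 k2 l1 l2 hkl)
      have q2 : Q (refl Q (g (e l)) (g (e k) - g (e l))) ≠ 0 := by rwa [O.map_Q]
      rw [map_sub, refl_apply_of_orth (go hkl.symm), refl_apply_self (gQ l ▸ h.c0),
        sub_neg_eq_add] at R3 q2
      have t1 := H.supp2 h7 (by simp [oa k k1, oa l l1]) (by simp [ob k k2, ob l l2]) q1
        (R2 k l k1 k2 l1 l2 hkl) hij r1 r2
      have t2 := H.supp2 h7 (by simp [oa k k1, oa l l1]) (by simp [ob k k2, ob l l2]) q2 R3 hij r1 r2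
      have t3 := S1 l l1 l2 r1 r2
      simp only [polar_sub_right, polar_add_right, r3, zero_sub, zero_add, neg_ne_zero] at t1 t2
      exfalso
      by_cases u1 : polar Q (e i) (g (e k)) - polar Q (e i) (g (e l)) = 0
      · refine t2 (fun u => mul_ne_zero h.h2 hi (by linear_combination u + u1)) (fun u => ?_) hr
        exact t3 (fun u' => hi (by linear_combination u1 + u')) (fun u' => hj (by
          linear_combination u - u')) hr
      · refine t1 u1 (fun u2 => t2 (fun u => ?_)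
          (fun u => mul_ne_zero h.h2 hj (by linear_combination u + u2)) hr) hr
        exact t3 (fun u' => hi (by linear_combination u - u')) (fun u' => hj (by
          linear_combination u2 + u')) hr
  obtain ⟨l, l1, l2, l3, -⟩ := exists_ne_six' h7 a₀ b₀ k k k k
  obtain ⟨m, m1, m2, m3, m4, -⟩ := exists_ne_six' h7 a₀ b₀ k l l l
  have f1 := (nondeg_three h.h2 (gQ k ▸ h.c0) (gQ l ▸ h.c0) (gQ m ▸ h.c0) (go l3.symm) (go m3.symm)
    (go m4.symm)).2
  have f2 := finrank_mono (span_le.2 (by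
    simp [Set.insert_subset_iff, key k k1 k2, key l l1 l2, key m m1 m2]) :
      span F ({g (e k), g (e l), g (e m)} : Set V) ≤ span F {e i, e j})
  have f3 := finrank_span_pair_le (F := F) (e i) (e j)
  omega

end Fr

end H91
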