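/- Maximality of orthogonal frame stabilisers over prime fields (dimension `7` or at least `9`). -/
import Cfsg.Agent.H60.DecAll
import Cfsg.Agent.H91.FrCore

set_option autoImplicit false
set_option linter.unusedSectionVars false

namespace H91

open QuadraticMap H56 H60 Module Submodule Cfsg.Geo

variable {F V : Type*} [Field F] [AddCommGroup V] [Module F V] {Q : QuadraticForm F V}
  [FiniteDimensional F V] [Finite F]

omit [FiniteDimensional F V] [Finite F] in
theorem pc' {x y : V} {a : F} (h : polar Q x y = a) : polar Q y x = a := by rwa [polar_comm]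

theorem tri_field (h2 : (2 : F) ≠ 0) {a b c : F} (ha : a ≠ 0)
    (h : ∀ s t : F, s * s = 1 → t * t = 1 → (a = s * b ∧ s * b = t * c) ∨
      (a - s * b) * (a - s * b) + (s * b - t * c) * (a - t * c) = 1) :
    (a * a = 1 ∧ b = 0 ∧ c = 0) ∨ (4 * (a * a) = 1 ∧ 4 * (b * b) = 1 ∧ 4 * (c * c) = 1) := by
  by_cases h1 : ∃ s t : F, s * s = 1 ∧ t * t = 1 ∧ a = s * b ∧ s * b = t * c
  · obtain ⟨s, t, hs, ht, e1, e2⟩ := h1
    right
    have : 4 * (a * a) = 1 := by
      rcases h (-s) t (by linear_combination hs) ht with ⟨e3, -⟩ | e3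
      · exact absurd (by linear_combination e1 + e3) (mul_ne_zero h2 ha)
      · rw [neg_mul, ← e2, ← e1] at e3
        linear_combination e3
    exact ⟨this, by rw [e1] at this; linear_combination this - 4 * b * b * hs,
      by rw [e1, e2] at this; linear_combination this - 4 * c * c * ht⟩
  · left
    have key : ∀ s t : F, s * s = 1 → t * t = 1 →
        (a - s * b) * (a - s * b) + (s * b - t * c) * (a - t * c) = 1 := fun s t hs ht =>
      (h s t hs ht).resolve_left fun e => h1 ⟨s, t, hs, ht, e⟩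
    have e1 := key 1 1 (by simp) (by simp)
    have e2 := key (-1) 1 (by simp) (by simp)
    have e3 := key 1 (-1) (by simp) (by simp)
    have e4 := key (-1) (-1) (by simp) (by simp)
    have h4 := mul_ne_zero (mul_ne_zero h2 h2) ha
    obtain rfl : b = 0 := (mul_eq_zero.1 (by linear_combination e2 + e4 - e1 - e3 :
      2 * 2 * a * b = 0)).resolve_left h4
    obtain rfl : c = 0 := (mul_eq_zero.1 (by linear_combination e3 + e4 - e1 - e2 :
      2 * 2 * a * c = 0)).resolve_left h4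
    exact ⟨by linear_combination e1, rfl, rfl⟩

/-- All signed three-cycles on `x, y, z` stabilise the frame. -/
def Cy (Q : QuadraticForm F V) {ι : Type*} (D : ι → Submodule F V) (x y z : V) : Prop :=
  ∀ s t : F, s * s = 1 → t * t = 1 → refl Q (x - t • z) * refl Q (x - s • y) ∈ dstab Q D

namespace Fr

variable {ι : Type*} [Fintype ι] {D : ι → Submodule F V} {M : Subgroup (O Q)} {e : ι → V} {c : F}

theorem fv (h : Fr D M e c) {u v : V} {i j : ι} (hu : u ∈ D i) (hv : v ∈ D j) (hQu : Q u = c)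
    (hQv : Q v = c) : polar Q u v = 0 ∨ u = v ∨ u = -v := by
  by_cases hij : i = j
  · subst hij
    obtain ⟨s, rfl⟩ := h.exists_smul hu
    obtain ⟨t, rfl⟩ := h.exists_smul hv
    rw [Q_smul, h.Qe] at hQu hQv
    rcases mul_self_eq_mul_self_iff.1 (mul_right_cancel₀ h.c0 (hQu.trans hQv.symm)) with rfl | rfl
    exacts [Or.inr (Or.inl rfl), Or.inr (Or.inr (neg_smul _ _))]
  · exact Or.inl (h.orth i j hij _ hu _ hv)

theorem cyc_mem (h : Fr D M e c) {x y z : V} (hx : Q x = c) (hy : Q y = c) (hz : Q z = c)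
    (hxy : polar Q x y = 0) (hxz : polar Q x z = 0) (hyz : polar Q y z = 0)
    (hτ : refl Q (x - z) * refl Q (x - y) ∈ dstab Q D) {i : ι} {α β γ : F}
    (h1 : polar Q x (e i) = α * (2 * c)) (h3 : polar Q y (e i) = β * (2 * c))
    (h4 : polar Q z (e i) = γ * (2 * c)) : ∃ j, e i - (α - β) • (x - y) - (β - γ) • (x - z) ∈ D j ∧
      Q (e i - (α - β) • (x - y) - (β - γ) • (x - z)) = c := by
  have : (refl Q (x - z) * refl Q (x - y)) (e i) = e i - (α - β) • (x - y) - (β - γ) • (x - z) := by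
    have := h.c0
    have := h.h2
    rw [O.mul_apply, refl_apply (x - z), refl_apply (x - y), h.Q_sub' hx hz hxz, h.Q_sub' hx hy hxy]
    simp only [polar_sub_left, polar_sub_right, polar_smul_right, h1, h3, h4, hxy, pc hxz, pc hyz,
      polar_self', hx, smul_eq_mul]
    match_scalars <;> field_simp <;> ring
  obtain ⟨j, hj⟩ := OrthDec.exists_of_dstab hτ i
  exact ⟨j, this ▸ hj _ (h.mem i), by rw [← this, O.map_Q, h.Qe]⟩

theorem tri (h : Fr D M e c) {x y z : V} (hx : Q x = c) (hy : Q y = c) (hz : Q z = c)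
    (hxy : polar Q x y = 0) (hxz : polar Q x z = 0) (hyz : polar Q y z = 0) (hC : Cy Q D x y z)
    {i : ι} {α β γ : F} (h1 : polar Q x (e i) = α * (2 * c)) (h3 : polar Q y (e i) = β * (2 * c))
    (h4 : polar Q z (e i) = γ * (2 * c)) (h0 : α ≠ 0) :
    x ∈ D i ∨ (4 * (α * α) = 1 ∧ 4 * (β * β) = 1 ∧ 4 * (γ * γ) = 1) := by
  have key := fun (s t : F) (hs : s * s = 1) (ht : t * t = 1) => h.cyc_mem (y := s • y) (z := t • z)
    hx (by rw [Q_smul, hs, one_mul, hy]) (by rw [Q_smul, ht, one_mul, hz]) (by simp [hxy])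
    (by simp [hxz]) (by simp [hyz]) (hC s t hs ht) h1 (β := s * β) (γ := t * γ)
    (by rw [polar_smul_left, h3, smul_eq_mul, mul_assoc]) (by rw [polar_smul_left, h4, smul_eq_mul, mul_assoc])
  have c2 := h.c2
  refine (tri_field h.h2 h0 fun s t hs ht => ?_).imp_left ?_
  · obtain ⟨j, k1, k2⟩ := key s t hs ht
    rcases h.fv (h.mem i) k1 (h.Qe i) k2 with k | k | k
    · simp only [polar_sub_right, polar_smul_right, pc' h1, pc' h3, pc' h4, h.self, smul_eq_mul] at k
      exact Or.inr (mul_right_cancel₀ c2 (by linear_combination -k))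
    all_goals
      have k3 := congrArg (polar Q x) k
      have k4 := congrArg (polar Q (s • y)) k
      have k5 := congrArg (polar Q (t • z)) k
      simp only [polar_neg_right, polar_sub_right, polar_smul_right, polar_smul_left, h1, h3, h4, hxy,
        hxz, hyz, pc hxy, pc hxz, pc hyz, polar_self', Q_smul, hx, hy, hz, smul_eq_mul] at k3 k4 k5
    · exact Or.inl ⟨mul_right_cancel₀ c2 (by linear_combination -k4 - (α - s * β) * (2 * c) * hs),
        mul_right_cancel₀ c2 (by linear_combination -k5 - (s * β - t * γ) * (2 * c) * ht)⟩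
    · exact absurd (by linear_combination k3 + k4 - k5 - (α - s * β) * (2 * c) * hs +
        (s * β - t * γ) * (2 * c) * ht) (mul_ne_zero (mul_ne_zero h.h2 h0) c2)
  · rintro ⟨k0, rfl, rfl⟩
    obtain ⟨j, k1, k2⟩ := key 1 1 (by simp) (by simp)
    obtain ⟨j', k3, k4⟩ := key (-1) 1 (by simp) (by simp)
    simp only [mul_zero, sub_zero, zero_smul, one_smul, neg_smul, sub_neg_eq_add] at k1 k2 k3 k4
    rw [zero_mul] at h3 h4
    rcases h.fv k1 k3 k2 k4 with k | k | k
    · simp only [polar_sub_right, polar_sub_left, polar_add_right, polar_smul_right, polar_smul_left,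
        h1, h3, pc' h1, pc h3, hxy, pc hxy, polar_self', hx, hy, h.Qe, smul_eq_mul] at k
      exact absurd (by linear_combination -k - 2 * (2 * c) * k0) c2
    · have k5 := congrArg (polar Q y) k
      simp only [polar_sub_right, polar_add_right, polar_smul_right, pc hxy, polar_self', hy,
        smul_eq_mul] at k5
      exact absurd (by linear_combination k5) (mul_ne_zero (mul_ne_zero h.h2 h0) c2)
    · rw [← smul_mem_iff _ (mul_ne_zero h.h2 h0),
        show (2 * α) • x = (2 : F) • e i by linear_combination (norm := module) -k]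
      exact smul_mem _ _ (h.mem i)

theorem coord (h : Fr D M e c) (x : V) (i : ι) : ∃ α, polar Q x (e i) = α * (2 * c) :=
  ⟨_, (div_mul_cancel₀ _ h.c2).symm⟩

theorem key5 (h : Fr D M e c) {κ : Type*} {x : κ → V} {I : Finset κ} (h5 : 5 ≤ I.card)
    (hQ : ∀ p, Q (x p) = c) (ho : ∀ p q, p ≠ q → polar Q (x p) (x q) = 0)
    (hC : ∀ p ∈ I, ∀ q ∈ I, ∀ r ∈ I, p ≠ q → p ≠ r → q ≠ r → Cy Q D (x p) (x q) (x r)) {p : κ}
    (hp : p ∈ I) : ∃ i, x p ∈ D i := by
  classical
  obtain ⟨i, hi⟩ := h.exists_ne' (x := x p) fun e0 => h.c0 (by rw [← hQ p, e0, map_zero])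
  refine ⟨i, by_contra fun hn => ?_⟩
  choose α hα using fun q => h.coord (x q) i
  have h0 : α p ≠ 0 := fun e0 => hi (by rw [polar_comm, hα, e0, zero_mul])
  have ex : ∀ a b c d, ∃ l ∈ I, l ≠ a ∧ l ≠ b ∧ l ≠ c ∧ l ≠ d := fun a b c d => by
    obtain ⟨l, h1, hl⟩ := Finset.exists_mem_notMem_of_card_lt_card (s := {a, b, c, d}) (t := I)
      (by have := Finset.card_le_four (a := a) (b := b) (c := c) (d := d); omega)
    exact ⟨l, h1, by simpa using hl⟩
  have hB := fun q hq r hr h1 h3 h4 => (h.tri (hQ p) (hQ q) (hQ r) (ho _ _ h1) (ho _ _ h3) (ho _ _ h4)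
    (hC p hp q hq r hr h1 h3 h4) (hα p) (hα q) (hα r) h0).resolve_left hn
  have hs : ∀ q ∈ I, 4 * (α q * α q) = 1 := fun q hq => by
    obtain ⟨r, hr, r1, r2, -⟩ := ex p q q q
    by_cases hq' : p = q
    · obtain ⟨s, hs, s1, s2, -⟩ := ex p r r r
      exact hq' ▸ (hB r hr s hs r1.symm s1.symm s2.symm).1
    · exact (hB q hq r hr hq' r1.symm r2.symm).2.1
  have hw : ∀ q ∈ I, ∀ r ∈ I, q ≠ r → ∃ j, e i - (2 * α q) • x q - (2 * α r) • x r ∈ D j ∧
      Q (e i - (2 * α q) • x q - (2 * α r) • x r) = c := fun q hq r hr hqr => by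
    obtain ⟨s, hs', s1, s2, -⟩ := ex q r r r
    have k1 := hs q hq
    have k2 := hs r hr
    have k3 := hs s hs'
    have := h.cyc_mem (y := (-(4 * α q * α r)) • x r) (z := (-(4 * α q * α s)) • x s) (hQ q)
      (by rw [Q_smul, hQ]; linear_combination (4 * α r * α r * c) * k1 + c * k2)
      (by rw [Q_smul, hQ]; linear_combination (4 * α s * α s * c) * k1 + c * k3)
      (by simp [ho _ _ hqr]) (by simp [ho _ _ s1.symm]) (by simp [ho _ _ s2.symm])
      (hC q hq r hr s hs' hqr s1.symm s2.symm _ _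
        (by linear_combination (4 * α r * α r) * k1 + k2)
        (by linear_combination (4 * α s * α s) * k1 + k3)) (hα q) (β := -α q) (γ := -α q)
      (by rw [polar_smul_left, hα, smul_eq_mul]; linear_combination (-α q * (2 * c)) * k2)
      (by rw [polar_smul_left, hα, smul_eq_mul]; linear_combination (-α q * (2 * c)) * k3)
    rwa [show e i - (α q - -α q) • (x q - (-(4 * α q * α r)) • x r) -
      (-α q - -α q) • (x q - (-(4 * α q * α s)) • x s) = e i - (2 * α q) • x q - (2 * α r) • x r by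
        match_scalars <;> first | ring1 | linear_combination (-2 * α r) * k1] at this
  have hneg : ∀ q ∈ I, ∀ r ∈ I, ∀ s ∈ I, ∀ t ∈ I, q ≠ r → s ≠ t → q ≠ s → q ≠ t → r ≠ s → r ≠ t →
      e i - (2 * α q) • x q - (2 * α r) • x r = -(e i - (2 * α s) • x s - (2 * α t) • x t) :=
    fun q hq r hr s hs' t ht k1 k2 k3 k4 k5 k6 => by
      obtain ⟨j, j1, j2⟩ := hw q hq r hr k1
      obtain ⟨j', j3, j4⟩ := hw s hs' t ht k2
      have hB : polar Q (e i - (2 * α q) • x q - (2 * α r) • x r)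
          (e i - (2 * α s) • x s - (2 * α t) • x t) = -(2 * c) := by
        simp only [polar_sub_left, polar_sub_right, polar_smul_left, polar_smul_right, hα, pc' (hα _),
          h.self, ho _ _ k3, ho _ _ k4, ho _ _ k5, ho _ _ k6, smul_eq_mul]
        linear_combination (-c) * (hs q hq + hs r hr + hs s hs' + hs t ht)
      rcases h.fv j1 j3 j2 j4 with k | k | k
      · exact absurd (neg_eq_zero.1 (hB ▸ k)) h.c2
      · rw [k, polar_self', j4] at hB
        exact absurd (by linear_combination hB) (mul_ne_zero h.h2 h.c2)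
      · exact k
  obtain ⟨q, hq, q1, -⟩ := ex p p p p
  obtain ⟨r, hr, r1, r2, -⟩ := ex p q q q
  obtain ⟨s, hs', s1, s2, s3, -⟩ := ex p q r r
  obtain ⟨t, ht, t1, t2, t3, t4⟩ := ex p q r s
  have := congrArg (polar Q (x s)) ((hneg p hp q hq r hr s hs' q1.symm s3.symm r1.symm s1.symm r2.symm
    s2.symm).symm.trans (hneg p hp q hq r hr t ht q1.symm t3.symm r1.symm t1.symm r2.symm t2.symm))
  simp only [polar_neg_right, polar_sub_right, polar_smul_right, polar_self', hQ, ho _ _ t4.symm,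
    smul_eq_mul] at this
  exact h.c2 (by linear_combination 2 * α s * this - 2 * c * hs s hs')

theorem cy_mem (h : Fr D M e c) {g : O Q} (hg : g ∈ M) {p q r : ι} (hpq : p ≠ q) (hpr : p ≠ r)
    (hF : ∀ k ∈ M, (∀ v, polar Q (g (e p)) v = 0 → polar Q (g (e q)) v = 0 →
      polar Q (g (e r)) v = 0 → k v = v) → k ∈ dstab Q D) : Cy Q D (g (e p)) (g (e q)) (g (e r)) :=
  fun s t hs ht => by
    have k1 : Q (s • e q) = c := by rw [Q_smul, hs, one_mul, h.Qe]
    have k2 : Q (t • e r) = c := by rw [Q_smul, ht, one_mul, h.Qe]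
    have k3 := h.Q_sub' (h.Qe p) k1 (by simp [h.o hpq])
    have k4 := h.Q_sub' (h.Qe p) k2 (by simp [h.o hpr])
    have := M.mul_mem (M.mul_mem hg (h.rr_mem
      (h.refl_sub_mem hpr (h.mem p) (smul_mem _ t (h.mem r)) (h.Qe p) k2)
      (h.refl_sub_mem hpq (h.mem p) (smul_mem _ s (h.mem q)) (h.Qe p) k1) (k4 ▸ h.c2)
      (k3.trans k4.symm))) (M.inv_mem hg)
    rw [← conj_mul, conj_refl, conj_refl, map_sub, map_sub, map_smul, map_smul] at this
    exact hF _ this fun v h1 h3 h4 => by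
      rw [O.mul_apply, refl_apply_of_orth (v := g (e p) - s • g (e q)) (by simp [h1, h3]),
        refl_apply_of_orth (by simp [h1, h4])]

theorem refl_dstab (h : Fr D M e c) {x : V} (hx : Q x = c) (hr : refl Q x ∈ dstab Q D) {i : ι} {α : F}
    (hi : polar Q x (e i) = α * (2 * c)) (h0 : α ≠ 0) :
    x ∈ D i ∨ (2 * (α * α) = 1 ∧ ∃ j, ∀ m, m ≠ i → m ≠ j → polar Q x (e m) = 0) := by
  obtain ⟨j, hj⟩ := OrthDec.exists_of_dstab hr i
  have h1 := hj _ (h.mem i)
  rw [refl_apply, hx, hi, show c⁻¹ * (α * (2 * c)) = 2 * α by have := h.c0; field_simp] at h1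
  have h3 := mul_ne_zero h.h2 h0
  by_cases hij : i = j
  · subst hij
    exact Or.inl (by simpa [smul_mem_iff _ h3] using sub_mem (h.mem i) h1)
  · refine Or.inr ⟨?_, j, fun m m1 m2 => ?_⟩
    · have := h.orth j i (Ne.symm hij) _ h1 _ (h.mem i)
      rw [polar_sub_left, polar_smul_left, hi, h.self, smul_eq_mul] at this
      exact mul_right_cancel₀ h.c2 (by linear_combination -this)
    · simpa [h.o m1.symm, h3, h.h2, h0] using h.orth j m m2.symm _ h1 _ (h.mem m)

theorem cj (_ : Fr D M e c) {g : O Q} (hg : g ∈ M) {u v : V} (huv : refl Q u * refl Q v ∈ M) :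
    refl Q (g u) * refl Q (g v) ∈ M := by
  have := M.mul_mem (M.mul_mem hg huv) (M.inv_mem hg)
  rwa [← conj_mul, conj_refl, conj_refl] at this

theorem inv_maps (h : Fr D M e c) {g : O Q} {a b : ι} (ha : g (e a) ∈ D b) : g⁻¹ (e b) ∈ D a :=
  mem_img.1 ((h.img_eq (h.maps ha)).symm ▸ h.mem b)

theorem HA (h : Fr D M e c) (h7 : 7 ≤ Fintype.card ι) {g : O Q} (hg : g ∈ M) {a l : ι}
    (ha : g (e a) ∈ D a) (hla : l ≠ a) (hr : refl Q (g (e l)) ∈ dstab Q D) : g ∈ dstab Q D := by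
  obtain ⟨i, hi⟩ := h.exists_ne' (x := g (e l)) (by simpa using h.ne0 l)
  obtain ⟨α, hα⟩ := h.coord (g (e l)) i
  rcases h.refl_dstab (by simpa using h.Qe l) hr hα (fun e0 => hi (by
    rw [polar_comm, hα, e0, zero_mul])) with k | ⟨-, j, hj⟩
  · exact h.F2 h7 hg hla k ha
  have ha' := h.inv_maps ha
  have gQ : ∀ k, Q (g⁻¹ (e k)) = c := fun k => by simpa using h.Qe k
  have o1 : ∀ m, m ≠ i → m ≠ j → polar Q (g⁻¹ (e m)) (e l) = 0 := fun m m1 m2 => by
    rw [← O.polar_apply_right, pc (hj m m1 m2)]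
  have o2 : ∀ m, m ≠ a → polar Q (g⁻¹ (e m)) (e a) = 0 := fun m m1 => by
    rw [← O.polar_apply_right]; exact h.orth m a m1 _ (h.mem m) _ ha
  obtain ⟨p, p1, p2, p3, -⟩ := exists_ne_six' h7 a i j j j j
  obtain ⟨q, q1, q2, q3, q4, -⟩ := exists_ne_six' h7 a i j p p p
  obtain ⟨r, r1, r2, r3, r4, r5, -⟩ := exists_ne_six' h7 a i j p q q
  obtain ⟨n, hn⟩ := h.exists_ne' (x := g⁻¹ (e p)) (by simpa using h.ne0 p)
  choose β hβ using fun m => h.coord (g⁻¹ (e m)) n
  have h0 : β p ≠ 0 := fun e0 => hn (by rw [polar_comm, hβ, e0, zero_mul])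
  suffices g⁻¹ (e p) ∈ D n from (inv_mem_iff).1 (h.F2 h7 (M.inv_mem hg) p1 this ha')
  have k1 : refl Q (g⁻¹ (e p)) ∈ dstab Q D := by
    refine (mul_mem_cancel_right (h.refl_mem ha')).1 (h.F2 h7 (h.cj (M.inv_mem hg) (h.d_mem p a))
      hla (a := l) (b := a) ?_ ?_)
    · rw [O.mul_apply, refl_apply_of_orth (h.orth a l hla.symm _ ha' _ (h.mem l)),
        refl_apply_of_orth (o1 p p2 p3)]
      exact h.mem l
    · obtain ⟨t, ht⟩ := h.exists_smul (refl_apply_mem ha' (h.mem a))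
      rw [O.mul_apply, ht, map_smul, refl_apply_of_orth (o2 p p1)]
      exact smul_mem _ _ (h.mem a)
  refine (h.refl_dstab (gQ p) k1 (hβ p) h0).elim id fun k2 => (h.tri (gQ p) (gQ q) (gQ r)
    (by simpa using h.o q4.symm) (by simpa using h.o r4.symm) (by simpa using h.o r5.symm)
    (h.cy_mem (M.inv_mem hg) q4.symm r4.symm fun k hk hv => h.F2 h7 hk hla (a := l) (b := a) ?_ ?_)
    (hβ p) (hβ q) (hβ r) h0).elim id fun k3 => absurd (by linear_combination k3.1 - 2 * k2.1)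
      (one_ne_zero' F)
  · rw [hv _ (o1 p p2 p3) (o1 q q2 q3) (o1 r r2 r3)]; exact h.mem l
  · rw [hv _ (o2 p p1) (o2 q q1) (o2 r r1)]; exact h.mem a

variable [DecidableEq ι]

theorem dl_pair (h : Fr D M e c) {i j : ι} (hij : i ≠ j) :
    h.dl {i, j} = refl Q (e i) * refl Q (e j) := h.ext fun l x hx => by
  obtain ⟨t, rfl⟩ := h.exists_smul hx
  rw [h.dl_apply _ hx, O.mul_apply]
  by_cases h1 : l = i
  · subst h1; simp [refl_apply_of_orth (h.o hij.symm), refl_apply_self (h.Qne l)]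
  by_cases h3 : l = j
  · subst h3; simp [refl_apply_of_orth (h.o hij), refl_apply_self (h.Qne l)]
  simp [h1, h3, refl_apply_of_orth (h.o (Ne.symm h1)), refl_apply_of_orth (h.o (Ne.symm h3))]

theorem cen (h : Fr D M e c) {g : O Q} {J : Finset ι} (hc : g * h.dl J = h.dl J * g) {l m : ι}
    (hl : l ∈ J) (hm : m ∉ J) : polar Q (g (e l)) (e m) = 0 ∧ polar Q (g (e m)) (e l) = 0 := by
  have h1 : ∀ x, h.dl J (g x) = g (h.dl J x) := fun x => by rw [← O.mul_apply, ← hc, O.mul_apply]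
  have h3 : h.dl J (e l) = -e l := by rw [h.dl_apply J (h.mem l), if_pos hl]
  have h4 : h.dl J (e m) = e m := by rw [h.dl_apply J (h.mem m), if_neg hm]
  exact ⟨pc (polar_eq_zero_of_eigen h.h2 (h.dl J) h4 (by rw [h1, h3, map_neg])),
    polar_eq_zero_of_eigen h.h2 (h.dl J) (by rw [h1, h4]) h3⟩

theorem dl_even (h : Fr D M e c) {K : Subgroup (O Q)} (hK : ∀ i j, i ≠ j → h.dl {i, j} ∈ K) (n : ℕ) :
    ∀ J : Finset ι, J.card = 2 * n → h.dl J ∈ K := by
  induction n with
  | zero => intro J hJ; rw [Finset.card_eq_zero.1 hJ, h.dl_empty]; exact one_mem K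
  | succ n ih =>
    intro J hJ
    obtain ⟨P, hP, hP2⟩ := Finset.exists_subset_card_eq (s := J) (n := 2) (by omega)
    obtain ⟨i, j, hij, rfl⟩ := Finset.card_eq_two.1 hP2
    have h1 := card_symmDiff_add {i, j} J
    rw [Finset.inter_eq_left.2 hP] at h1
    have := mul_mem (hK i j hij) (ih (symmDiff {i, j} J) (by omega))
    rwa [h.dl_mul, symmDiff_symmDiff_cancel_left] at this

theorem dl_mem_M (h : Fr D M e c) (n : ℕ) (J : Finset ι) (hJ : J.card = 2 * n) : h.dl J ∈ M :=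
  h.dl_even (fun _ _ hij => h.le ⟨h.dl_mem _, h.dl_pair_mem hij⟩) n J hJ

omit [DecidableEq ι] in
/-- An element of `M` mapping a frame line to a frame line stabilises the frame. -/
theorem F1 (h : Fr D M e c) (h7 : 7 ≤ Fintype.card ι) {g : O Q} (hg : g ∈ M) {a₀ a : ι}
    (ha : g (e a₀) ∈ D a) : g ∈ dstab Q D := by
  classical
  wlog h0 : a₀ = a generalizing g a₀
  · obtain ⟨n, n1, n2, -⟩ := exists_ne_six' h7 a a₀ a a a a
    refine (mul_mem_cancel_right (mul_mem (h.refl_sub_mem n2 (h.mem _) (h.mem _) (h.Qe _) (h.Qe _))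
      (h.refl_sub_mem n1.symm (h.mem _) (h.mem _) (h.Qe _) (h.Qe _)))).1
      (this (M.mul_mem hg (h.sw_mem n2 n1.symm)) ?_ rfl)
    rwa [O.mul_apply, O.mul_apply, h.sw_apply n1.symm, h.sw_apply n2]
  subst h0
  set M0 := M ⊓ sstab Q (D a₀ : Set V)
  have m0 : ∀ k ∈ M0, k (e a₀) ∈ D a₀ := fun k hk => apply_mem_of_sstab hk.2 (h.mem a₀)
  have hdl : ∀ n (J : Finset ι), J.card = 2 * n → h.dl J ∈ dstab Q D ⊓ M0 := fun n J hJ =>
    ⟨h.dl_mem J, h.dl_mem_M n J hJ, mem_sstab_of_le fun x hx => by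
      rw [h.dl_apply J hx]; split_ifs; exacts [neg_mem hx, hx]⟩
  have hC : ∀ J : Finset ι, 2 ≤ J.card → J.card ≤ 4 → ∀ k ∈ M0, k * h.dl J = h.dl J * k →
      k ∈ dstab Q D ⊓ M0 := fun J h2 h4 k hk hc => by
    obtain ⟨l, hl, hl'⟩ := Finset.exists_mem_notMem_of_card_lt_card (s := {a₀}) (t := J) (by simp; omega)
    obtain ⟨P, hP, hP2⟩ := Finset.exists_subset_card_eq (s := (insert a₀ J)ᶜ) (n := 2) (by
      have := Finset.card_insert_le a₀ J
      rw [Finset.card_compl]; omega)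
    obtain ⟨m, n, hmn, rfl⟩ := Finset.card_eq_two.1 hP2
    simp only [Finset.insert_subset_iff, Finset.singleton_subset_iff, Finset.mem_compl,
      Finset.mem_insert, not_or, Finset.mem_singleton] at hP hl'
    refine ⟨h.HA h7 hk.1 (m0 k hk) hl' ((mul_mem_cancel_right (h.refl_mem (m0 k hk))).1
      (h.F2 h7 (h.cj hk.1 (h.d_mem l a₀)) hmn (a := m) (b := n) ?_ ?_)), hk⟩
    · rw [O.mul_apply, refl_apply_of_orth (h.orth _ _ (Ne.symm hP.1.1) _ (m0 k hk) _ (h.mem m)),
        refl_apply_of_orth (h.cen hc hl hP.1.2).1]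
      exact h.mem m
    · rw [O.mul_apply, refl_apply_of_orth (h.orth _ _ (Ne.symm hP.2.1) _ (m0 k hk) _ (h.mem n)),
        refl_apply_of_orth (h.cen hc hl hP.2.2).1]
      exact h.mem n
  obtain ⟨l, l0, -⟩ := exists_ne_six' h7 a₀ a₀ a₀ a₀ a₀ a₀
  have hp : ({a₀, l} : Finset ι).card = 2 := Finset.card_pair l0.symm
  have hA : ∀ k ∈ M0, k * h.dl {a₀, l} * k⁻¹ ∈ dstab Q D ⊓ M0 → k ∈ dstab Q D ⊓ M0 :=
    fun k hk h1 => by
      rw [h.dl_pair l0.symm, ← conj_mul, conj_refl, conj_refl] at h1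
      exact ⟨h.HA h7 hk.1 (m0 k hk) l0 ((mul_mem_cancel_left (h.refl_mem (m0 k hk))).1 h1.1), hk⟩
  have hconj : ∀ s ∈ dstab Q D ⊓ M0, ∃ P : Finset ι, P.card = 2 ∧ a₀ ∈ P ∧
      s * h.dl {a₀, l} * s⁻¹ = h.dl P := by
    rintro s ⟨⟨σ, hσ⟩, hs⟩
    refine ⟨_, by rw [Finset.card_map, hp], ?_, h.conj_dl hσ _⟩
    have : σ a₀ = a₀ := h.eq_of_mem (by rw [← hσ, apply_mem_img]; exact h.mem a₀) (m0 s hs)
      (by simpa using h.ne0 a₀)
    exact Finset.mem_map.2 ⟨a₀, by simp, this⟩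
  have hg0 : g ∈ M0 := ⟨hg, mem_sstab_of_le (h.maps ha)⟩
  have hd : ∀ I : Finset ι, I.card = 4 → a₀ ∈ I → g ∈ dstab Q D ⊓ M0 ∨
      g⁻¹ * h.dl I * g ∈ dstab Q D ⊓ M0 := fun I hI haI => by
    refine ti_lemma inf_le_right (h.dl_mul_self _) (h.dl_mul_self I) (hdl 1 _ hp) (hdl 2 _ hI) hA
      (fun s hs e0 => ?_) (hC I (by omega) (by omega)) (fun s hs z hz _ _ => ?_)
      (fun s hs z hz _ hz1 => ?_) hg0 <;> obtain ⟨P, hP, haP, e'⟩ := hconj s hs
    · rw [h.dl_injective h.h2 (e'.symm.trans e0)] at hP; omega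
    · rw [hz, e', h.dl_mul]
      have := card_symmDiff_add I P
      have := Finset.card_le_card (Finset.inter_subset_right (s₁ := I) (s₂ := P))
      have := Finset.card_pos.2 ⟨a₀, Finset.mem_inter.2 ⟨haI, haP⟩⟩
      exact hC _ (by omega) (by omega)
    · rw [hz, e', h.dl_mul] at hz1 ⊢
      have := card_symmDiff_add {a₀, l} P
      have : (symmDiff {a₀, l} P).card ≠ 0 := fun e0 =>
        hz1 (by rw [Finset.card_eq_zero.1 e0, h.dl_empty])
      exact hC _ (by omega) (by omega)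
  obtain ⟨p, p0, p1, -⟩ := exists_ne_six' h7 a₀ l l l l l
  obtain ⟨q, q0, q1, q2, -⟩ := exists_ne_six' h7 a₀ l p p p p
  obtain ⟨r, r0, r1, r2, r3, -⟩ := exists_ne_six' h7 a₀ l p q q q
  obtain ⟨s, s0, s1, s2, s3, s4, -⟩ := exists_ne_six' h7 a₀ l p q r r
  have c4 : ∀ x y z, x ≠ a₀ → y ≠ a₀ → z ≠ a₀ → x ≠ y → x ≠ z → y ≠ z →
      ({a₀, x, y, z} : Finset ι).card = 4 := fun x y z k1 k2 k3 k4 k5 k6 => by
    rw [Finset.card_insert_of_notMem (by simp [k1.symm, k2.symm, k3.symm]),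
      Finset.card_insert_of_notMem (by simp [k4, k5]), Finset.card_pair k6]
  rcases hd _ (c4 p q r p0 q0 r0 q2.symm r2.symm r3.symm) (by simp) with k1 | k1
  · exact k1.1
  rcases hd _ (c4 p q s p0 q0 s0 q2.symm s2.symm s3.symm) (by simp) with k2 | k2
  · exact k2.1
  rcases hd _ (c4 r s l r0 s0 l0 s4.symm r1 s1) (by simp) with k3 | k3
  · exact k3.1
  refine (inv_mem_iff).1 (hA _ (M0.inv_mem hg0) ?_).1
  have := mul_mem (mul_mem k1 k2) k3
  rw [show ∀ s t u, g⁻¹ * s * g * (g⁻¹ * t * g) * (g⁻¹ * u * g) = g⁻¹ * (s * t * u) * g⁻¹⁻¹ from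
    fun s t u => by group, h.dl_mul, h.dl_mul] at this
  convert this using 4
  ext s
  simp only [Finset.mem_insert, Finset.mem_singleton, Finset.mem_symmDiff]
  grind

omit [DecidableEq ι] in
theorem key1 (h : Fr D M e c) (h7 : 7 ≤ Fintype.card ι) {g : O Q} (hg : g ∈ M) {I : Finset ι}
    (h5 : 5 ≤ I.card) {a : ι} (ha : ∀ p ∈ I, polar Q (g (e p)) (e a) = 0) : g ∈ dstab Q D := by
  obtain ⟨p, hp⟩ := Finset.card_pos.1 (by omega : 0 < I.card)
  obtain ⟨i, hi⟩ := h.key5 (x := fun p => g (e p)) h5 (fun p => by simpa using h.Qe p)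
    (fun p q hpq => by simpa using h.o hpq) (fun p hp q hq r hr k1 k2 _ => h.cy_mem hg k1 k2
      fun k hk hv => h.F1 h7 hk (a₀ := a) (a := a) (by
        rw [hv _ (ha p hp) (ha q hq) (ha r hr)]; exact h.mem a)) hp
  exact h.F1 h7 hg hi

omit [DecidableEq ι] in
theorem le_dstab_nine (h : Fr D M e c) (h9 : 9 ≤ Fintype.card ι) : M ≤ dstab Q D := by
  classical
  refine h.le_dstab_of_key h.h2 (by omega) (a := 5) (b := 1) (by omega) h9 (by omega)
    (fun _ => Or.inr (by omega)) fun g hg I J hI hJ ho => ?_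
  obtain ⟨a, ha⟩ := Finset.card_pos.1 (by omega : 0 < J.card)
  exact h.key1 (by omega) hg hI fun p hp => ho p hp a ha _ (h.mem p) _ (h.mem a)

omit [DecidableEq ι] in
theorem le_dstab_seven (h : Fr D M e c) (h7 : Fintype.card ι = 7) : M ≤ dstab Q D := fun g hg => by
  classical
  have hC : ∀ J : Finset ι, J.card = 2 ∨ J.card = 4 ∨ J.card = 6 → ∀ k ∈ M,
      k * h.dl J = h.dl J * k → k ∈ dstab Q D ⊓ M := fun J hJ k hk hc => by
    refine ⟨?_, hk⟩
    have h1 := Finset.card_compl J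
    obtain ⟨l, hl⟩ := Finset.card_pos.1 (by omega : 0 < J.card)
    rcases hJ with hJ | hJ | hJ
    · exact h.key1 h7.ge hk (I := Jᶜ) (by omega) fun p hp => (h.cen hc hl (Finset.mem_compl.1 hp)).2
    · obtain ⟨p, q, r, hpq, hpr, hqr, hK⟩ := Finset.card_eq_three.1 (by omega : Jᶜ.card = 3)
      have hm : ∀ m, m ∉ J ↔ m = p ∨ m = q ∨ m = r := fun m => by rw [← Finset.mem_compl, hK]; simp
      have o := fun m (h1 : m = p ∨ m = q ∨ m = r) n hn => (h.cen hc (l := n) hn ((hm m).2 h1)).2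
      by_contra hn
      have k1 : ∀ i α, polar Q (k (e p)) (e i) = α * (2 * c) → α = 0 ∨ 4 * (α * α) = 1 := fun i α hα => by
        obtain ⟨β, hβ⟩ := h.coord (k (e q)) i
        obtain ⟨γ, hγ⟩ := h.coord (k (e r)) i
        exact or_iff_not_imp_left.2 fun h0 => ((h.tri (by simpa using h.Qe p) (by simpa using h.Qe q)
          (by simpa using h.Qe r) (by simpa using h.o hpq) (by simpa using h.o hpr)
          (by simpa using h.o hqr) (h.cy_mem hk hpq hpr fun k' hk' hv => h.F1 h7.ge hk' (a₀ := l)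
            (a := l) (by rw [hv _ (o p (by simp) l hl) (o q (by simp) l hl) (o r (by simp) l hl)]
                         exact h.mem l)) hα hβ hγ h0).resolve_left
          fun k2 => hn (h.F1 h7.ge hk k2)).1
      obtain ⟨α, β, γ, k2⟩ := mem_span_triple.1 (h.mem_of (T := span F {e p, e q, e r}) (x := k (e p))
        fun m k2 => subset_span (by
          rcases (hm m).1 fun k3 => k2 (pc (o p (by simp) m k3)) with rfl | rfl | rfl <;> simp))
      have k3 : Q (k (e p)) = c := by simpa using h.Qe p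
      have a1 := k1 p α (by rw [← k2]; simp [h.self, h.o hpq.symm, h.o hpr.symm])
      have a2 := k1 q β (by rw [← k2]; simp [h.self, h.o hpq, h.o hqr.symm])
      have a3 := k1 r γ (by rw [← k2]; simp [h.self, h.o hpr, h.o hqr])
      rw [← k2] at k3
      simp only [Q_add, Q_smul, polar_add_left, polar_smul_left, polar_smul_right, h.o hpq, h.o hpr,
        h.o hqr, h.Qe, smul_eq_mul] at k3
      have k4 : α * α + β * β + γ * γ = 1 := mul_right_cancel₀ h.c0 (by linear_combination k3)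
      have n1 : ∀ i, k (e p) ∉ D i := fun i k5 => hn (h.F1 h7.ge hk k5)
      rw [← k2] at n1
      rcases a1 with rfl | a1 <;> rcases a2 with rfl | a2 <;> rcases a3 with rfl | a3
      · simp at k4
      · exact n1 r (by simpa using smul_mem _ γ (h.mem r))
      · exact n1 q (by simpa using smul_mem _ β (h.mem q))
      · exact h.h2 (by linear_combination a2 + a3 - 4 * k4)
      · exact n1 p (by simpa using smul_mem _ α (h.mem p))
      · exact h.h2 (by linear_combination a1 + a3 - 4 * k4)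
      · exact h.h2 (by linear_combination a1 + a2 - 4 * k4)
      · exact one_ne_zero' F (by linear_combination a1 + a2 + a3 - 4 * k4)
    · obtain ⟨m, hm⟩ := Finset.card_pos.1 (by omega : 0 < Jᶜ.card)
      exact h.key1 h7.ge hk (I := J) (by omega) fun p hp => (h.cen hc hp (Finset.mem_compl.1 hm)).1
  obtain ⟨a⟩ : Nonempty ι := Fintype.card_pos_iff.1 (by omega)
  have hp : ({a}ᶜ : Finset ι).card = 6 := by rw [Finset.card_compl, h7]; simp
  have hA : ∀ k ∈ M, k * h.dl {a}ᶜ * k⁻¹ ∈ dstab Q D ⊓ M → k ∈ dstab Q D ⊓ M := fun k hk h1 => by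
    refine ⟨?_, hk⟩
    have e1 : h.dl {a}ᶜ = O.negOne Q * refl Q (e a) := h.ext fun l x hx => by
      obtain ⟨t, rfl⟩ := h.exists_smul hx
      rw [h.dl_apply _ hx, O.mul_apply]
      by_cases h3 : l = a
      · subst h3; simp [refl_apply_self (h.Qne l)]
      · simp [h3, refl_apply_of_orth (h.o (Ne.symm h3))]
    rw [e1, ← mul_assoc, Subgroup.mem_center_iff.1 O.negOne_mem_center, mul_assoc, mul_assoc,
      ← mul_assoc k, conj_refl] at h1
    have h3 : refl Q (k (e a)) ∈ dstab Q D := (mul_mem_cancel_left (h.mem_dstab_of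
      (g := O.negOne Q) fun i => ⟨i, fun x hx => by simpa using hx⟩)).1 h1.1
    obtain ⟨i, hi⟩ := h.exists_ne' (x := k (e a)) (by simpa using h.ne0 a)
    obtain ⟨α, hα⟩ := h.coord (k (e a)) i
    rcases h.refl_dstab (by simpa using h.Qe a) h3 hα (fun e0 => hi (by
      rw [polar_comm, hα, e0, zero_mul])) with k1 | ⟨-, j, hj⟩
    · exact h.F1 h7.ge hk k1
    show k ∈ dstab Q D
    refine (inv_mem_iff).1 (h.key1 h7.ge (M.inv_mem hk) (I := {i, j}ᶜ) (a := a) (by
      have := Finset.card_le_two (a := i) (b := j)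
      rw [Finset.card_compl]; omega) fun p hp => ?_)
    simp only [Finset.mem_compl, Finset.mem_insert, Finset.mem_singleton, not_or] at hp
    rw [← O.polar_apply_right, pc (hj p hp.1 hp.2)]
  have hconj : ∀ s ∈ dstab Q D ⊓ M, ∃ P : Finset ι, P.card = 6 ∧ s * h.dl {a}ᶜ * s⁻¹ = h.dl P := by
    rintro s ⟨⟨σ, hσ⟩, -⟩
    exact ⟨_, by rw [Finset.card_map, hp], h.conj_dl hσ _⟩
  by_contra hn
  have := h.dl_even (K := (dstab Q D ⊓ M).comap (MulAut.conj g⁻¹).toMonoidHom) (fun i j hij => ?_) 3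
    _ hp
  · exact hn ((inv_mem_iff).1 (hA _ (M.inv_mem hg) this).1)
  have hI := Finset.card_pair hij
  refine (?_ : _ ∨ _).elim (fun k : g ∈ dstab Q D ⊓ M => absurd k.1 hn)
    fun k : g⁻¹ * h.dl {i, j} * g ∈ dstab Q D ⊓ M => by simpa using k
  refine ti_lemma inf_le_right (h.dl_mul_self _) (h.dl_mul_self _) ⟨h.dl_mem _, h.dl_mem_M 3 _ hp⟩
    ⟨h.dl_mem _, h.dl_mem_M 1 _ hI⟩ hA (fun s hs e0 => ?_) (hC _ (by omega)) (fun s hs z hz _ hz1 => ?_)
    (fun s hs z hz _ hz1 => ?_) hg <;> obtain ⟨P, hP, e'⟩ := hconj s hs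
  · rw [h.dl_injective h.h2 (e'.symm.trans e0)] at hP; omega
  all_goals
    rw [hz, e', h.dl_mul] at hz1 ⊢
    refine hC _ ?_
  · have := card_symmDiff_add {i, j} P
    have := Finset.card_le_univ (symmDiff {i, j} P)
    have : (symmDiff {i, j} P).card ≠ 0 := fun e0 =>
      hz1 (by rw [Finset.card_eq_zero.1 e0, h.dl_empty])
    omega
  · have := card_symmDiff_add {a}ᶜ P
    have := Finset.card_le_univ (symmDiff {a}ᶜ P)
    have : (symmDiff {a}ᶜ P).card ≠ 0 := fun e0 =>
      hz1 (by rw [Finset.card_eq_zero.1 e0, h.dl_empty])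
    omega

end Fr

/-- **Maximality of frame stabilisers** over prime fields. -/
theorem frame_maximal {ι : Type*} [Fintype ι] {D : ι → Submodule F V} (h : OrthDec Q 1 D)
    (h2 : (2 : F) ≠ 0) (pf : ∀ t : F, ∃ n : ℕ, (n : F) = t) (h7 : 7 ≤ Fintype.card ι)
    (h8 : Fintype.card ι ≠ 8) :
    IsMaximalIn (commutator (O Q)) (dstab Q D ⊓ commutator (O Q)) := by
  have h5 : 5 ≤ finrank F V := by rw [h.finrank_eq]; omega
  obtain ⟨a⟩ : Nonempty ι := Fintype.card_pos_iff.1 (by omega)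
  obtain ⟨v, hv, hc⟩ := h.exists_ne a
  choose e he hQ using fun j => h.exists_Q_eq j hv
  refine isMaximalIn_of ?_ fun M h1 h3 g hg hg' => by_contra fun h4 => hg' ?_
  · obtain ⟨b, b1, -⟩ := exists_ne_six' h7 a a a a a a
    obtain ⟨i, i1, i2, -⟩ := exists_ne_six' h7 a b b b b b
    obtain ⟨j, j1, j2, j3, -⟩ := exists_ne_six' h7 a b i i i i
    obtain ⟨s, t, hst⟩ := exists_sq_comb h2 hc hc (-Q v)
    have o : ∀ {i j}, i ≠ j → polar Q (e i) (e j) = 0 := fun hij => h.orth _ _ hij _ (he _) _ (he _)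
    have hu : Q (s • e a + t • e b + e i) = 0 := by
      simp only [Q_add, Q_smul, polar_add_left, polar_smul_left, polar_smul_right, o b1.symm,
        o i1.symm, o i2.symm, hQ, smul_eq_mul]
      linear_combination hst
    have hu' : polar Q (s • e a + t • e b + e i) (e j) = 0 := by simp [o j1.symm, o j2.symm, o j3.symm]
    refine ⟨_, H60.eich_mem_commutator h.hQ h5 (s • e a + t • e b + e i) (e j), fun hd => ?_⟩
    obtain ⟨l, hl⟩ := OrthDec.exists_of_dstab hd j
    have h1 := hl _ (he j)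
    rw [eich_apply_of_orth hu hu' hu'] at h1
    exact j3 ((h.eq_of_polar (he j) h1 (by
      simp [hQ, h2, hc, o j1, o j2, o j3])).trans (h.eq_of_polar (he i) h1 (by
      simp [hQ, h2, hc, o i1, o i2, o j3.symm])).symm)
  · have H : Fr D M e (Q v) := { h with
      h5 := h5, le := h1, le' := h3, nle := h4, mem := he, Qe := hQ, c0 := hc, h2 := h2, pf := pf }
    rcases h7.eq_or_lt with e0 | e0
    · exact H.le_dstab_seven e0.symm hg
    · exact H.le_dstab_nine (by omega) hg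

theorem exists_natCast_of_prime {F : Type*} [Field F] [Fintype F] (hp : (Fintype.card F).Prime)
    (t : F) : ∃ n : ℕ, (n : F) = t := by
  have := Fact.mk hp
  obtain ⟨x, rfl⟩ := (ZMod.ringEquivOfPrime F hp rfl).surjective t
  exact ⟨x.val, by rw [← map_natCast (ZMod.ringEquivOfPrime F hp rfl), ZMod.natCast_zmod_val]⟩

/-- Matrix form of `frame_maximal`. -/
theorem frame_maximal_GL {κ : Type} [Fintype κ] [DecidableEq κ] {F : Type*} [Field F] [Fintype F]
    {Q : QuadraticForm F (κ → F)} (hQ : Q.polarBilin.Nondegenerate) (hp : (Fintype.card F).Prime)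
    (hodd : Odd (Fintype.card F)) (h7 : 7 ≤ Fintype.card κ) (h8 : Fintype.card κ ≠ 8) {t : ℕ}
    {D : Fin t → Submodule F (κ → F)} (hD : IsOrthogonalMDecomposition ⇑Q 1 D) :
    IsMaximalIn (omegaGL ⇑Q) (decompositionStabilizer D ⊓ omegaGL ⇑Q) := by
  have h := orthDec_of hQ hD
  have hn := h.finrank_eq
  rw [Module.finrank_fintype_fun_eq_card, mul_one] at hn
  refine isMaximalIn_GL ?_
  rw [comap_decompositionStabilizer]
  exact frame_maximal h (H58.two_ne_zero_of_odd_card hodd) (exists_natCast_of_prime hp) (hn ▸ h7)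
    (hn ▸ h8)

end H91
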