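import Cfsg.Agent.H2.KpSpec
import Cfsg.Agent.H71.LnBlk

/-! Tower KP (S4202): slot RED. -/

set_option autoImplicit false

namespace H91.KpRed

open Equiv MulAction H2.Ln H2.Kp

theorem kc_bot {Γ : Type} [Group Γ] : kc (⊥ : Subgroup Γ) ≤ 1 := by
  have : Subsingleton (ConjClasses (⊥ : Subgroup Γ)) := ⟨by
    rintro ⟨a⟩ ⟨b⟩
    rw [Subsingleton.elim a b]⟩
  exact Finite.card_le_one_iff_subsingleton.2 this

theorem lam (hL : LamK) {α : Type} [Fintype α] {M : Subgroup (Perm α)} {n p : ℕ} (ih : H2.Kp.IH n p)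
    (hp : ¬ p ∣ Nat.card M) : H2.Kp.Lam (fun K : Subgroup M => kc K) gg 1 1 n := by
  simpa using hL M n p 1 1 gg ih hp le_rfl fun a _ => by simp

theorem jobIntr : GA → LamK → H2.Kp.Peel → Intr := by
  intro ga hL hP α _ _ M p _ ih hp n3 tr
  have lm := lam hL ih hp
  obtain ⟨a, b, ab⟩ : ∃ a b, ∀ x ∈ M, x a ≠ b := by
    by_contra! k
    exact tr ⟨fun a b => let ⟨x, hx, e⟩ := k a b; ⟨⟨x, hx⟩, e⟩⟩
  have ha : a ∈ orb M a := mem_orb.2 ⟨1, one_mem _, rfl⟩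
  have hb : b ∉ orb M a := fun h => let ⟨x, hx, e⟩ := mem_orb.1 h; ab x hx e
  have inv : ∀ x ∈ M, ∀ c ∈ orb M a, x c ∈ orb M a := fun x hx c hc => by
    obtain ⟨y, hy, rfl⟩ := mem_orb.1 hc
    exact mem_orb.2 ⟨x * y, mul_mem hx hy, rfl⟩
  generalize orb M a = U at *
  have c1 : 1 ≤ U.card := Finset.card_pos.2 ⟨a, ha⟩
  have c2 : 1 ≤ Uᶜ.card := Finset.card_pos.2 ⟨b, Finset.mem_compl.2 hb⟩
  have c3 := Finset.card_add_card_compl U
  have k1 := (hP M α α 1 (triv M) _ gg 1 _ lm ⊤).1 U (fun x _ c hc => inv x x.2 c hc) (by omega)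
  have k2 := (hP M α α 1 (triv M) _ gg 1 _ lm ((triv M).fb ⊤ U)).1 Uᶜ (fun x _ c hc =>
    Finset.mem_compl.2 fun h => Finset.mem_compl.1 hc (by
      simpa [triv] using inv _ (inv_mem x.2) _ h)) (by omega)
  have e : (triv M).fb ((triv M).fb ⊤ U) Uᶜ = ⊥ := eq_bot_iff.2 fun x hx =>
    Subtype.ext (Perm.ext fun c => by
      by_cases h : c ∈ U
      · exact (Sys.mem_fb.1 (Sys.mem_fb.1 hx).1).2 c h
      · exact (Sys.mem_fb.1 hx).2 c (Finset.mem_compl.2 h))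
  rw [e] at k2
  simp only [one_mul] at k1 k2
  have k3 := ga.add _ _ c1 c2 (by omega)
  rw [c3] at k3
  calc kc M = kc (⊤ : Subgroup M) := kc_top.symm
    _ ≤ gg U.card * (gg Uᶜ.card * 1) :=
      k1.trans (Nat.mul_le_mul_left _ (k2.trans (Nat.mul_le_mul_left _ kc_bot)))
    _ ≤ _ := by rwa [mul_one]

theorem jobBlk3 : GA → LamK → H2.Kp.Peel → H2.Kp.B3 → Blk3 := by
  intro ga hL _ h3 α _ _ M p _ ih hp n3 tr B hB b3 bn
  have lm := lam hL ih hp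
  have ex : ∀ a b, ∃ x ∈ M, x a = b := fun a b =>
    let ⟨x, e⟩ := tr.exists_smul_eq a b
    ⟨x, x.2, e⟩
  have su : sp M = Finset.univ := Finset.eq_univ_of_forall fun a => by
    obtain ⟨b, hb⟩ := Fintype.exists_ne_of_one_lt_card (α := α) (by omega) a
    obtain ⟨x, hx, e⟩ := ex a b
    exact mem_sp.2 ⟨x, hx, e ▸ hb⟩
  obtain ⟨c, β, pt, pr, cov, e⟩ := H71.LnBlk.jobB1 α M B (fun a _ b _ => ex a b) hB
  rw [su, Finset.card_univ] at e
  generalize B.card = b at *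
  have c3 : 3 ≤ c := by
    by_contra k
    nlinarith
  obtain ⟨L, -, k, -, dj⟩ := h3 M α α 1 (triv M) _ gg 1 _ lm ⊤ b c β pt (by
    rintro _ ⟨x, -, rfl⟩
    exact pr _ x.2) (by omega) (by omega) (by nlinarith) 0 (Nat.zero_le c)
  have L0 : L = ⊥ := eq_bot_iff.2 fun x hx => Subtype.ext (Perm.ext fun a => by
    obtain ⟨i, hi⟩ := (cov a).1 (su ▸ Finset.mem_univ a)
    by_contra h
    exact Finset.disjoint_left.1 (dj i (Nat.zero_le _)) (Sys.mem_bs.2 ⟨x, hx, a, rfl, h⟩) hi)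
  rw [L0, one_mul, Nat.sub_zero] at k
  calc kc M = kc (⊤ : Subgroup M) := kc_top.symm
    _ ≤ gg c * gg b ^ c * 1 := k.trans (Nat.mul_le_mul_left _ kc_bot)
    _ ≤ _ := by rw [mul_one, e]; exact ga.mul b c b3 c3

end H91.KpRed
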