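/- Maximality of the stabiliser of a non-degenerate 4-space in dimensions 7 and 8 (minus type). -/
import Cfsg.Agent.H60.DecAll
import Cfsg.Agent.H60.Parab
import Cfsg.Agent.H60.Types

set_option autoImplicit false
set_option linter.unusedSectionVars false

namespace H91

open QuadraticMap H56 H60 Module Submodule Cfsg.Geo

variable {F V : Type*} [Field F] [AddCommGroup V] [Module F V] {Q : QuadraticForm F V}
  [FiniteDimensional F V] [Finite F]

omit [FiniteDimensional F V] [Finite F] in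
theorem pp {W : Submodule F V} {x w : V} (h : x ∈ perp Q W) (hw : w ∈ W) : polar Q w x = 0 := h w hw

/-- An element of `Ω` acting on the singular vector `u` by `l`, supported on `u, f, a, b`. -/
theorem tor_rr_mem (hQ : Q.polarBilin.Nondegenerate) (h5 : 5 ≤ finrank F V) {u f a b : V}
    (h : IsHyp Q u f) {l : F} (hl : l ≠ 0) (ha : Q a ≠ 0) (hb : Q b ≠ 0) (hab : l = Q a * Q b) :
    tor Q u f l * (refl Q a * refl Q b) ∈ commutator (O Q) :=
  (mem_commutator_iff hQ (not_isExc_of_finrank (by omega)) _).2 ⟨by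
    simp [dickson_tor hQ h hl, dickson_refl hQ ha, dickson_refl hQ hb], by
    rw [map_mul, map_mul, spinor_tor hQ h, spinor_refl, spinor_refl, ← sqcl_mul ha hb, hab,
      SqCl.mul_self]⟩

theorem tor_mem_sstab {W : Submodule F V} {u f : V} (hu : u ∈ W) (hf : f ∈ W) (l : F) :
    tor Q u f l ∈ sstab Q (W : Set V) :=
  mul_mem (refl_mem_sstab (add_mem hu hf)) (refl_mem_sstab (add_mem hu (smul_mem _ _ hf)))

theorem AS_le_of_three (hQ : Q.polarBilin.Nondegenerate) (h5 : 5 ≤ finrank F V)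
    {W : Submodule F V} (hW : Nondeg Q W) (h3 : 3 ≤ finrank F W) (hex : ¬ SmallHyp Q (perp Q W))
    {M : Subgroup (O Q)} (hM : sstab Q (W : Set V) ⊓ commutator (O Q) ≤ M)
    (hn : ¬ commutator (O Q) ≤ M) {u : V} (hu : u ∈ W) (hu0 : u ≠ 0) (hQu : Q u = 0) :
    AS M u ≤ W := fun v hv => by_contra fun hvW => by
  have hE : EOin Q (W : Set V) ≤ M :=
    (le_inf (EOin_le_sstab W) (EOin_le_commutator hQ h5 _)).trans hM
  have hE' : EOin Q (perp Q W : Set V) ≤ M :=
    (le_inf ((EOin_le_sstab _).trans (sstab_perp hQ W).le) (EOin_le_commutator hQ h5 _)).trans hM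
  have hWA : ∀ w ∈ W, polar Q u w = 0 → w ∈ AS M u := fun w hw h => mem_AS_of_le hE hu hw h
  obtain ⟨f, hf, hQf, huf⟩ := hW.exists_partner hu hu0 hQu
  have hef : IsHyp Q u f := ⟨hQu, hQf, huf⟩
  obtain ⟨p, hp, hQp⟩ := (hW.inf_ort_pair hu hf hQu hQf huf).exists_Q_ne fun e => by
    have := finrank_le_inf_ort (Q := Q) W u
    have := finrank_le_inf_ort (Q := Q) (W ⊓ ort Q u) f
    rw [e, finrank_bot] at this; omega
  have hB : AS M u ⊓ perp Q W = perp Q W := by
    refine eq_of_invariant (hW.perp hQ) inf_le_right ?_ ?_ ?_ hex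
    · obtain ⟨a, ha, b, hb, rfl⟩ := hW.exists_decomp hQ v
      have h1 : a ∈ AS M u := hWA a ha (by simpa [mem_perp.1 hb u hu] using hv.1)
      refine (Submodule.ne_bot_iff _).2 ⟨b, ⟨by simpa using (AS M u).sub_mem hv h1, hb⟩, ?_⟩
      rintro rfl
      exact hvW (by simpa using ha)
    · intro a ha hQa x hx
      have hl := mul_ne_zero hQa hQp
      have h1 := hM ⟨mul_mem (tor_mem_sstab hu hf _) (mul_mem
        ((sstab_perp hQ W).le (refl_mem_sstab ha)) (refl_mem_sstab hp.1.1)),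
        tor_rr_mem hQ h5 hef hl hQa hQp rfl⟩
      have h2 := apply_mem_AS_of_smul h1 hl (by
        rw [O.mul_apply, O.mul_apply, refl_apply_of_orth (pc hp.1.2),
          refl_apply_of_orth (pc (ha u hu)), tor_apply_e hef hl]) hx.1
      have h4 := refl_apply_mem (Q := Q) ha hx.2
      rw [O.mul_apply, O.mul_apply, refl_apply_of_orth (hx.2 p hp.1.1),
        tor_apply_of_orth (h4 u hu) (h4 f hf)] at h2
      exact ⟨h2, h4⟩
    · intro a ha b hb x hx
      exact ⟨apply_mem_AS_of_fix (hE' (eich_mem_EOin ha hb))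
        (eich_apply_of_orth_orth (pc (ha u hu)) (pc (hb u hu))) hx.1, eich_apply_mem ha hb hx.2⟩
  obtain ⟨g, hg, h⟩ := exists_EOin_polar_ne hW h3 hu hu0 hQu
  refine hn (commutator_le_of_full hQ h5 (full_of_ort_le fun w hw => ?_) hQu (hE hg) h)
  obtain ⟨a, ha, b, hb, rfl⟩ := hW.exists_decomp hQ w
  rw [← hB] at hb
  exact add_mem (hWA a ha (by simpa [hb.1.1] using hw)) hb.1

theorem sstab_img_le {W : Submodule F V} {M : Subgroup (O Q)}
    (hM : sstab Q (W : Set V) ⊓ commutator (O Q) ≤ M) {g : O Q} (hg : g ∈ M) :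
    sstab Q (img g W : Set V) ⊓ commutator (O Q) ≤ M := fun k hk => by
  have := M.mul_mem (M.mul_mem hg (hM (x := g⁻¹ * k * g) ⟨mem_sstab_of_le fun x hx => by
    simpa using mem_img.1 (apply_mem_of_sstab hk.1 (apply_mem_img.2 hx)), by
    simpa using (inferInstance : (commutator (O Q)).Normal).conj_mem k hk.2 g⁻¹⟩)) (M.inv_mem hg)
  simpa [mul_assoc] using this

/-- Two non-degenerate 4-spaces with stabilisers in a proper `M` sharing a singular vector agree. -/
theorem eq_of_sing (hQ : Q.polarBilin.Nondegenerate) (h5 : 5 ≤ finrank F V) {X Y : Submodule F V}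
    (hX : Nondeg Q X) (hY : Nondeg Q Y) (dX : finrank F X = 4) (dY : finrank F Y = 4)
    (hex : ¬ SmallHyp Q (perp Q Y)) {M : Subgroup (O Q)}
    (hMX : sstab Q (X : Set V) ⊓ commutator (O Q) ≤ M)
    (hMY : sstab Q (Y : Set V) ⊓ commutator (O Q) ≤ M) (hn : ¬ commutator (O Q) ≤ M) {u : V}
    (huX : u ∈ X) (huY : u ∈ Y) (hu0 : u ≠ 0) (hu : Q u = 0)
    (hc : (∃ c : F, c ≠ 0 ∧ c ≠ -1) ∨ ∃ v ∈ Y, Q v = 0 ∧ polar Q u v = 0 ∧ v ∉ span F {u}) :
    X = Y := by
  have hE : EOin Q (X : Set V) ≤ M :=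
    (le_inf (EOin_le_sstab X) (EOin_le_commutator hQ h5 _)).trans hMX
  have eqA : ∀ v ∈ X, v ∈ Y → v ≠ 0 → Q v = 0 → Y ⊓ ort Q v ≤ X := fun v hv hv' h0 h1 => by
    obtain ⟨f, hf, hvf⟩ := hY.exists_polar_one hv' h0
    have h2 : finrank F ↥(Y ⊓ ort Q v) < finrank F Y := finrank_lt_finrank_of_lt
      (lt_of_le_of_ne inf_le_left fun e => by
        have := (e.symm ▸ hf : f ∈ Y ⊓ ort Q v).2
        simp [hvf] at this)
    have h3 := finrank_le_inf_ort (Q := Q) X v
    rw [← eq_of_le_of_finrank_le (S₁ := X ⊓ ort Q v) (S₂ := Y ⊓ ort Q v) (fun x hx => ⟨AS_le_of_three hQ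
      h5 hY (by omega) hex hMY hn hv' h0 h1 (mem_AS_of_le hE hv hx.1 hx.2), hx.2⟩) (by omega)]
    exact inf_le_left
  have fin : ∀ f ∈ Y, f ∈ X → polar Q u f ≠ 0 → X = Y := fun f hf hf' h0 =>
    (eq_of_le_of_finrank_le (fun y hy => by
      have := eqA u huX huY hu0 hu (x := y - (polar Q u y / polar Q u f) • f)
        ⟨sub_mem hy (smul_mem _ _ hf), by simp [div_mul_cancel₀ _ h0]⟩
      simpa using add_mem this (smul_mem _ (polar Q u y / polar Q u f) hf')) (by omega)).symm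
  rcases hc with ⟨c, hc0, hc1⟩ | ⟨v, hv, hQv, huv, hn'⟩
  swap
  · have hv0 : v ≠ 0 := by rintro rfl; exact hn' (zero_mem _)
    by_contra hne
    obtain ⟨t, ht⟩ := hY.exists_smul hv huY fun f hf h => by_contra fun h0 =>
      hne (fin f hf (eqA v (eqA u huX huY hu0 hu ⟨hv, huv⟩) hv hv0 hQv ⟨hf, h⟩) h0)
    exact hn' (mem_span_singleton.2 ⟨t⁻¹, by
      rw [ht, inv_smul_smul₀ (by rintro rfl; exact hu0 (by simpa using ht))]⟩)
  obtain ⟨f, hf, hQf, huf⟩ := hY.exists_partner huY hu0 hu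
  have hef : IsHyp Q u f := ⟨hu, hQf, huf⟩
  obtain ⟨z, hz, huz⟩ := hX.exists_polar_one huX hu0
  obtain ⟨a, ha, w, hw, rfl⟩ := hY.exists_decomp hQ z
  have huw : polar Q u w = 0 := hw u huY
  have hfw : f + w ∈ X := by
    have := eqA u huX huY hu0 hu (x := a - f) ⟨sub_mem ha hf, by
      simpa [huw, huf, sub_eq_zero] using huz⟩
    convert sub_mem hz this using 1; module
  have he : img (eich Q u (-w)) Y = X := eq_of_le_of_finrank_le (fun x hx => by
    obtain ⟨y, rfl⟩ := (eich Q u (-w)).surjective x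
    rw [apply_mem_img] at hx
    have := eqA u huX huY hu0 hu (x := y - polar Q u y • f)
      ⟨sub_mem hx (smul_mem _ _ hf), by simp [huf]⟩
    rw [eich_apply hu (by simp [huw])]
    convert add_mem (add_mem this (smul_mem _ (polar Q u y) hfw))
      (smul_mem _ (polar Q (-w) y - Q (-w) * polar Q u y) huX) using 1
    module) (by rw [finrank_img]; omega)
  have hP := hY.inf_ort_pair huY hf hu hQf huf
  have dP : 2 ≤ finrank F ↥(Y ⊓ ort Q u ⊓ ort Q f) := by
    have := finrank_le_inf_ort (Q := Q) Y u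
    have := finrank_le_inf_ort (Q := Q) (Y ⊓ ort Q u) f
    omega
  have key : ∀ s : F, s ≠ -1 → s • w ∈ AA M u := fun s hs => by
    have hl : s + 1 ≠ 0 := fun e => hs (by linear_combination e)
    obtain ⟨p, hp, hQp⟩ := hP.exists_Q_eq dP hl
    obtain ⟨q, hq, hQq⟩ := hP.exists_Q_eq dP one_ne_zero
    set τ := tor Q u f (s + 1) * (refl Q p * refl Q q) with hτ
    have h1 : τ ∈ sstab Q (Y : Set V) := mul_mem (tor_mem_sstab huY hf _)
      (mul_mem (refl_mem_sstab hp.1.1) (refl_mem_sstab hq.1.1))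
    have h2 : τ ∈ commutator (O Q) := tor_rr_mem hQ h5 hef hl (hQp ▸ hl) (hQq ▸ one_ne_zero)
      (by rw [hQp, hQq, mul_one])
    have h3 : eich Q u (-w) * τ * (eich Q u (-w))⁻¹ ∈ M := hMX ⟨img_eq_iff.1 (by
      rw [← he, ← img_mul, inv_mul_cancel_right, img_mul, img_eq_iff.2 h1]),
      (inferInstance : (commutator (O Q)).Normal).conj_mem _ h2 _⟩
    have h4 := M.mul_mem h3 (M.inv_mem (hMY ⟨h1, h2⟩))
    have e1 : τ u = (s + 1) • u := by
      rw [hτ, O.mul_apply, O.mul_apply, refl_apply_of_orth (pc hq.1.2),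
        refl_apply_of_orth (pc hp.1.2), tor_apply_e hef hl]
    have e2 : τ w = w := by
      rw [hτ, O.mul_apply, O.mul_apply, refl_apply_of_orth (hw q hq.1.1),
        refl_apply_of_orth (hw p hp.1.1), tor_apply_of_orth huw (hw f hf)]
    rw [mul_assoc, mul_assoc, ← mul_assoc τ, ← eich_neg, neg_neg, conj_eich, e1, e2,
      eich_smul_left _ _ _ hu huw, ← eich_add hu (by simp [huw]) (by simp [huw]),
      show -w + (s + 1) • w = s • w by module] at h4
    exact ⟨by simp [huw], h4⟩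
  have hwA : w ∈ AS M u := mem_AS.2 ⟨huw, fun s => by
    by_cases hs : s = -1
    · have := add_mem (key c hc1) (key (-1 - c) fun e => hc0 (by linear_combination -e))
      rw [← add_smul, add_sub_cancel, ← hs] at this
      exact this.2
    · exact (key s hs).2⟩
  have hw0 := hY.eq_zero (AS_le_of_three hQ h5 hY (by omega) hex hMY hn huY hu0 hu hwA) hw
  exact fin f hf (by simpa [hw0] using hfw) (by simp [huf])

/-- `Y` contains a totally singular plane. -/
def Pl (Q : QuadraticForm F V) (Y : Submodule F V) : Prop :=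
  ∃ a ∈ Y, ∃ b ∈ Y, Q a = 0 ∧ Q b = 0 ∧ polar Q a b = 0 ∧ a ≠ 0 ∧ b ∉ span F {a}

theorem Pl.exists' {Y : Submodule F V} (h : Pl Q Y) {u : V} (hu0 : u ≠ 0) :
    ∃ v ∈ Y, Q v = 0 ∧ polar Q u v = 0 ∧ v ∉ span F {u} := by
  obtain ⟨a, ha, b, hb, hQa, hQb, hab, ha0, hn⟩ := h
  have h2 : finrank F (span F ({a, b} : Set V)) = 2 := finrank_span_pair
    ((LinearIndependent.pair_iff' ha0).2 fun c e => hn (mem_span_singleton.2 ⟨c, e⟩))
  have hle : span F ({a, b} : Set V) ≤ Y := span_le.2 (by simp [Set.insert_subset_iff, ha, hb])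
  have hts : ∀ x ∈ span F ({a, b} : Set V), Q x = 0 := fun x hx => by
    obtain ⟨s, t, rfl⟩ := mem_span_pair.1 hx
    simp [Q_add, Q_smul, hQa, hQb, hab]
  by_cases hm : u ∈ span F ({a, b} : Set V)
  · obtain ⟨v, hv, hv'⟩ := exists_mem_not_mem_of_finrank_lt (A := span F {u})
      (B := span F ({a, b} : Set V)) (by rw [h2, finrank_span_singleton hu0]; omega)
    exact ⟨v, hle hv, hts v hv, polar_eq_zero_of_ts hts u hm v hv, hv'⟩
  · obtain ⟨v, hv, hv0, huv⟩ := exists_orth_of_two (Q := Q) h2.ge u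
    refine ⟨v, hle hv, hts v hv, huv, fun e => hm ?_⟩
    obtain ⟨t, rfl⟩ := mem_span_singleton.1 e
    exact (smul_mem_iff _ (left_ne_zero_of_smul hv0)).1 hv

theorem Pl.img {Y : Submodule F V} (h : Pl Q Y) (g : O Q) : Pl Q (img g Y) := by
  obtain ⟨a, ha, b, hb, hQa, hQb, hab, ha0, hn⟩ := h
  exact ⟨g a, apply_mem_img.2 ha, g b, apply_mem_img.2 hb, by simpa, by simpa, by simpa, by simpa,
    apply_not_mem_span g hn⟩

theorem exists_pair_of_aniso (hF : ∀ c : F, c = 0 ∨ c = 1) {P : Submodule F V}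
    (h2 : 2 ≤ finrank F P) (han : ∀ x ∈ P, Q x = 0 → x = 0) :
    ∃ a ∈ P, ∃ b ∈ P, Q a = 1 ∧ Q b = 1 ∧ polar Q a b = 1 := by
  obtain ⟨a, ha, ha0⟩ := exists_mem_ne_zero_of_ne_bot (p := P) fun e => by subst e; simp at h2
  obtain ⟨b, hb, hb'⟩ := exists_mem_not_mem_of_finrank_lt (A := span F {a}) (B := P)
    (by rw [finrank_span_singleton ha0]; omega)
  have h1 : ∀ x ∈ P, x ≠ 0 → Q x = 1 := fun x hx h0 => (hF _).resolve_left fun e => h0 (han x hx e)
  have e1 := h1 a ha ha0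
  have e2 := h1 b hb (by rintro rfl; exact hb' (zero_mem _))
  have e3 := h1 _ (add_mem ha hb) fun e => hb' (by
    rw [eq_neg_of_add_eq_zero_right e]; exact neg_mem (mem_span_singleton_self a))
  rw [Q_add, e1, e2] at e3
  exact ⟨a, ha, b, hb, e1, e2, by linear_combination e3 - two_eq_zero_of_forall hF⟩

theorem le_sstab_four (hQ : Q.polarBilin.Nondegenerate) (h7 : 7 ≤ finrank F V) {W : Submodule F V}
    (hW : Nondeg Q W) (h4 : finrank F W = 4) {M : Subgroup (O Q)}
    (hM : sstab Q (W : Set V) ⊓ commutator (O Q) ≤ M) (hn : ¬ commutator (O Q) ≤ M)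
    (hc : (∃ c : F, c ≠ 0 ∧ c ≠ -1) ∨ (Pl Q W ∧ ¬ Pl Q (perp Q W) ∧ 8 ≤ finrank F V))
    (h1 : ∀ g ∈ M, ∀ x ∈ img g W, x ∈ perp Q W → Q x = 0 → x = 0) :
    M ≤ sstab Q (W : Set V) := fun g hg => by_contra fun hgS => by
  have h5 : 5 ≤ finrank F V := by omega
  have hd := finrank_perp hQ W
  have hex : ¬ SmallHyp Q (perp Q W) := fun h => by have := h.2.1; omega
  have hW' := hW.perp hQ
  have U : ∀ k ∈ M, ∀ u ∈ W, u ∈ img k W → u ≠ 0 → Q u = 0 → k ∈ sstab Q (W : Set V) :=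
    fun k hk u hu hu' h0 hQu => img_eq_iff.1 (eq_of_sing hQ h5 (hW.img k) hW (by rwa [finrank_img]) h4
      hex (sstab_img_le hM hk) hM hn hu' hu h0 hQu (hc.imp_right fun h => h.1.exists' h0))
  have U' : ∀ k ∈ M, ∀ u ∈ W, k u = u → u ≠ 0 → Q u = 0 → k ∈ sstab Q (W : Set V) :=
    fun k hk u hu h => U k hk u hu (by rw [← h, apply_mem_img]; exact hu)
  have hE : EOin Q (W : Set V) ≤ M :=
    (le_inf (EOin_le_sstab W) (EOin_le_commutator hQ h5 _)).trans hM
  have hnW : ∀ x ∈ img g W, Q x = 0 → x ∈ W → x = 0 := fun x hx hQx h => by_contra fun h0 =>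
    hgS (U g hg x h hx h0 hQx)
  have mixed : ∀ x₁ ∈ W, ∀ x₂ ∈ perp Q W, x₁ + x₂ ∈ img g W → Q (x₁ + x₂) = 0 → x₁ + x₂ ≠ 0 →
      (∀ c : F, c = 0 ∨ c = 1) ∧ Q x₁ = 1 ∧ Q x₂ = 1 ∧ x₁ ∈ img g W ∧ x₂ ∈ img g W :=
    fun x₁ k1 x₂ k2 hx hQx h0 => by
    have n1 : x₁ ≠ 0 := by rintro rfl; exact h0 (h1 g hg _ hx (by simpa using k2) hQx)
    have n2 : x₂ ≠ 0 := by rintro rfl; exact h0 (hnW _ hx hQx (by simpa using k1))
    have hxW : ∀ c : F, c • (x₁ + x₂) ∈ W → c = 0 := fun c h => by_contra fun e =>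
      h0 (hnW _ hx hQx ((smul_mem_iff _ e).1 h))
    obtain ⟨u, hu, hu0, hQu⟩ := exists_sing (Q := Q) (W ⊓ ort Q x₁) (by
      have := finrank_le_inf_ort (Q := Q) W x₁; omega)
    have hxu : polar Q (x₁ + x₂) u = 0 := by simp [mem_ort.1 hu.2, pc (pp k2 hu.1)]
    obtain ⟨f, hf, hxf⟩ := hW.exists_polar_one k1 n1
    obtain ⟨f', hf', hxf'⟩ := hW'.exists_polar_one k2 n2
    have e1 : polar Q (x₁ + x₂) f = 1 := by simp [hxf, pc (pp k2 hf)]
    have e2 : polar Q (x₁ + x₂) f' = 1 := by simp [hxf', pp hf' k1]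
    have hT : ∀ y ∈ AS M (x₁ + x₂) ⊓ ort Q u, eich Q (x₁ + x₂) y ∈ sstab Q (W : Set V) := fun y hy =>
      U' _ (eich_mem_of_AS hy.1) u hu.1 (eich_apply_of_orth_orth hxu (pc hy.2)) hu0 hQu
    have hle : AS M (x₁ + x₂) ⊓ ort Q u ≤ span F {x₁, x₂} := fun y hy => by
      have k3 := sub_mem hf (apply_mem_of_sstab (hT y hy) hf)
      have k4 := sub_mem hf' (apply_mem_of_sstab (sstab_perp_of (hT y hy)) hf')
      rw [eich_apply hQx hy.1.1] at k3 k4
      rw [e1] at k3
      rw [e2] at k4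
      have k5 := hW.eq_zero (sub_mem k3 (smul_mem _ (polar Q y f' - polar Q y f) k1)) (by
        convert add_mem k4 (smul_mem _ (polar Q y f' - polar Q y f) k2) using 1; module)
      refine mem_span_pair.2 ⟨polar Q y f' - Q y, polar Q y f - Q y, ?_⟩
      linear_combination (norm := module) -k5
    have k3 : x₁ ∈ AS M (x₁ + x₂) ⊓ ort Q u := by
      rw [eq_of_le_of_finrank_le hle (by
        have := finrank_le_inf_ort (Q := Q) (AS M (x₁ + x₂)) u
        have := finrank_span_pair_le (F := F) x₁ x₂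
        have := le_finrank_AS_add_one hE hg hx
        omega)]
      exact subset_span (by simp)
    have k4 : ∀ c : F, c - c * c * Q x₁ = 0 := fun c => hxW _ (by
      have k5 := apply_mem_of_sstab (hT _ (smul_mem _ c k3)) hf
      rw [eich_apply hQx (smul_mem _ c k3).1.1, e1, polar_smul_left, hxf, Q_smul] at k5
      convert add_mem (sub_mem k5 hf) (smul_mem _ c k1) using 1
      simp only [smul_eq_mul]; module)
    have k5 : Q x₁ = 1 := by linear_combination -k4 1
    have k6 : ∀ c : F, c = 0 ∨ c = 1 := fun c => (mul_eq_zero.1 (by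
      linear_combination -k4 c - c * c * k5 : c * (c - 1) = 0)).imp_right sub_eq_zero.1
    have k7 : x₁ ∈ img g W := by
      have := apply_mem_AS (M.inv_mem hg) k3.1
      exact mem_img.2 (AS_le_of_three hQ h5 hW (by omega) hex hM hn (mem_img.1 hx) (O.apply_eq_zero _ |>.not.2 h0)
        (by rwa [O.map_Q]) this)
    rw [Q_add, k5, pp k2 k1] at hQx
    exact ⟨k6, k5, by linear_combination hQx - two_eq_zero_of_forall k6, k7,
      by simpa using sub_mem hx k7⟩
  obtain ⟨x, hx, hx0, hQx⟩ := exists_sing (Q := Q) (img g W) (by rw [finrank_img]; omega)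
  obtain ⟨x₁, k1, x₂, k2, rfl⟩ := hW.exists_decomp hQ x
  obtain ⟨hF, q1, q2, m1, m2⟩ := mixed x₁ k1 x₂ k2 hx hQx hx0
  have h2 := two_eq_zero_of_forall hF
  obtain ⟨hP, hN, h8⟩ := hc.resolve_left fun ⟨c, c0, c1⟩ =>
    c1 (by linear_combination (hF c).resolve_left c0 + h2)
  obtain ⟨y, hy, hQy, hxy, hy'⟩ := (hP.img g).exists' hx0
  obtain ⟨y₁, l1, y₂, l2, rfl⟩ := hW.exists_decomp hQ y
  obtain ⟨-, p1, p2, n1, n2⟩ := mixed y₁ l1 y₂ l2 hy hQy fun e => hy' (e ▸ zero_mem _)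
  have hxy' : polar Q x₁ y₁ + polar Q x₂ y₂ = 0 := by
    simpa [polar_add_left, pp l2 k1, pc (pp k2 l1)] using hxy
  have b2 : polar Q x₂ y₂ = 1 := (hF _).resolve_left fun e => by
    rw [e, add_zero] at hxy'
    have z1 := hnW _ (add_mem m1 n1) (by rw [Q_add, q1, p1, hxy']; linear_combination h2)
      (add_mem k1 l1)
    have z2 := h1 g hg _ (add_mem m2 n2) (add_mem k2 l2)
      (by rw [Q_add, q2, p2, e]; linear_combination h2)
    exact hy' (mem_span_singleton.2 ⟨-1, by linear_combination (norm := module) -z1 - z2⟩)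
  obtain ⟨a, ha, b, hb, qa, qb, hab⟩ := exists_pair_of_aniso (Q := Q) hF
    (P := perp Q W ⊓ ort Q x₂ ⊓ ort Q y₂) (by
      have := finrank_le_inf_ort (Q := Q) (perp Q W) x₂
      have := finrank_le_inf_ort (Q := Q) (perp Q W ⊓ ort Q x₂) y₂
      omega) fun e he hQe => by
    have o1 := mem_ort.1 he.1.2
    have o2 := mem_ort.1 he.2
    have qv : Q (x₂ + e) = 1 := by rw [Q_add, q2, hQe, o1]; simp
    have hh : refl Q (x₂ + e) * refl Q x₁ ∈ M := hM ⟨mul_mem ((sstab_perp hQ W).le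
      (refl_mem_sstab (add_mem k2 he.1.1))) (refl_mem_sstab k1),
      refl_mul_refl_mem_commutator hQ h5 one_ne_zero (by rw [q1, qv]; simp)⟩
    have hfix : (refl Q (x₂ + e) * refl Q x₁) (x₁ + x₂) = x₁ + x₂ := by
      rw [O.mul_apply, refl_apply_of_orth (v := x₁) (by simp [h2, pp k2 k1]),
        refl_apply_of_orth (by simp [h2, pc (pp k2 k1), pc o1, pc (pp he.1.1 k1)])]
    have k3 := U' _ (M.mul_mem (M.mul_mem (M.inv_mem hg) hh) hg) _ (mem_img.1 hx)
      (by simp only [O.mul_apply, O.apply_inv_apply] at hfix ⊢; rw [hfix])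
      (O.apply_eq_zero _ |>.not.2 hx0) (by rwa [O.map_Q])
    have k4 := apply_mem_of_sstab k3 (mem_img.1 n2)
    simp only [O.mul_apply, O.apply_inv_apply, SetLike.mem_coe] at k4
    rw [← mem_img, refl_apply_of_orth (pp l2 k1), refl_apply, qv, polar_add_left, b2, pc o2] at k4
    refine h1 g hg e ?_ he.1.1 hQe
    convert sub_mem (sub_mem n2 k4) m2 using 1
    simp
  have o1 := mem_ort.1 ha.1.2
  have o2 := mem_ort.1 ha.2
  have o3 := mem_ort.1 hb.1.2
  have o4 := mem_ort.1 hb.2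
  refine hN ⟨x₂ + a, add_mem k2 ha.1.1, y₂ + b, add_mem l2 hb.1.1,
    by rw [Q_add, q2, qa, o1]; linear_combination h2, by rw [Q_add, p2, qb, o4]; linear_combination h2,
    by simp only [polar_add_left, polar_add_right, b2, o3, pc o2, hab]; linear_combination h2,
    fun e => ?_, fun e => ?_⟩
  · simpa [polar_add_left, o3, hab] using congrArg (polar Q · b) e
  · obtain ⟨t, ht⟩ := mem_span_singleton.1 e
    have := congrArg (polar Q a) ht
    simp [pc o1, pc o2, h2, hab] at this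

theorem nondeg_four_seven (hQ : Q.polarBilin.Nondegenerate) (h2 : (2 : F) ≠ 0)
    (h7 : finrank F V = 7) {W : Submodule F V} (hW : Nondeg Q W) (h4 : finrank F W = 4) :
    IsMaximalIn (commutator (O Q)) (sstab Q (W : Set V) ⊓ commutator (O Q)) := by
  have hd := finrank_perp hQ W
  refine isMaximalIn_of (exists_not_mem_sstab_of_nondeg hQ (by omega) hW (by omega) (by
    rintro rfl; rw [finrank_top] at h4; omega)) fun M hM _ g hg hgS => by_contra fun hn => hgS
    (le_sstab_four hQ h7.ge hW h4 hM hn (Or.inl ⟨1, one_ne_zero, fun e => h2 (by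
      linear_combination e)⟩) (fun k hk x hx hx' hQx => by_contra fun h0 => ?_) hg)
  have hE : EOin Q (W : Set V) ≤ M :=
    (le_inf (EOin_le_sstab W) (EOin_le_commutator hQ (by omega) _)).trans hM
  have h1 := AS_le_of_three hQ (by omega) (hW.perp hQ) (by omega) (fun h => by
    have := h.2.1; rw [perp_perp hQ] at this; omega) (by rwa [sstab_perp hQ]) hn hx' h0 hQx
  have h3 := le_finrank_AS_add_one hE hk hx
  obtain ⟨f, hf, hxf⟩ := (hW.perp hQ).exists_polar_one hx' h0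
  have h5 : finrank F (AS M x) < finrank F (perp Q W) := finrank_lt_finrank_of_lt
    (lt_of_le_of_ne h1 fun e => by
      have := (e.symm ▸ hf : f ∈ AS M x).1
      simp [hxf] at this)
  omega

theorem ts_of_pairs {a b c d : V} (ha : Q a = 0) (hb : Q b = 0) (hc : Q c = 0) (hd : Q d = 0)
    (hab : polar Q a b = 0) (hac : polar Q a c = 0) (had : polar Q a d = 0) (hbc : polar Q b c = 0)
    (hbd : polar Q b d = 0) (hcd : polar Q c d = 0) (ha0 : a ≠ 0) (hb' : b ∉ span F {a}) (hc0 : c ≠ 0)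
    (hd' : d ∉ span F {c}) (h : span F ({a, b} : Set V) ⊓ span F {c, d} = ⊥) :
    ∃ U : Submodule F V, (∀ u ∈ U, Q u = 0) ∧ finrank F U = 4 := by
  have h2 : ∀ {a b : V}, a ≠ 0 → b ∉ span F {a} → finrank F (span F ({a, b} : Set V)) = 2 :=
    fun ha0 hn => finrank_span_pair
      ((LinearIndependent.pair_iff' ha0).2 fun c e => hn (mem_span_singleton.2 ⟨c, e⟩))
  refine ⟨span F {a, b} ⊔ span F {c, d}, fun u hu => ?_, ?_⟩
  · obtain ⟨x, hx, y, hy, rfl⟩ := mem_sup.1 hu
    obtain ⟨s, t, rfl⟩ := mem_span_pair.1 hx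
    obtain ⟨s', t', rfl⟩ := mem_span_pair.1 hy
    simp [Q_add, Q_smul, polar_add_left, ha, hb, hc, hd, hab, hac, had, hbc, hbd, hcd]
  · have := finrank_sup_add_finrank_inf_eq (span F ({a, b} : Set V)) (span F {c, d})
    rw [h, finrank_bot, h2 ha0 hb', h2 hc0 hd'] at this
    omega

theorem nondeg_four_eight (hQ : Q.polarBilin.Nondegenerate) (h8 : finrank F V = 8)
    (hmin : ∀ U : Submodule F V, (∀ u ∈ U, Q u = 0) → finrank F U ≠ 4) {W : Submodule F V}
    (hW : Nondeg Q W) (h4 : finrank F W = 4) :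
    IsMaximalIn (commutator (O Q)) (sstab Q (W : Set V) ⊓ commutator (O Q)) := by
  have main : ∀ W : Submodule F V, Nondeg Q W → finrank F W = 4 →
      (∃ c : F, c ≠ 0 ∧ c ≠ -1) ∨ Pl Q W →
      IsMaximalIn (commutator (O Q)) (sstab Q (W : Set V) ⊓ commutator (O Q)) := fun W hW h4 hc => by
    have hd := finrank_perp hQ W
    have hN : Pl Q W → ¬ Pl Q (perp Q W) := by
      rintro ⟨a, ha, b, hb, qa, qb, hab, a0, b'⟩ ⟨c, hc, d, hd, qc, qd, hcd, c0, d'⟩
      obtain ⟨U, hU, hU'⟩ := ts_of_pairs qa qb qc qd hab (hc a ha) (hd a ha) (hc b hb) (hd b hb) hcd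
        a0 b' c0 d' (eq_bot_iff.2 (hW.inf_perp ▸ inf_le_inf
          (span_le.2 (by simp [Set.insert_subset_iff, ha, hb]))
          (span_le.2 (by simp [Set.insert_subset_iff, hc, hd]))))
      exact hmin U hU hU'
    refine isMaximalIn_of (exists_not_mem_sstab_of_nondeg hQ (by omega) hW (by omega) (by
      rintro rfl; rw [finrank_top] at h4; omega)) fun M hM _ g hg hgS => by_contra fun hn => hgS
      (le_sstab_four hQ (by omega) hW h4 hM hn (hc.imp_right fun h => ⟨h, hN h, h8.ge⟩)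
        (fun k hk x hx hx' hQx => by_contra fun h0 => ?_) hg)
    have hex : ¬ SmallHyp Q (perp Q (perp Q W)) := fun h => by
      have := h.2.1; rw [perp_perp hQ] at this; omega
    rcases hc with hc | hc
    · obtain ⟨U, -, hU, hU'⟩ := exists_ts_of_img_le_perp hW (by rw [h4]; decide)
        (eq_of_sing hQ (by omega) (hW.img k) (hW.perp hQ) (by rwa [finrank_img]) (by omega) hex
          (sstab_img_le hM hk) (by rwa [sstab_perp hQ]) hn hx hx' h0 hQx (Or.inl hc)).le
      exact hmin U hU (hU'.trans h4)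
    · obtain ⟨v, hv, hQv, hxv, hv'⟩ := (hc.img k).exists' h0
      exact hN hc ⟨x, hx', v, AS_le_of_three hQ (by omega) (hW.perp hQ) (by omega) hex
        (by rwa [sstab_perp hQ]) hn hx' h0 hQx (mem_AS_of_le ((le_inf (EOin_le_sstab _)
          (EOin_le_commutator hQ (by omega) _)).trans (sstab_img_le hM hk)) hx hv hxv), hQx, hQv, hxv,
        h0, hv'⟩
  have hd := finrank_perp hQ W
  by_cases hc : (∃ c : F, c ≠ 0 ∧ c ≠ -1) ∨ Pl Q W
  · exact main W hW h4 hc
  rw [← sstab_perp hQ W]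
  refine main _ (hW.perp hQ) (by omega) (Or.inr (by_contra fun hN => ?_))
  rw [not_or] at hc
  have h2 : (2 : F) = 0 := by_contra fun e => hc.1 ⟨1, one_ne_zero, fun e' => e (by
    linear_combination e')⟩
  have hF : ∀ c : F, c = 0 ∨ c = 1 := fun c => or_iff_not_imp_left.2 fun e => by_contra fun e' =>
    hc.1 ⟨c, e, fun e'' => e' (by linear_combination e'' - h2)⟩
  have key : ∀ Y : Submodule F V, Nondeg Q Y → finrank F Y = 4 → ¬ Pl Q Y → ∃ e ∈ Y, ∃ a ∈ Y,
      ∃ b ∈ Y, e ≠ 0 ∧ Q e = 0 ∧ polar Q e a = 0 ∧ polar Q e b = 0 ∧ Q a = 1 ∧ Q b = 1 ∧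
      polar Q a b = 1 := fun Y hY hY4 hP => by
    obtain ⟨e, he, f, hf, qe, qf, hef⟩ := hY.hasHyp (by omega)
    have e0 : e ≠ 0 := by rintro rfl; simp at hef
    obtain ⟨a, ha, b, hb, h⟩ := exists_pair_of_aniso (Q := Q) hF (P := Y ⊓ ort Q e ⊓ ort Q f) (by
      have := finrank_le_inf_ort (Q := Q) Y e
      have := finrank_le_inf_ort (Q := Q) (Y ⊓ ort Q e) f
      omega) fun x hx hQx => by_contra fun h0 => hP ⟨e, he, x, hx.1.1, qe, hQx, hx.1.2, e0, fun k => by
        obtain ⟨t, rfl⟩ := mem_span_singleton.1 k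
        have := mem_ort'.1 hx.2
        rw [polar_smul_left, hef, smul_eq_mul, mul_one] at this
        exact h0 (by simp [this])⟩
    exact ⟨e, he, a, ha.1.1, b, hb.1.1, e0, qe, ha.1.2, hb.1.2, h⟩
  obtain ⟨e, he, a, ha, b, hb, e0, qe, ea, eb, qa, qb, ab⟩ := key W hW h4 hc.2
  obtain ⟨e', he', a', ha', b', hb', e0', qe', ea', eb', qa', qb', ab'⟩ :=
    key _ (hW.perp hQ) (by omega) hN
  obtain ⟨U, hU, hU'⟩ := ts_of_pairs (a := e) (b := e') (c := a + a') (d := b + b') qe qe'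
    (by rw [Q_add, qa, qa', pp ha' ha]; linear_combination h2)
    (by rw [Q_add, qb, qb', pp hb' hb]; linear_combination h2) (pp he' he) (by simp [ea, pp ha' he])
    (by simp [eb, pp hb' he]) (by simp [ea', pc (pp he' ha)]) (by simp [eb', pc (pp he' hb)])
    (by simp only [polar_add_left, polar_add_right, ab, ab', pp hb' ha, pc (pp ha' hb)]
        linear_combination h2) e0
    (fun k => e0' (hW.eq_zero ((span_singleton_le_iff_mem _ _).2 he k) he'))
    (fun k => by simpa [polar_add_left, ab, pc (pp ha' hb)] using congrArg (polar Q · b) k)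
    (fun k => by
      obtain ⟨t, ht⟩ := mem_span_singleton.1 k
      have := congrArg (polar Q a) ht
      simp [h2, ab, pp ha' ha, pp hb' ha] at this)
    (eq_bot_iff.2 fun x hx => by
      obtain ⟨s, t, k1⟩ := mem_span_pair.1 hx.1
      obtain ⟨s', t', rfl⟩ := mem_span_pair.1 hx.2
      have k2 := congrArg (polar Q a) k1
      have k3 := congrArg (polar Q b) k1
      simp [h2, ab, pc ea, pc eb, pp he' ha, pp he' hb, pp ha' ha, pp hb' ha, pp ha' hb,
        pp hb' hb, polar_comm _ b a] at k2 k3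
      simp [← k2, ← k3])
  exact hmin U hU hU'

/-- Non-degenerate subspaces with a summand of dimension at least five, of unequal dimensions. -/
theorem nondeg_maximal_ne (hQ : Q.polarBilin.Nondegenerate) {W : Submodule F V} (hW : Nondeg Q W)
    (hW0 : W ≠ ⊥) (hW1 : W ≠ ⊤) (hex : ¬ SmallHyp Q W) (hex' : ¬ SmallHyp Q (perp Q W))
    (h5 : 5 ≤ finrank F W ∨ finrank F W + 5 ≤ finrank F V) (hne : 2 * finrank F W ≠ finrank F V) :
    IsMaximalIn (commutator (O Q)) (sstab Q (W : Set V) ⊓ commutator (O Q)) := by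
  have hd := finrank_perp hQ W
  by_cases h : finrank F (perp Q W) ≤ finrank F W
  · exact nondeg_maximal_of_five hQ hW (by omega) hW1 hex' fun g hg => by
      have := Submodule.finrank_mono hg
      rw [finrank_img] at this
      omega
  · rw [← sstab_perp hQ W]
    refine nondeg_maximal_of_five hQ (hW.perp hQ) (by omega) (fun e => hW0 ?_)
      (by rwa [perp_perp hQ]) fun g hg => ?_
    · have := hW.inf_perp
      rwa [e, inf_top_eq] at this
    · have := Submodule.finrank_mono hg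
      rw [finrank_img, perp_perp hQ] at this
      exact h this

end H91
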