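/- Quadratic forms which are traces of quadratic forms over an extension field: basic tools. -/
import Cfsg.Agent.H60.Full
import Cfsg.Agent.H60.Irred
import Cfsg.Agent.H62.C3SpCases
import Cfsg.Agent.H56.OmegaFin
import Cfsg.Agent.H62.C3Mat

set_option autoImplicit false
set_option linter.unusedSectionVars false

namespace H91

open QuadraticMap H56 H60 H62 Module
open scoped commutatorElement

variable {F K V : Type*} [Field F] [Field K] [Algebra F K] [AddCommGroup V] [Module F V]
  [Module K V] [IsScalarTower F K V] {Q : QuadraticForm F V} {q : QuadraticForm K V} {c : Dual F K}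

/-- `Q` is obtained from the non-degenerate `K`-form `q` by the functional `c`. -/
structure TrQ (Q : QuadraticForm F V) (q : QuadraticForm K V) (c : Dual F K) : Prop where
  nd : q.polarBilin.Nondegenerate
  ne : c ≠ 0
  eq : ∀ x, Q x = c (q x)
  two : (2 : K) ≠ 0

theorem mem_of_sq {A : Type*} [AddCommGroup A] {S : AddSubgroup A} (h2 : (2 : K) ≠ 0)
    (f : K →+ A) (h : ∀ l : K, f (l * l) ∈ S) (k : K) : f k ∈ S := by
  have h4 : (4 : K) ≠ 0 := by rw [show (4 : K) = 2 * 2 by norm_num]; exact mul_ne_zero h2 h2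
  have := S.sub_mem (h ((k + 1) / 2)) (h ((k - 1) / 2))
  rwa [← map_sub, show (k + 1) / 2 * ((k + 1) / 2) - (k - 1) / 2 * ((k - 1) / 2) = k by
    field_simp; ring] at this

theorem subalg_cases (hr : (finrank F K).Prime) (R : Subalgebra F K) {μ : K} (hμ : μ ∈ R)
    (h : ∀ s : F, algebraMap F K s ≠ μ) (k : K) : k ∈ R := by
  rcases (Subalgebra.isSimpleOrder_of_finrank_prime F K hr).eq_bot_or_eq_top R with h1 | h1
  · rw [h1] at hμ
    obtain ⟨s, hs⟩ := Algebra.mem_bot.1 hμ
    exact absurd hs (h s)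
  · exact h1 ▸ Algebra.mem_top

/-- an `F`-subspace stable under a scalar outside `F` is a `K`-subspace -/
theorem smul_mem_of_stable (hr : (finrank F K).Prime) {N : Submodule F V} {μ : K}
    (hμ : ∀ s : F, algebraMap F K s ≠ μ) (h : ∀ v ∈ N, μ • v ∈ N) (k : K) : ∀ v ∈ N, k • v ∈ N :=
  subalg_cases hr
    { carrier := {k | ∀ v ∈ N, k • v ∈ N}
      mul_mem' := fun ha hb v hv => by rw [mul_smul]; exact ha _ (hb v hv)
      add_mem' := fun ha hb v hv => by rw [add_smul]; exact N.add_mem (ha v hv) (hb v hv)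
      algebraMap_mem' := fun s v hv => by rw [algebraMap_smul]; exact N.smul_mem s hv } h hμ k

theorem eq_kl_of_le [FiniteDimensional F V] {N : Submodule F V} (hN : finrank F N ≤ finrank F K)
    {w : V} (hw : w ≠ 0) (h : ∀ k : K, k • w ∈ N) : N = kl F K w :=
  (Submodule.eq_of_le_of_finrank_le (fun v hv => by
    obtain ⟨k, rfl⟩ := mem_kl.1 hv; exact h k) (by rwa [finrank_kl hw])).symm

theorem kl_smul {k : K} (hk : k ≠ 0) (w : V) : kl F K (k • w) = kl F K w := by
  rw [kl, kl, Submodule.span_singleton_smul_eq hk.isUnit]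

namespace TrQ

theorem pol (h : TrQ Q q c) (x y : V) : polar Q x y = c (polar q x y) := by
  simp [polar, h.eq]

theorem zero_of (h : TrQ Q q c) {a : K} (h0 : ∀ k, c (k * a) = 0) : a = 0 :=
  dual_mul_ext h.ne fun k => by rw [h0]; simp

theorem pol_smul (h : TrQ Q q c) (k : K) (x y : V) : polar Q (k • x) y = c (k * polar q x y) := by
  rw [h.pol, polar_smul_left, smul_eq_mul]

theorem nondeg (h : TrQ Q q c) : Q.polarBilin.Nondegenerate :=
  nondegenerate_of_polar fun x hx => eq_zero_of_polar h.nd fun y => h.zero_of fun k => by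
    rw [← hx (k • y), h.pol, polar_smul_right, smul_eq_mul]

theorem two' (h : TrQ Q q c) : (2 : F) ≠ 0 := fun e =>
  h.two (by rw [← map_ofNat (algebraMap F K) 2, e, map_zero])

theorem sq_zero (h : TrQ Q q c) {a : K} (h0 : ∀ k, c (k * k * a) = 0) : a = 0 :=
  h.zero_of (mem_of_sq (S := ⊥) h.two (c.toAddMonoidHom.comp (AddMonoidHom.mulRight a)) h0)

theorem exists_Q_ne (h : TrQ Q q c) {a : V} (ha : q a ≠ 0) : ∃ k : K, Q (k • a) ≠ 0 := by
  by_contra! hc
  exact ha (h.sq_zero fun k => by rw [← hc k, h.eq, Q_smul])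

/-- restriction of scalars -/
def res (h : TrQ Q q c) : O q →* O Q where
  toFun g := ⟨g.1.restrictScalars F, mem_OG.2 fun v => by rw [h.eq, h.eq]; exact congrArg c (g.map_Q v)⟩
  map_one' := rfl
  map_mul' _ _ := rfl

@[simp] theorem res_apply (h : TrQ Q q c) (g : O q) (v : V) : h.res g v = g v := rfl

theorem kl_ts (h : TrQ Q q c) {w x : V} (hw : q w = 0) (hx : x ∈ kl F K w) : Q x = 0 := by
  obtain ⟨k, rfl⟩ := mem_kl.1 hx
  rw [h.eq, Q_smul, hw]; simp

theorem mem_perp_kl (h : TrQ Q q c) {w x : V} : x ∈ perp Q (kl F K w) ↔ polar q w x = 0 := by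
  refine ⟨fun hx => h.zero_of fun k => ?_, fun hx => mem_perp.2 fun v hv => ?_⟩
  · rw [← h.pol_smul]; exact mem_perp.1 hx _ (smul_mem_kl k w)
  · obtain ⟨k, rfl⟩ := mem_kl.1 hv
    rw [h.pol_smul, hx]; simp

theorem img_kl (h : TrQ Q q c) (g : O q) (w : V) : img (h.res g) (kl F K w) = kl F K (g w) := by
  ext x
  rw [mem_img, ← map_inv, res_apply, mem_kl, mem_kl]
  exact exists_congr fun k => by rw [eq_comm, O.inv_apply_eq, map_smul, eq_comm]

end TrQ

theorem pol_kl {w x : V} (hw : q w = 0) (hx : x ∈ kl F K w) : polar q w x = 0 := by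
  obtain ⟨k, rfl⟩ := mem_kl.1 hx
  simp [pself hw]

theorem exists_pol_eq (hq : q.polarBilin.Nondegenerate) {w x : V} (hx : x ∉ kl F K w) (k : K) :
    ∃ y, polar q w y = 0 ∧ polar q y x = k := by
  by_contra! hc
  obtain ⟨a, ha⟩ := exists_smul_of_orth hq (x := w) (z := x) fun v hv => by
    by_contra h0
    exact hc ((k / polar q x v) • v) (by simp [hv]) (by
      rw [polar_smul_left, polar_comm q v, smul_eq_mul, div_mul_cancel₀ _ h0])
  exact hx (mem_kl.2 ⟨a, ha.symm⟩)

/-- A subspace over `F` which is stable under the Eichler transformations with centre `u`. -/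
theorem eich_grow (h2 : (2 : K) ≠ 0) {N : Submodule F V} {U : Submodule K V} {u n y₀ : V}
    (hu : q u = 0) (hN : ∀ y ∈ U, polar q u y = 0 → ∀ n ∈ N, eich q u y n ∈ N) (hn : n ∈ N)
    (hun : polar q u n ≠ 0) (hy : y₀ ∈ U) (huy : polar q u y₀ = 0) (hq : q y₀ ≠ 0) :
    (∀ k : K, k • u ∈ N) ∧ ∀ y ∈ U, polar q u y = 0 → y ∈ N := by
  have h1 : ∀ y ∈ U, polar q u y = 0 →
      (polar q y n - q y * polar q u n) • u - polar q u n • y ∈ N := fun y hy h => by
    convert N.sub_mem (hN y hy h n hn) hn using 1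
    rw [eich_apply hu h]; module
  have h3 : ∀ k : K, k • u ∈ N := fun k => by
    have h0 : 2 * q y₀ * polar q u n ≠ 0 := by simp [h2, hq, hun]
    have := mem_of_sq (S := N.toAddSubgroup) h2 ((LinearMap.toSpanSingleton K V u).toAddMonoidHom.comp
      (AddMonoidHom.mulRight (2 * q y₀ * polar q u n))) (fun l => by
        have e : polar q u (l • y₀) = 0 := by simp [huy]
        have h4 := h1 _ (U.smul_mem l hy) e
        have h5 := N.sub_mem h4 (hN _ (U.smul_mem l hy) e _ h4)
        rw [eich_apply_of_orth hu e (by simp [pself hu, huy]), sub_add_cancel_left, ← neg_smul] at h5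
        change (l * l * (2 * q y₀ * polar q u n)) • u ∈ N
        convert h5 using 2
        simp only [polar_sub_right, polar_smul_right, polar_smul_left, pc huy, polar_self', smul_eq_mul,
          Q_smul]
        ring) (k / (2 * q y₀ * polar q u n))
    simpa [div_mul_cancel₀ _ h0] using this
  refine ⟨h3, fun y hy h => ?_⟩
  have := h1 _ (U.smul_mem (polar q u n)⁻¹ hy) (by simp [h])
  rwa [N.sub_mem_iff_right (h3 _), smul_smul, mul_inv_cancel₀ hun, one_smul] at this

theorem irr_grow [Finite K] [FiniteDimensional K V] (hq : q.polarBilin.Nondegenerate)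
    (h2 : (2 : K) ≠ 0) {N : Submodule F V} {U : Submodule K V} (hU : Nondeg q U)
    (h3 : 3 ≤ finrank K U) (hN : ∀ u ∈ U, ∀ y ∈ U, ∀ n ∈ N, eich q u y n ∈ N) {n a : V}
    (hn : n ∈ N) (ha : a ∈ U) (han : polar q n a ≠ 0) : ∀ y ∈ U, y ∈ N := by
  have key : ∀ u ∈ U, q u = 0 → ∀ n ∈ N, polar q u n ≠ 0 →
      (∀ k : K, k • u ∈ N) ∧ ∀ y ∈ U, polar q u y = 0 → y ∈ N := fun u hu h0 n hn hun => by
    obtain ⟨y, hy, hy'⟩ := hU.exists_Q_ne_of_lt hq (W := U ⊓ ort q u) inf_le_left (by
      have := finrank_le_inf_ort U u (Q := q); omega)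
    exact eich_grow h2 h0 (fun y hy _ => hN u hu y hy) hn hun hy.1 hy.2 hy'
  obtain ⟨u, hu, h0, hun⟩ := (hU.hasHyp h3).exists_sing_polar_ne ha han
  obtain ⟨k1, k2⟩ := key u hu h0 n hn (by rwa [polar_comm])
  let N' : Submodule K V :=
    { carrier := {v | ∀ k : K, k • v ∈ N}
      add_mem' := fun ha hb k => by rw [smul_add]; exact N.add_mem (ha k) (hb k)
      zero_mem' := fun k => by simp
      smul_mem' := fun a v hv k => by rw [smul_smul]; exact hv _ }
  intro y hy
  refine one_smul K y ▸ (hU.hasHyp h3).le_of_sing (T := N') (fun v hv h1 => ?_) hy 1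
  by_cases hc : ∃ n ∈ N, polar q v n ≠ 0
  · obtain ⟨n, hn, h⟩ := hc
    exact (key v hv h1 n hn h).1
  push Not at hc
  obtain ⟨a, rfl⟩ := hU.exists_smul hu hv fun z hz h => hc z (k2 z hz h)
  exact N'.smul_mem a k1

/-! ### rotations in a non-degenerate plane -/

/-- an orthogonal pair of non-singular vectors -/
structure OPair (q : QuadraticForm K V) (e₁ e₂ : V) (δ : K) : Prop where
  two : (2 : K) ≠ 0
  ne : q e₁ ≠ 0
  ne' : δ ≠ 0
  eq : q e₂ = δ * q e₁
  orth : polar q e₁ e₂ = 0

variable {e₁ e₂ : V} {δ : K}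

variable (q e₁ e₂ δ) in
/-- multiplication by `a + b √(-δ)` on the plane, identity on its complement -/
noncomputable def rotLin (a b : K) : V →ₗ[K] V :=
  LinearMap.id + (((a - 1) / (2 * q e₁)) • q.polarBilin e₁ -
    (b / (2 * q e₁)) • q.polarBilin e₂).smulRight e₁ +
    ((b / (2 * q e₁)) • q.polarBilin e₁ + ((a - 1) / (2 * q e₁ * δ)) • q.polarBilin e₂).smulRight e₂

theorem rotLin_apply (a b : K) (v : V) : rotLin q e₁ e₂ δ a b v =
    v + ((a - 1) / (2 * q e₁) * polar q e₁ v - b / (2 * q e₁) * polar q e₂ v) • e₁ +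
      (b / (2 * q e₁) * polar q e₁ v + (a - 1) / (2 * q e₁ * δ) * polar q e₂ v) • e₂ := rfl

namespace OPair

theorem mul (h : OPair q e₁ e₂ δ) (a b a' b' : K) (v : V) :
    rotLin q e₁ e₂ δ a b (rotLin q e₁ e₂ δ a' b' v) =
      rotLin q e₁ e₂ δ (a * a' - δ * (b * b')) (a * b' + b * a') v := by
  have := h.two; have := h.ne; have := h.ne'
  simp only [rotLin_apply, polar_add_right, polar_smul_right, polar_self', h.eq, h.orth, pc h.orth,
    smul_eq_mul]
  match_scalars <;> field_simp <;> ring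

theorem map_Q (h : OPair q e₁ e₂ δ) {a b : K} (hab : a * a + δ * (b * b) = 1) (v : V) :
    q (rotLin q e₁ e₂ δ a b v) = q v := by
  have := h.two; have := h.ne; have := h.ne'
  simp only [rotLin_apply, Q_add, Q_smul, polar_add_left, polar_smul_right, polar_smul_left, h.eq,
    h.orth, smul_eq_mul, polar_comm q v]
  field_simp
  linear_combination q e₁ * (δ * polar q e₁ v ^ 2 + polar q e₂ v ^ 2) * hab

theorem one (v : V) : rotLin q e₁ e₂ δ 1 0 v = v := by simp [rotLin_apply]

/-- the rotation group of the plane -/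
noncomputable def rot (h : OPair q e₁ e₂ δ) : unitary (QuadraticAlgebra K (-δ) 0) →* O q where
  toFun z :=
    have hz : z.1.re * z.1.re + δ * (z.1.im * z.1.im) = 1 := by
      have := QuadraticAlgebra.norm_eq_one_iff_mem_unitary.2 z.2
      rw [QuadraticAlgebra.norm_def] at this
      linear_combination this
    O.ofInv (rotLin q e₁ e₂ δ z.1.re z.1.im) (rotLin q e₁ e₂ δ z.1.re (-z.1.im)) (h.map_Q hz)
      (fun v => by rw [h.mul]; convert one v <;> [linear_combination hz; ring])
      (fun v => by rw [h.mul]; convert one v <;> [linear_combination hz; ring])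
  map_one' := O.ext fun v => one v
  map_mul' z z' := O.ext fun v => by
    simp only [O.mul_apply, O.ofInv_apply, h.mul]
    congr 2 <;> (simp; try ring)

theorem rot_apply (h : OPair q e₁ e₂ δ) (z : unitary (QuadraticAlgebra K (-δ) 0)) (v : V) :
    h.rot z v = rotLin q e₁ e₂ δ z.1.re z.1.im v := rfl

theorem rot_inv_apply (h : OPair q e₁ e₂ δ) (z : unitary (QuadraticAlgebra K (-δ) 0)) (v : V) :
    (h.rot z)⁻¹ v = rotLin q e₁ e₂ δ z.1.re (-z.1.im) v := rfl

theorem rot_fix (h : OPair q e₁ e₂ δ) (z : unitary (QuadraticAlgebra K (-δ) 0)) {v : V}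
    (h1 : polar q e₁ v = 0) (h2 : polar q e₂ v = 0) : h.rot z v = v := by
  simp [rot_apply, rotLin_apply, h1, h2]

theorem rot_sq_mem (h : OPair q e₁ e₂ δ) (z : unitary (QuadraticAlgebra K (-δ) 0)) :
    h.rot (z * z) ∈ commutator (O q) := by
  have : h.rot (z * z) = ⁅h.rot z, refl q e₁⁆ := by
    rw [map_mul, commutatorElement_def, mul_assoc, mul_assoc]
    congr 1
    ext v
    have := h.two; have := h.ne; have := h.ne'
    simp only [O.mul_apply, refl_inv, rot_inv_apply, rot_apply, rotLin_apply, refl_apply,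
      polar_add_right, polar_sub_right, polar_smul_right, polar_self', h.orth, pc h.orth,
      smul_eq_mul]
    match_scalars <;> field_simp <;> ring
  exact this ▸ Subgroup.commutator_mem_commutator (Subgroup.mem_top _) (Subgroup.mem_top _)

/-- the projection to the plane -/
theorem rot_add_inv (h : OPair q e₁ e₂ δ) (z : unitary (QuadraticAlgebra K (-δ) 0)) (v : V) :
    h.rot z v + (h.rot z)⁻¹ v - (2 : F) • v = (2 * (z.1.re - 1)) •
      ((polar q e₁ v / (2 * q e₁)) • e₁ + (polar q e₂ v / (2 * q e₁ * δ)) • e₂) := by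
  rw [rot_apply, rot_inv_apply, rotLin_apply, rotLin_apply, two_smul]
  match_scalars <;> ring

theorem pol_comb (h : OPair q e₁ e₂ δ) (s t : K) :
    polar q e₁ (s • e₁ + t • e₂) / (2 * q e₁) = s ∧
      polar q e₂ (s • e₁ + t • e₂) / (2 * q e₁ * δ) = t := by
  have := h.two; have := h.ne; have := h.ne'
  simp only [polar_add_right, polar_smul_right, polar_self', h.eq, h.orth, pc h.orth, smul_eq_mul]
  constructor <;> field_simp <;> ring

/-- A small `F`-subspace stable under a rotation with trace outside `F`. -/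
theorem orth_of_stable [FiniteDimensional F V] (hr : (finrank F K).Prime) (h : OPair q e₁ e₂ δ)
    (ht : TrQ Q q c) {z : unitary (QuadraticAlgebra K (-δ) 0)}
    (hz : ∀ s : F, algebraMap F K s ≠ z.1.re) {N : Submodule F V}
    (hN : finrank F N ≤ finrank F K) (hs : ∀ n ∈ N, h.rot z n ∈ N) {x : V} (hx : x ∈ N)
    (hx0 : x ≠ 0) (h1 : polar q e₁ x = 0) (h2 : polar q e₂ x = 0) {n : V} (hn : n ∈ N) :
    polar q e₁ n = 0 ∧ polar q e₂ n = 0 := by
  have h4 : ∀ n ∈ N, _ ∈ N := fun n hn => h.rot_add_inv (F := F) z n ▸ N.sub_mem (N.add_mem (hs n hn)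
    (inv_apply_mem_of_sstab (mem_sstab_of_le (g := ht.res (h.rot z)) hs) hn)) (N.smul_mem 2 hn)
  have hμ : ∀ s : F, algebraMap F K s ≠ 2 * (z.1.re - 1) := fun s e => hz (s / 2 + 1) (by
    rw [map_add, map_div₀, e, map_one, map_ofNat, mul_div_cancel_left₀ _ h.two, sub_add_cancel])
  have hμ0 : 2 * (z.1.re - 1) ≠ 0 := (map_zero (algebraMap F K) ▸ hμ 0).symm
  let U := (Submodule.span K {e₁, e₂}).restrictScalars F
  have hU : ∀ s t : K, s • e₁ + t • e₂ ∈ Submodule.span K {e₁, e₂} := fun s t =>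
    Submodule.mem_span_pair.2 ⟨s, t, rfl⟩
  have h5 := smul_mem_of_stable hr (N := N ⊓ U) hμ (fun v hv => ⟨by
    obtain ⟨s, t, rfl⟩ := Submodule.mem_span_pair.1 hv.2
    simpa only [(h.pol_comb s t).1, (h.pol_comb s t).2, SetLike.mem_coe] using h4 _ hv.1,
      (Submodule.span K {e₁, e₂}).smul_mem _ hv.2⟩)
  by_contra hc
  have h6 := eq_kl_of_le hN (w := _) (fun e => hc ?_) fun k =>
    (h5 k _ ⟨h4 n hn, (Submodule.span K {e₁, e₂}).smul_mem _ (hU _ _)⟩).1
  · rw [h6] at hx
    obtain ⟨k, rfl⟩ := mem_kl.1 hx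
    rw [smul_smul, smul_add, smul_smul, smul_smul] at h1 h2 hx0
    have e1 := (h.pol_comb _ _).1.symm.trans (by rw [h1, zero_div])
    have e2 := (h.pol_comb _ _).2.symm.trans (by rw [h2, zero_div])
    exact hx0 (by rw [e1, e2]; simp)
  · have e0 := (smul_eq_zero.1 e).resolve_left hμ0
    have e1 := (h.pol_comb _ _).1.symm.trans (by rw [e0, polar_zero_right, zero_div])
    have e2 := (h.pol_comb _ _).2.symm.trans (by rw [e0, polar_zero_right, zero_div])
    have := h.two; have := h.ne; have := h.ne'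
    simp_all

end OPair

/-! ### squares -/

theorem sq_not_mem (hr : (finrank F K).Prime) (h2 : finrank F K ≠ 2) {a : K}
    (ha : ∀ s : F, algebraMap F K s ≠ a) (s : F) : algebraMap F K s ≠ a * a := fun e => by
  have : FiniteDimensional F K := finite_of_finrank_pos hr.pos
  have h1 := smul_mem_of_stable hr (N := Submodule.span F {1, a}) ha (fun v hv => by
    obtain ⟨x, y, rfl⟩ := Submodule.mem_span_pair.1 hv
    exact Submodule.mem_span_pair.2 ⟨y * s, x, by
      simp only [Algebra.smul_def, map_mul, e, Algebra.algebraMap_self, RingHom.id_apply]; ring⟩)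
  have h3 : (⊤ : Submodule F K) ≤ Submodule.span F {1, a} := fun k _ => by
    simpa using h1 k 1 (Submodule.subset_span (by simp))
  have := (Submodule.finrank_mono h3).trans (finrank_span_pair_le 1 a)
  have := hr.two_le
  rw [finrank_top] at *
  omega

theorem exists_eq_mul_sq [Finite K] (hr : (finrank F K).Prime) (h2 : finrank F K ≠ 2)
    (ht : (2 : F) ≠ 0) {κ : K} (hκ : κ ≠ 0) :
    ∃ (s : F) (k : K), s ≠ 0 ∧ k ≠ 0 ∧ κ = s • (k * k) := by
  classical
  have : Finite F := Finite.of_injective _ (algebraMap F K).injective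
  have := Fintype.ofFinite K
  by_cases h : IsSquare κ
  · obtain ⟨k, rfl⟩ := h
    exact ⟨1, k, one_ne_zero, left_ne_zero_of_mul hκ, (one_smul _ _).symm⟩
  obtain ⟨s, hs⟩ := FiniteField.exists_nonsquare (F := F) fun e =>
    ht (by exact_mod_cast (ringChar.spec F 2).2 (e ▸ dvd_rfl))
  have h0 : s ≠ 0 := by rintro rfl; exact hs IsSquare.zero
  have h1 : ¬ IsSquare (algebraMap F K s) := by
    rintro ⟨a, ha⟩
    refine sq_not_mem hr h2 (fun t e => hs ⟨t, (algebraMap F K).injective ?_⟩) s ha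
    rw [map_mul, e, ha]
  obtain ⟨k, hk⟩ : IsSquare (algebraMap F K s * κ) := by
    rw [← quadraticChar_one_iff_isSquare (by simp [h0, hκ]), map_mul,
      quadraticChar_neg_one_iff_not_isSquare.2 h, quadraticChar_neg_one_iff_not_isSquare.2 h1]
    simp
  refine ⟨s⁻¹, k, inv_ne_zero h0, ?_, by rw [← hk, ← Algebra.smul_def, inv_smul_smul₀ h0]⟩
  rintro rfl
  simp [h0, hκ] at hk

theorem isSquare_of_two [Finite K] (h2 : finrank F K = 2) (ht : (2 : K) ≠ 0) (s : F) :
    IsSquare (algebraMap F K s) := by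
  have : Finite F := Finite.of_injective _ (algebraMap F K).injective
  have := Fintype.ofFinite K
  have := Fintype.ofFinite F
  by_cases h0 : s = 0
  · simp [h0]
  have h1 : ringChar K ≠ 2 := fun e => ht (by exact_mod_cast (ringChar.spec K 2).2 (e ▸ dvd_rfl))
  have h3 := FiniteField.odd_card_of_char_ne_two h1
  rw [FiniteField.isSquare_iff h1 (by simpa), ← map_pow]
  rw [Module.card_eq_pow_finrank (K := F), h2] at h3 ⊢
  obtain ⟨j, hj⟩ : Odd (Fintype.card F) := (Nat.odd_pow_iff two_ne_zero).1 (Nat.odd_iff.2 h3)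
  rw [show Fintype.card F ^ 2 / 2 = (Fintype.card F - 1) * (j + 1) by
    rw [hj, show (2 * j + 1) ^ 2 = 1 + 2 * (2 * j * (j + 1)) by ring]; simp; omega, pow_mul,
    FiniteField.pow_card_sub_one_eq_one s h0, one_pow, map_one]

theorem mem_of_two (h2 : finrank F K = 2) {T : Submodule F K} {a b : K} (ha : a ∈ T) (hb : b ∈ T)
    (h0 : a ≠ 0) (h : b ∉ F ∙ a) (k : K) : k ∈ T := by
  have : FiniteDimensional F K := finite_of_finrank_pos (by omega)
  have h1 : (F ∙ a) < T := lt_of_le_of_ne ((Submodule.span_singleton_le_iff_mem _ _).2 ha)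
    fun e => h (e ▸ hb)
  have h3 := Submodule.finrank_lt_finrank_of_lt h1
  rw [finrank_span_singleton h0] at h3
  exact Submodule.eq_top_of_finrank_eq (le_antisymm (Submodule.finrank_le T) (by omega)) ▸
    Submodule.mem_top

/-- the rational parametrisation of the rotation group -/
noncomputable def rotPar (δ : K) {t : K} (ht : 1 + δ * (t * t) ≠ 0) :
    unitary (QuadraticAlgebra K (-δ) 0) :=
  ⟨⟨(1 - δ * (t * t)) / (1 + δ * (t * t)), 2 * t / (1 + δ * (t * t))⟩,
    QuadraticAlgebra.norm_eq_one_iff_mem_unitary.1 (by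
      rw [QuadraticAlgebra.norm_def]
      have : (1 + δ * (t * t)) * (1 + δ * (t * t))⁻¹ = 1 := mul_inv_cancel₀ ht
      simp only [div_eq_mul_inv]
      linear_combination ((1 + δ * (t * t)) * (1 + δ * (t * t))⁻¹ + 1) * this)⟩

theorem unit_norm (z : unitary (QuadraticAlgebra K (-δ) 0)) :
    z.1.re * z.1.re + δ * (z.1.im * z.1.im) = 1 := by
  have := QuadraticAlgebra.norm_eq_one_iff_mem_unitary.2 z.2
  rw [QuadraticAlgebra.norm_def] at this
  linear_combination this

theorem re_sq (z : unitary (QuadraticAlgebra K (-δ) 0)) :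
    (z * z).1.re = 2 * (z.1.re * z.1.re) - 1 := by
  rw [← unit_norm z]; simp; ring

theorem exists_rot (hr : (finrank F K).Prime) (h2 : finrank F K ≠ 2) (ht : (2 : K) ≠ 0)
    (hδ : δ ≠ 0) : ∃ z : unitary (QuadraticAlgebra K (-δ) 0),
      ∀ s : F, algebraMap F K s ≠ (z * z).1.re := by
  obtain ⟨t, h⟩ : ∃ t : K, ∀ s : F, algebraMap F K s ≠ δ * (t * t) := by
    by_cases hc : ∃ s : F, algebraMap F K s = δ
    · obtain ⟨d, rfl⟩ := hc
      obtain ⟨k, hk⟩ := exists_not_mem_bot (F := F) (K := K) (V := K) hr.one_lt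
      refine ⟨k, fun s e => sq_not_mem hr h2 (a := k) (fun s e => hk s fun v => ?_) (s / d) ?_⟩
      · rw [← e, algebraMap_smul]
      · rw [map_div₀, e, mul_div_cancel_left₀ _ hδ]
    · exact ⟨1, by simpa using hc⟩
  have h1 : 1 + δ * (t * t) ≠ 0 := fun e => h (-1) (by simp; linear_combination -e)
  refine ⟨rotPar δ h1, fun s e => sq_not_mem hr h2 (a := (rotPar δ h1).1.re) (fun u e => ?_)
    ((s + 1) / 2) ?_⟩
  · have h3 : algebraMap F K u * (1 + δ * (t * t)) = 1 - δ * (t * t) := by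
      rw [e]; exact div_mul_cancel₀ _ h1
    have h4 : 1 + algebraMap F K u ≠ 0 := fun e => ht (by linear_combination (1 + δ * (t * t)) * e - h3)
    refine h ((1 - u) / (1 + u)) ?_
    rw [map_div₀, map_sub, map_add, map_one, div_eq_iff h4]
    linear_combination -h3
  · rw [map_div₀, map_add, e, re_sq, map_one, map_ofNat, sub_add_cancel, mul_div_cancel_left₀ _ ht]

end H91
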