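/- Overgroups of `Ω(V, K)` in `O(V, F)` containing an Eichler line based at a `K`-singular vector. -/
import Cfsg.Agent.H91.OFBase
import Cfsg.Agent.H56.OmegaGen

set_option autoImplicit false
set_option linter.unusedSectionVars false

namespace H91

open QuadraticMap H56 H60 H62 Module

variable {F K V : Type*} [Field F] [Field K] [Algebra F K] [AddCommGroup V] [Module F V]
  [Module K V] [IsScalarTower F K V] {Q : QuadraticForm F V} {q : QuadraticForm K V} {c : Dual F K}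

/-- `M` contains the derived group of the orthogonal group over `K`. -/
structure Ctx (Q : QuadraticForm F V) (q : QuadraticForm K V) (c : Dual F K) (M : Subgroup (O Q)) :
    Prop extends TrQ Q q c where
  hr : (finrank F K).Prime
  h3 : 3 ≤ finrank K V
  mem : ∀ g ∈ commutator (O q), toTrQ.res g ∈ M

variable [Finite K] [FiniteDimensional K V] [FiniteDimensional F V] {M : Subgroup (O Q)}
  {w u v x y : V}

namespace Ctx

theorem EG_mem (h : Ctx Q q c M) {g : O q} (hg : g ∈ EG q) : h.res g ∈ M :=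
  h.mem g (EG_le_commutator h.nd (not_isExc_of_two_ne h.two) hg)

theorem eich_mem (h : Ctx Q q c M) (u y : V) : h.res (eich q u y) ∈ M := h.EG_mem (eich_mem_EG u y)

theorem tor_mem (h : Ctx Q q c M) (hw : IsHyp q w u) {k : K} (hk : k ≠ 0) :
    h.res (tor q w u (k * k)) ∈ M := h.EG_mem (hw.tor_sq_mem_EG h.nd h.h3 hk)

theorem fd (h : Ctx Q q c M) : FiniteDimensional F K := finite_of_finrank_pos h.hr.pos

theorem five (h : Ctx Q q c M) : 5 ≤ finrank F V := by
  have := finrank_mul_finrank F K V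
  have := h.hr.two_le
  have := h.h3
  nlinarith

theorem Q_kw (h : Ctx Q q c M) (hw : q w = 0) (k : K) : Q (k • w) = 0 :=
  h.kl_ts hw (smul_mem_kl k w)

theorem eich_AS (h : Ctx Q q c M) (u y : V) (hu : polar q u w = 0) (hy : polar q y w = 0)
    (hv : v ∈ AS M w) : eich q u y v ∈ AS M w :=
  apply_mem_AS_of_fix (h.eich_mem u y) (eich_apply_of_orth_orth hu hy) hv

theorem grow_AS (h : Ctx Q q c M) (hw : IsHyp q w u) (hv : v ∈ AS M w) (h0 : polar q w v ≠ 0) :
    (∀ k : K, k • w ∈ AS M w) ∧ ∀ y, polar q w y = 0 → y ∈ AS M w := by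
  obtain ⟨y, h1, -, h2⟩ := hw.exists_perp_Q_ne h.nd h.h3
  have := eich_grow (N := AS M w) (U := ⊤) h.two hw.qe
    (fun y _ hy n hn => h.eich_AS w y hw.ee (pc hy) hn) hv h0 trivial h1 h2
  exact ⟨this.1, fun y => this.2 y trivial⟩

theorem kl_le_AS (h : Ctx Q q c M) (hw : q w = 0) (hw0 : w ≠ 0) (hv : v ∈ AS M w)
    (hv' : v ∉ F ∙ w) (k : K) : k • w ∈ AS M w := by
  obtain ⟨u, hu⟩ := exists_isHyp h.nd hw0 hw
  by_cases h0 : polar q w v ≠ 0
  · exact (h.grow_AS hu hv h0).1 k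
  push Not at h0
  by_cases h1 : v ∉ kl F K w
  · obtain ⟨y, h2, h3⟩ := exists_pol_eq h.nd h1 k
    have := h.eich_AS w y hu.ee (pc h2) hv
    rwa [eich_apply_of_orth hw h2 h0, h3, Submodule.add_mem_iff_right _ hv] at this
  push Not at h1
  obtain ⟨κ, rfl⟩ := mem_kl.1 h1
  have hκ : ∀ s : F, algebraMap F K s ≠ κ := fun s e =>
    hv' (Submodule.mem_span_singleton.2 ⟨s, by rw [← e, algebraMap_smul]⟩)
  let T : Submodule F K := (AS M w).comap ((LinearMap.toSpanSingleton K V w).restrictScalars F)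
  have hT : ∀ k, k ∈ T ↔ k • w ∈ AS M w := fun k => Iff.rfl
  have h1 : (1 : K) ∈ T := by rw [hT, one_smul]; exact self_mem_AS M (by simpa using h.Q_kw hw 1)
  by_cases hr : finrank F K = 2
  · exact mem_of_two (T := T) hr h1 hv one_ne_zero (fun e => by
      obtain ⟨s, hs⟩ := Submodule.mem_span_singleton.1 e
      exact hκ s (by rw [← hs, Algebra.algebraMap_eq_smul_one])) k
  have hinv : ∀ t ∈ T.toAddSubgroup, t⁻¹ ∈ T.toAddSubgroup := fun t ht => by
    by_cases h0 : t = 0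
    · simp [h0]
    obtain ⟨s, l, hs, hl, rfl⟩ := exists_eq_mul_sq h.hr hr h.two' h0
    have h2 := apply_mem_AS (h.tor_mem hu (inv_ne_zero hl))
      (AS_swap (by simpa using h.Q_kw hw 1) (h.Q_kw hw _) ((hT _).1 ht))
    simp only [TrQ.res_apply, map_smul, tor_apply_e hu (mul_ne_zero (inv_ne_zero hl) (inv_ne_zero hl)),
      smul_smul] at h2
    rw [show s • (l * l) * (l⁻¹ * l⁻¹) = s • (1 : K) by rw [smul_mul_assoc]; congr 1; field_simp,
      smul_one_smul, AS_smul M hs] at h2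
    have := T.smul_mem s⁻¹ ((hT _).2 h2)
    rwa [smul_inv₀, mul_inv]
  refine subalg_cases h.hr
    { carrier := T
      mul_mem' := fun {a b} ha hb => ?_
      add_mem' := T.add_mem
      algebraMap_mem' := fun s => by rw [Algebra.algebraMap_eq_smul_one]; exact T.smul_mem s h1 }
    hv hκ k
  have e := fun a (ha : a ∈ T) => hua_mem hinv ha h1
  have := T.smul_mem (2⁻¹ : F) (T.sub_mem (T.sub_mem (e _ (T.add_mem ha hb)) (e _ ha)) (e _ hb))
  rwa [show (a + b) * (a + b) * 1 - a * a * 1 - b * b * 1 = (2 : F) • (a * b) by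
    rw [two_smul]; ring, inv_smul_smul₀ h.two'] at this

theorem kl_le_AS_all (h : Ctx Q q c M) (hw : q w = 0) (hw0 : w ≠ 0) (hv : v ∈ AS M w)
    (hv' : v ∉ F ∙ w) (hu : q u = 0) (hu0 : u ≠ 0) (k : K) : k • u ∈ AS M u := by
  obtain ⟨g, hg, κ, hκ, e⟩ := exists_EG_apply_eq_smul h.nd h.h3 hw0 hw hu0 hu
  have h1 : ∀ k : K, k • u ∈ AS M (κ • u) := fun k => by
    have := apply_mem_AS (h.EG_mem hg) (h.kl_le_AS hw hw0 hv hv' (k / κ))
    rwa [TrQ.res_apply, TrQ.res_apply, map_smul, e, smul_smul, div_mul_cancel₀ _ hκ] at this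
  by_cases hc : κ • u ∈ F ∙ u
  · obtain ⟨s, hs⟩ := Submodule.mem_span_singleton.1 hc
    rw [← AS_smul M (c := s) (by rintro rfl; simp [eq_comm, hκ, hu0] at hs), hs]
    exact h1 k
  · exact h.kl_le_AS hu hu0 (AS_swap (h.Q_kw hu κ) (by simpa using h.Q_kw hu 1)
      (by simpa using h1 1)) hc k

theorem eich_kl_mem (h : Ctx Q q c M) (hA : ∀ u, q u = 0 → u ≠ 0 → ∀ k : K, k • u ∈ AS M u)
    (hu : q u = 0) (hu0 : u ≠ 0) (a b : K) : eich Q (a • u) (b • u) ∈ M := by
  by_cases ha : a = 0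
  · simp [ha]
  simpa [smul_smul, ha] using
    eich_mem_of_AS (hA (a • u) (by simp [Q_smul, hu]) (smul_ne_zero ha hu0) (b / a))

theorem eich_kl_apply (h : TrQ Q q c) (hu : q u = 0) (a b : K) (x : V) :
    eich Q (a • u) (b • u) x = x + (c (b * polar q u x) • a - c (a * polar q u x) • b) • u := by
  have h1 := h.kl_ts hu (smul_mem_kl b u)
  rw [eich_apply (h.kl_ts hu (smul_mem_kl a u)) (by simp [h.pol, pself hu]), h.pol_smul, h.pol_smul,
    h1]
  simp only [sub_smul, smul_assoc]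
  module

theorem full_odd (h : Ctx Q q c M) (hr : finrank F K ≠ 2)
    (hA : ∀ u, q u = 0 → u ≠ 0 → ∀ k : K, k • u ∈ AS M u) (hw : q w = 0) (hw0 : w ≠ 0) :
    Full M w := by
  have := h.fd
  obtain ⟨u, hu⟩ := exists_isHyp h.nd hw0 hw
  have key : ∀ a : K, c a = 0 → ∃ θ : K, θ • w + a • u ∈ AS M w := fun a ha => by
    obtain ⟨b, hb, hb'⟩ := exists_mem_not_mem_of_finrank_lt (A := F ∙ a) (B := ⊤ ⊓ LinearMap.ker c) (by
      have := finrank_le_inf_ker (⊤ : Submodule F K) c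
      have := finrank_span_singleton_le (F := F) a
      have := h.hr.two_le
      rw [finrank_top] at *
      omega)
    obtain ⟨φ, h1, h2⟩ := exists_dual_eq_one hb'
    obtain ⟨θ, hθ⟩ := exists_eq_mul h.ne φ
    refine ⟨θ, ?_⟩
    have := apply_mem_AS_of_fix (h.eich_kl_mem hA hu.qf hu.symm.ne_zero a b) (by
      simp [eich_kl_apply h.toTrQ hu.qf, hu.fe, ha, show c b = 0 from hb.2]) (hA w hw hw0 θ)
    rwa [eich_kl_apply h.toTrQ hu.qf, polar_smul_right, hu.fe, smul_eq_mul, mul_one, mul_comm b,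
      mul_comm a, ← hθ, ← hθ, h1, h2 a (Submodule.mem_span_singleton_self a), one_smul, zero_smul,
      sub_zero] at this
  obtain ⟨a, -, ha, ha'⟩ := exists_mem_notMem_ker (F := F) (V := K) [c] (W := ⊤) (Z := ⊥)
    (by simpa using h.hr.one_lt)
  obtain ⟨θ, hθ⟩ := key a (ha' c (by simp))
  have h1 := h.grow_AS hu hθ (by simpa [hu.ee, hu.ef] using ha)
  refine full_of_ort_le fun x hx => ?_
  obtain ⟨θ, hθ⟩ := key (polar q w x) (h.pol w x ▸ hx)
  have := (AS M w).add_mem hθ (h1.2 (x - polar q w x • u - θ • w) (by simp [hu.ee, hu.ef]))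
  convert this using 1
  abel

theorem le_of_full (h : Ctx Q q c M) (hF : ∀ w, q w = 0 → w ≠ 0 → Full M w) :
    commutator (O Q) ≤ M := by
  have : Finite F := Finite.of_injective _ (algebraMap F K).injective
  obtain ⟨w, -, hw0, hw⟩ := exists_sing (Q := q) ⊤ (by simpa using h.h3)
  obtain ⟨u, hu⟩ := exists_isHyp h.nd hw0 hw
  obtain ⟨k, hk⟩ := exists_dual_apply_eq_one h.ne
  have hk0 : k ≠ 0 := by rintro rfl; simp at hk
  exact commutator_le_of_full₂ h.nondeg h.five (hF (k • w) (by simp [Q_smul, hw])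
    (smul_ne_zero hk0 hw0)) (hF u hu.qf hu.symm.ne_zero) (h.Q_kw hw k)
    (by simpa using h.Q_kw hu.qf 1) (by simp [h.pol_smul, hu.ef, hk])

theorem not_le_kl (h : TrQ Q q c) {N : Submodule F V} (hN : finrank F N = finrank F K)
    (hs : ∀ n ∈ N, Q n = 0) (hx : q x ≠ 0) : ∃ n ∈ N, n ∉ kl F K x := by
  by_contra! hc
  obtain ⟨k, hk⟩ := h.exists_Q_ne hx
  have := Submodule.eq_of_le_of_finrank_eq hc (by
    rw [hN, finrank_kl (by rintro rfl; simp at hx)])
  exact hk (hs _ (this ▸ smul_mem_kl k x))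

theorem grow_ort (h : TrQ Q q c) (h4 : 4 ≤ finrank K V) {N : Submodule F V} (hx : q x ≠ 0)
    (hN : ∀ u y, polar q x u = 0 → polar q x y = 0 → ∀ n ∈ N, eich q u y n ∈ N) {n : V}
    (hn : n ∈ N) (hn' : n ∉ kl F K x) (hy : polar q x y = 0) : y ∈ N := by
  obtain ⟨a, ha, han⟩ := exists_pol_eq h.nd hn' 1
  refine irr_grow h.nd h.two (U := ⊤ ⊓ ort q x) ((nondeg_top h.nd).inf_ort trivial (by
    simp [h.two, hx])) (by
      have := finrank_le_inf_ort (Q := q) ⊤ x
      rw [finrank_top] at this; omega) (fun u hu y hy => hN u y hu.2 hy.2) hn ⟨trivial, ha⟩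
    (by rw [polar_comm, han]; exact one_ne_zero) y ⟨trivial, hy⟩

theorem le_of_two (h : Ctx Q q c M) (hr : finrank F K = 2) (h4 : 4 ≤ finrank K V)
    (hA : ∀ u, q u = 0 → u ≠ 0 → ∀ k : K, k • u ∈ AS M u) : commutator (O Q) ≤ M := by
  have : Finite F := Finite.of_injective _ (algebraMap F K).injective
  obtain ⟨w, -, hw0, hw⟩ := exists_sing (Q := q) ⊤ (by simpa using h.h3)
  obtain ⟨u, hu⟩ := exists_isHyp h.nd hw0 hw
  obtain ⟨θ, hθ⟩ := exists_not_mem_bot (F := F) (K := K) (V := K) h.hr.one_lt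
  have hθ' : θ ∉ F ∙ (1 : K) := fun e => by
    obtain ⟨s, rfl⟩ := Submodule.mem_span_singleton.1 e
    exact hθ s fun v => by simp
  have ht := h.eich_kl_mem hA hu.qf hu.symm.ne_zero 1 θ
  set t := eich Q ((1 : K) • u) (θ • u) with ht'
  obtain ⟨μ, hμ, hz⟩ : ∃ μ : K, μ ≠ 0 ∧ t w = w + μ • u := by
    refine ⟨_, fun e => ?_, eich_kl_apply h.toTrQ hu.qf _ _ _⟩
    simp only [hu.fe, mul_one, sub_eq_zero] at e
    have h1 : c 1 = 0 := by
      by_contra h1
      exact hθ' (Submodule.mem_span_singleton.2 ⟨(c 1)⁻¹ * c θ, by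
        rw [mul_smul, e, inv_smul_smul₀ h1]⟩)
    refine h.ne (LinearMap.ext (mem_of_two (T := LinearMap.ker c) hr h1 ?_ one_ne_zero hθ'))
    simpa [h1] using e
  have hq : q (t w) = μ := by rw [hz, hu.Q_add_smul]
  have hQ : Q (t w) = 0 := by simpa using h.Q_kw hw 1
  obtain ⟨n, hn, hn'⟩ := not_le_kl h.toTrQ (N := img t (kl F K w)) (x := t w)
    (by rw [finrank_img, finrank_kl hw0]) (fun n hn => by
      simpa using h.kl_ts hw (mem_img.1 hn)) (hq ▸ hμ)
  have hn2 : n ∈ AS M (t w) := by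
    rw [← img_AS ht]
    refine img_mono t (fun v hv => ?_) hn
    obtain ⟨k, rfl⟩ := mem_kl.1 hv
    exact hA w hw hw0 k
  have h1 := fun y => grow_ort (y := y) h.toTrQ h4 (hq ▸ hμ)
    (fun u y hu hy n hn => h.eich_AS u y (pc hu) (pc hy) hn) hn2 hn'
  have h2 : 2 * μ ≠ 0 := mul_ne_zero h.two hμ
  have hF : Full M (t w) := full_of_ort_le fun x hx => by
    have h3 : polar q (t w) x / (2 * μ) ∈ F ∙ (1 : K) := by
      by_contra hc
      refine h2 (h.zero_of (mem_of_two (T := LinearMap.ker (c ∘ₗ LinearMap.mulRight F (2 * μ))) hr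
        ?_ ?_ one_ne_zero hc))
      · simpa [polar_self', hQ, hq] using (h.pol (t w) (t w)).symm
      · exact (congrArg c (div_mul_cancel₀ _ h2)).trans ((h.pol _ _).symm.trans hx)
    obtain ⟨s, hs⟩ := Submodule.mem_span_singleton.1 h3
    have := (AS M (t w)).add_mem (h1 (x - (polar q (t w) x / (2 * μ)) • t w) (by
      simp [hq, h2])) (Submodule.smul_mem _ s (self_mem_AS M hQ))
    rwa [← hs, smul_one_smul, sub_add_cancel] at this
  obtain ⟨y, h3, h5, h6⟩ := hu.exists_perp_Q_ne h.nd h.h3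
  obtain ⟨k, hk⟩ := h.exists_Q_ne (a := μ • y) (by simp [Q_smul, hμ, h6])
  refine commutator_le_of_full h.nondeg h.five hF hQ (h.eich_mem w (k • y)) fun e => hk ?_
  have h7 : c (2 * μ) = 0 := by simpa [polar_self', hQ, hq] using (h.pol (t w) (t w)).symm
  rw [h.pol, TrQ.res_apply, eich_apply hw (by simp [h3]), hz] at e
  simp only [polar_add_left, polar_add_right, polar_sub_right, polar_smul_left, polar_smul_right,
    hu.ee, hu.ff, hu.ef, hu.fe, h3, h5, pc h3, pc h5, smul_eq_mul, Q_smul] at e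
  rw [h.eq, Q_smul, Q_smul, ← sub_eq_zero.2 (h7.trans e.symm), ← map_sub]
  congr 1; ring

/-- An Eichler line over `F` based at a `K`-singular vector generates everything. -/
theorem le_of_AS (h : Ctx Q q c M) (h4 : finrank F K = 2 → 4 ≤ finrank K V) (hw : q w = 0)
    (hw0 : w ≠ 0) (hv : v ∈ AS M w) (hv' : v ∉ F ∙ w) : commutator (O Q) ≤ M := by
  have hA := fun u => h.kl_le_AS_all (u := u) hw hw0 hv hv'
  by_cases hr : finrank F K = 2
  · exact h.le_of_two hr (h4 hr) hA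
  · exact h.le_of_full fun w => h.full_odd hr hA

end Ctx

end H91
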