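/- Elements of an overgroup of `Ω(V, K)` fixing the perp of a singular `K`-point. -/
import Cfsg.Agent.H91.OFAS

set_option autoImplicit false
set_option linter.unusedSectionVars false

namespace H91

open QuadraticMap H56 H60 H62 Module

variable {F K V : Type*} [Field F] [Field K] [Algebra F K] [AddCommGroup V] [Module F V]
  [Module K V] [IsScalarTower F K V] {Q : QuadraticForm F V} {q : QuadraticForm K V} {c : Dual F K}
  {M : Subgroup (O Q)} {w u v x y : V}

/-- the maps `ζ` such that `x ↦ x + ζ (w, x) w` is in `M` -/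
def ZM (M : Subgroup (O Q)) (hw : q w = 0) : AddSubgroup (K →ₗ[F] K) where
  carrier := {ζ | ∃ e ∈ M, ∀ x, e x = x + ζ (polar q w x) • w}
  zero_mem' := ⟨1, M.one_mem, fun x => by simp⟩
  add_mem' := by
    rintro a b ⟨e, he, h⟩ ⟨e', he', h'⟩
    exact ⟨e * e', M.mul_mem he he', fun x => by simp [h, h', pself hw, add_smul]; abel⟩
  neg_mem' := by
    rintro a ⟨e, he, h⟩
    exact ⟨e⁻¹, M.inv_mem he, fun x => by rw [O.inv_apply_eq, h]; simp [pself hw]⟩

variable (q) in
/-- only the identity fixes the perp of `w` pointwise -/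
def Z0 (M : Subgroup (O Q)) (w : V) : Prop := ∀ e ∈ M, (∀ y, polar q w y = 0 → e y = y) → e = 1

theorem TrQ.alt (h : TrQ Q q c) (hu : IsHyp q w u) {ζ : K →ₗ[F] K} (hζ : ζ ∈ ZM M hu.qe) (a : K) :
    c (a * ζ a) = 0 := by
  obtain ⟨e, -, he⟩ := hζ
  have := e.map_Q (a • u)
  rwa [he, h.kl_ts hu.qf (smul_mem_kl a u), h.eq, hu.symm.Q_comb, polar_smul_right, hu.ef,
    smul_eq_mul, mul_one] at this

theorem TrQ.skew (h : TrQ Q q c) (hu : IsHyp q w u) {ζ : K →ₗ[F] K} (hζ : ζ ∈ ZM M hu.qe)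
    (a b : K) : c (a * ζ b) = -c (b * ζ a) := by
  have := h.alt hu hζ (a + b)
  simp only [map_add, mul_add, add_mul, h.alt hu hζ] at this
  linear_combination this

theorem TrQ.z0_or (h : TrQ Q q c) (M : Subgroup (O Q)) (hu : IsHyp q w u) :
    Z0 q M w ∨ ∃ ζ ∈ ZM M hu.qe, ζ ≠ 0 := by
  by_contra! hc
  refine hc.1 fun e he hy => ?_
  have key : ∀ x, e x = x + polar q u (e (polar q w x • u)) • w := fun x => by
    obtain ⟨a, ha⟩ := exists_smul_of_orth h.nd (x := w) (z := e (polar q w x • u) - polar q w x • u)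
      fun y h0 => h.zero_of fun k => by
        rw [← smul_eq_mul, ← polar_smul_right, ← h.pol, polar_sub_left]
        conv_lhs => enter [1]; rw [← hy (k • y) (by simp [h0]), e.map_polar]
        exact sub_self _
    have h1 := hy (x - polar q w x • u) (by simp [hu.ef])
    rw [map_sub, sub_eq_iff_eq_add] at h1
    rw [sub_eq_iff_eq_add] at ha
    rw [h1, ha]
    simp [hu.fe, hu.ff]
  have := hc.2 ((q.polarBilin u).restrictScalars F ∘ₗ e.lin ∘ₗ
    (LinearMap.toSpanSingleton K V u).restrictScalars F) ⟨e, he, key⟩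
  ext x
  rw [key, show polar q u (e (polar q w x • u)) = 0 from LinearMap.congr_fun this _]
  simp

theorem TrQ.pol_fix (h : TrQ Q q c) {e : O Q} (he : ∀ k : K, e (k • w) = k • w) (x : V) :
    polar q w (e x) = polar q w x :=
  dual_mul_ext h.ne fun k => by rw [← h.pol_smul, ← h.pol_smul, ← e.map_polar _ x, he]

theorem skew_eq_zero [Finite K] (hr : (finrank F K).Prime) (h2 : (2 : F) ≠ 0)
    (ω : K →ₗ[F] K →ₗ[F] F) (hs : ∀ a b, ω a b = -ω b a) {κ : K}
    (hκ : ∀ s : F, algebraMap F K s ≠ κ) (l : K → F)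
    (hl : ∀ a b, ω (κ * a) b - ω a (κ * b) = l (a * b)) (a b : K) : ω a b = 0 := by
  have := Fintype.ofFinite K
  have h1 : ∀ (n : ℕ) a b, ω (κ ^ (n + 1) * a) b - ω a (κ ^ (n + 1) * b) =
      ((n + 1 : ℕ) : F) * l (κ ^ n * (a * b)) := fun n => by
    induction n with
    | zero => simpa using hl
    | succ n ih =>
      intro a b
      have e1 := ih (κ * a) b
      have e2 := hl a (κ ^ (n + 1) * b)
      rw [show κ ^ (n + 1) * (κ * a) = κ ^ (n + 1 + 1) * a by ring,
        show κ ^ n * (κ * a * b) = κ ^ (n + 1) * (a * b) by ring] at e1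
      rw [show κ * (κ ^ (n + 1) * b) = κ ^ (n + 1 + 1) * b by ring,
        show a * (κ ^ (n + 1) * b) = κ ^ (n + 1) * (a * b) by ring] at e2
      push_cast at e1 ⊢
      linear_combination e1 + e2
  have h3 := h1 (Fintype.card K - 1)
  rw [Nat.sub_add_cancel Fintype.card_pos, FiniteField.pow_card, show ((Fintype.card K : ℕ) : F) = 0
    from (algebraMap F K).injective (by simp)] at h3
  have h4 := subalg_cases hr
    { carrier := {k | ∀ a b, ω (k * a) b = ω a (k * b)}
      mul_mem' := fun {k l} hk hl a b => by rw [mul_assoc, hk, hl, mul_left_comm, mul_assoc]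
      add_mem' := fun {k l} hk hl a b => by simp [add_mul, hk a b, hl a b]
      algebraMap_mem' := fun s a b => by simp [← Algebra.smul_def] }
    (fun a b => sub_eq_zero.1 (by simpa using h3 a b)) hκ
  have e1 : ω (a * 1) b = ω 1 (a * b) := h4 a 1 b
  have e2 : ω (b * 1) a = ω 1 (b * a) := h4 b 1 a
  rw [mul_one, mul_comm] at e2
  rw [mul_one] at e1
  have := hs a b
  exact (mul_eq_zero.1 (by linear_combination e1 + this - e1 + (e1 - e2)  : 2 * ω a b = 0)).resolve_left h2

variable [Finite K] [FiniteDimensional K V] [FiniteDimensional F V]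

namespace Ctx

theorem tor_Z (h : Ctx Q q c M) (hu : IsHyp q w u) {ζ : K →ₗ[F] K} (hζ : ζ ∈ ZM M hu.qe) (k : K) :
    LinearMap.mulLeft F (k * k) ∘ₗ ζ ∘ₗ LinearMap.mulLeft F (k * k) ∈ ZM M hu.qe := by
  by_cases hk : k = 0
  · simp [hk]
  obtain ⟨e, he, hx⟩ := hζ
  have ht := h.tor_mem hu hk
  refine ⟨_, M.mul_mem (M.mul_mem ht he) (M.inv_mem ht), fun x => ?_⟩
  simp [hx, ← map_inv, ← O.polar_apply_left, tor_apply_e hu (mul_ne_zero hk hk), smul_smul, mul_assoc,
    mul_comm (ζ _)]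

theorem tv_Z (h : TrQ Q q c) (hu : IsHyp q w u) {ζ : K →ₗ[F] K} (hζ : ζ ∈ ZM M hu.qe) {ε δ : K}
    {g : O Q} (hg : g ∈ M) (hgx : ∀ k : K, g (k • w) = (k + c (ε * k) • δ) • w) :
    eich Q (ζ ε • w) (δ • w) ∈ M := by
  have hs := h.skew hu hζ
  have ha := h.alt hu hζ ε
  obtain ⟨e, he, hx⟩ := hζ
  have : eich Q (ζ ε • w) (δ • w) * e = g * e * g⁻¹ := O.ext fun x => by
    have h1 : polar q w (g⁻¹ x) = polar q w x + c (δ * polar q w x) • ε :=
      dual_mul_ext h.ne fun k => by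
        rw [← h.pol_smul, ← O.polar_apply_left, hgx, h.pol_smul]
        simp [add_mul, mul_add, mul_comm]
    simp only [O.mul_apply, hx, map_add, O.apply_inv_apply, eich_kl_apply h hu.qe, h1, hgx,
      polar_add_right, polar_smul_right, hu.ee, smul_zero, add_zero, map_smul, mul_add,
      mul_smul_comm, ha, hs ε (polar q w x), mul_comm (ζ ε), neg_smul]
    module
  have h2 := M.mul_mem (M.mul_mem (M.mul_mem hg he) (M.inv_mem hg)) (M.inv_mem he)
  rwa [← this, mul_inv_cancel_right] at h2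

theorem le_of_Z_two (h : Ctx Q q c M) (hr : finrank F K = 2) (h4 : 4 ≤ finrank K V)
    (hu : IsHyp q w u) {ζ : K →ₗ[F] K} (hζ : ζ ∈ ZM M hu.qe) (h0 : ζ ≠ 0) :
    commutator (O Q) ≤ M := by
  obtain ⟨ε, hε⟩ : ∃ ε, ζ ε ≠ 0 := by
    by_contra! hc; exact h0 (LinearMap.ext hc)
  obtain ⟨ε', h1⟩ : ∃ ε', c (ε' * ζ ε) = 1 := by
    obtain ⟨k, hk⟩ := exists_dual_apply_eq_one h.ne
    exact ⟨k / ζ ε, by rwa [div_mul_cancel₀ _ hε]⟩
  have ha := h.alt hu hζ
  have h2 : c (ε * ζ ε') = -1 := by rw [h.skew hu hζ, h1]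
  have h3 : ∀ β, ζ β = c (-ζ ε' * β) • ζ ε - c (ζ ε * β) • -ζ ε' :=
    mem_of_two (T := LinearMap.eqLocus ζ ((c ∘ₗ LinearMap.mulLeft F (-ζ ε')).smulRight (ζ ε) -
      (c ∘ₗ LinearMap.mulLeft F (ζ ε)).smulRight (-ζ ε'))) (a := ε) (b := ε') hr
      (by simp [mul_comm (ζ _), h2, ha]) (by simp [mul_comm (ζ _), h1, ha])
      (by rintro rfl; simp at hε) fun e => by
        obtain ⟨s, rfl⟩ := Submodule.mem_span_singleton.1 e
        simp [ha] at h1
  have h5 : ∀ s : F, s • ζ ∈ ZM M hu.qe := mem_of_sq h.two' (LinearMap.toSpanSingleton F _ ζ).toAddMonoidHom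
    fun s => by
      obtain ⟨k, hk⟩ := isSquare_of_two hr h.two s
      convert h.tor_Z hu hζ k using 1
      ext x
      simp [← hk, ← Algebra.smul_def, smul_smul]
  refine h.le_of_AS (fun _ => h4) (w := ζ ε • w) (v := -ζ ε' • w) (by simp [Q_smul, hu.qe])
    (smul_ne_zero hε hu.ne_zero) ⟨by simp [h.pol, hu.ee], fun s => ?_⟩ fun e => ?_
  · obtain ⟨e, he, hx⟩ := h5 s
    convert he using 1
    ext x
    rw [hx, ← smul_assoc, eich_kl_apply h.toTrQ hu.qe, LinearMap.smul_apply, h3 (polar q w x)]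
    simp [smul_smul, mul_comm]
  · obtain ⟨s, hs⟩ := Submodule.mem_span_singleton.1 e
    rw [← smul_assoc] at hs
    rw [← neg_neg (ζ ε'), ← smul_left_injective K hu.ne_zero hs] at h2
    simp [ha] at h2

/-- elements acting trivially on the flag are Eichler transformations over `K` -/
theorem eq_eich (h : Ctx Q q c M) (hu : IsHyp q w u) (hZ : Z0 q M w) {e : O Q} (he : e ∈ M)
    (h1 : ∀ k : K, e (k • w) = k • w) (h2 : ∀ y, polar q w y = 0 → e y - y ∈ kl F K w) :
    ∃ y, polar q w y = 0 ∧ e = h.res (eich q w y) := by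
  have h3 := h.pol_fix h1
  have key : ∀ y, polar q w y = 0 → h.res (eich q w y) * e = e * h.res (eich q w y) := fun y hy => by
    rw [← inv_mul_eq_one]
    refine hZ _ (M.mul_mem (M.inv_mem (M.mul_mem (h.eich_mem w y) he))
      (M.mul_mem he (h.eich_mem w y))) fun x hx => ?_
    obtain ⟨a, ha⟩ := mem_kl.1 (h2 x hx)
    rw [O.mul_apply, O.inv_apply_eq]
    simp only [O.mul_apply, TrQ.res_apply, eich_apply_of_orth hu.qe hy hx, map_add, h1,
      eich_apply_of_orth hu.qe hy ((h3 x).trans hx)]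
    rw [eq_add_of_sub_eq ha.symm]
    simp [pc hy]
  have h4 : polar q w (u - e u) = 0 := by simp [h3]
  refine ⟨u - e u, h4, ?_⟩
  rw [eq_comm, ← inv_mul_eq_one]
  refine hZ _ (M.mul_mem (M.inv_mem (h.eich_mem _ _)) he) fun x hx => ?_
  have := congrArg (· u) (key x hx)
  simp only [O.mul_apply, TrQ.res_apply, eich_apply hu.qe hx, map_add, map_sub, h1, h3, hu.ef,
    one_smul] at this
  rw [O.mul_apply, O.inv_apply_eq, TrQ.res_apply, eich_apply_of_orth hu.qe h4 hx, polar_sub_left,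
    polar_comm q u, polar_comm q (e u)]
  linear_combination (norm := module) this

theorem pol_of_stab (h : TrQ Q q c) {g : O Q} (hg : ∀ k : K, g (k • w) ∈ kl F K w) (x : V) :
    polar q w (g x) = 0 ↔ polar q w x = 0 := by
  rw [← h.mem_perp_kl, ← h.mem_perp_kl]
  refine (mem_sstab.1 (sstab_perp_of (mem_sstab_of_le fun v hv => ?_)) x).symm
  obtain ⟨k, rfl⟩ := mem_kl.1 hv
  exact hg k

theorem conj_eq_eich (h : Ctx Q q c M) (hu : IsHyp q w u) (hZ : Z0 q M w) {g : O Q} (hg : g ∈ M)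
    (h1 : ∀ k : K, g (k • w) ∈ kl F K w) (hy : polar q w y = 0) :
    ∃ y', polar q w y' = 0 ∧ ∀ x, g (eich q w y x) = eich q w y' (g x) := by
  have h2 := pol_of_stab h.toTrQ h1
  obtain ⟨y', h3, h4⟩ := h.eq_eich hu hZ
    (M.mul_mem (M.mul_mem hg (h.eich_mem w y)) (M.inv_mem hg)) (fun k => by
      obtain ⟨a, ha⟩ := mem_kl.1 (inv_apply_mem_of_sstab (mem_sstab_of_le (W := kl F K w)
        fun v hv => by obtain ⟨k, rfl⟩ := mem_kl.1 hv; exact h1 k) (smul_mem_kl k w))
      rw [O.mul_apply, O.mul_apply, ← ha, TrQ.res_apply, map_smul, eich_apply_self hu.qe hy, ha,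
        O.apply_inv_apply]) fun x hx => by
      rw [O.mul_apply, O.mul_apply, TrQ.res_apply,
        eich_apply_of_orth hu.qe hy ((h2 _).1 (by simpa using hx))]
      simpa using h1 _
  exact ⟨y', h3, fun x => by simpa using congrArg (· (g x)) h4⟩

/-- the stabiliser of a singular `K`-point acts semilinearly on the point and its perp -/
theorem semilin (h : Ctx Q q c M) (hu : IsHyp q w u) (hZ : Z0 q M w) {g : O Q} (hg : g ∈ M)
    (h1 : ∀ k : K, g (k • w) ∈ kl F K w) (k : K) : ∃ θ : K, (∀ a : K, g ((k * a) • w) = θ • g (a • w)) ∧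
      ∀ y, polar q w y = 0 → g (k • y) - θ • g y ∈ kl F K w := by
  have h2 := pol_of_stab h.toTrQ h1
  have h0 : polar q w (g u) ≠ 0 := fun e => by simpa [hu.ef] using (h2 u).1 e
  have hk : ∀ (a : K) v, v ∈ kl F K w → a • v ∈ kl F K w := fun a v hv => (K ∙ w).smul_mem a hv
  have key : ∀ y, polar q w y = 0 →
      g (k • y) - (polar q w (g (k • u)) / polar q w (g u)) • g y ∈ kl F K w := fun y hy => by
    obtain ⟨y', h3, h4⟩ := h.conj_eq_eich hu hZ hg h1 hy
    have h5 : ∀ β : K, g (β • y) - polar q w (g (β • u)) • y' ∈ kl F K w := fun β => by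
      have := h4 (β • u)
      rw [eich_apply hu.qe hy, eich_apply hu.qe h3, map_sub, map_sub, map_add, polar_smul_right q β w,
        hu.ef, smul_eq_mul, mul_one] at this
      convert sub_mem (sub_mem (h1 (polar q y (β • u))) (h1 (q y * β))) (smul_mem_kl
        (polar q y' (g (β • u)) - q y' * polar q w (g (β • u))) w) using 1
      linear_combination (norm := module) -this
    convert sub_mem (h5 k) (hk (polar q w (g (k • u)) / polar q w (g u)) _ (h5 1)) using 1
    rw [one_smul, one_smul, smul_sub, smul_smul, div_mul_cancel₀ _ h0]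
    abel
  refine ⟨_, fun a => ?_, key⟩
  obtain ⟨y, hy, -, hq⟩ := hu.exists_perp_Q_ne h.nd h.h3
  obtain ⟨y', h3, h4⟩ := h.conj_eq_eich hu hZ hg h1 hy
  have h5 : ∀ x, polar q w x = 0 → g (polar q y x • w) = polar q y' (g x) • w := fun x hx => by
    simpa [eich_apply_of_orth hu.qe hy hx, eich_apply_of_orth hu.qe h3 ((h2 x).2 hx)] using h4 x
  have h6 : polar q y ((a / (2 * q y)) • y) = a := by simp [h.two, hq]
  have h7 : polar q w ((a / (2 * q y)) • y) = 0 := by simp [hy]
  obtain ⟨s, hs⟩ := mem_kl.1 (key _ h7)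
  rw [← h6, h5 _ h7, ← smul_eq_mul k, ← polar_smul_right, h5 _ (by simp [hy]),
    eq_add_of_sub_eq hs.symm]
  simp [pc h3, smul_smul]

theorem not_tv (h : Ctx Q q c M) (hu : IsHyp q w u) (hZ : Z0 q M w) {ε δ : K} (hε : ε ≠ 0)
    (hδ : δ ≠ 0) (h0 : c (ε * δ) = 0) {g : O Q} (hg : g ∈ M)
    (hgx : ∀ k : K, g (k • w) = (k + c (ε * k) • δ) • w) : False := by
  obtain ⟨k, hk⟩ : ∃ k, c (ε * (k * δ)) = 1 := by
    obtain ⟨k, hk⟩ := exists_dual_apply_eq_one h.ne
    exact ⟨k / (ε * δ), by rw [← hk]; congr 1; field_simp⟩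
  obtain ⟨θ, h1, -⟩ := h.semilin hu hZ hg (fun k => hgx k ▸ smul_mem_kl _ _) k
  have h2 := h1 δ
  have h3 := h1 (k * δ)
  simp only [hgx, smul_smul, hk, h0, zero_smul, one_smul, add_zero] at h2 h3
  have h4 := smul_left_injective K hu.ne_zero h2
  have h5 := smul_left_injective K hu.ne_zero h3
  rw [Algebra.smul_def] at h5
  have h6 : k = algebraMap F K ((c (ε * (k * (k * δ))) - 1) / 2) := by
    rw [map_div₀, map_sub, map_one, map_ofNat, eq_div_iff h.two]
    exact mul_right_cancel₀ hδ (by linear_combination (k + 1) * h4 - h5)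
  rw [h6, ← Algebra.smul_def, mul_smul_comm, map_smul, h0] at hk
  simp at hk

/-- transvections on a singular `K`-point generate everything -/
theorem le_of_tv (h : Ctx Q q c M) (h4 : finrank F K = 2 → 4 ≤ finrank K V) (hu : IsHyp q w u)
    {ε : K} (hε : ε ≠ 0)
    (hT : ∀ δ, c (ε * δ) = 0 → ∃ g ∈ M, ∀ k : K, g (k • w) = (k + c (ε * k) • δ) • w) :
    commutator (O Q) ≤ M := by
  have := h.fd
  rcases h.z0_or M hu with hZ | ⟨ζ, hζ, h0⟩
  · obtain ⟨a, -, ha, ha'⟩ := exists_mem_notMem_ker (F := F) (V := K)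
      [c ∘ₗ LinearMap.mulLeft F ε] (W := ⊤) (Z := ⊥) (by simpa using h.hr.one_lt)
    have h1 : c (ε * a) = 0 := ha' _ (List.mem_singleton_self _)
    obtain ⟨g, hg, hgx⟩ := hT a h1
    exact (h.not_tv hu hZ hε (by simpa using ha) h1 hg hgx).elim
  by_cases hr : finrank F K = 2
  · exact h.le_of_Z_two hr (h4 hr) hu hζ h0
  obtain ⟨ζ, hζ, h1⟩ : ∃ ζ ∈ ZM M hu.qe, ζ ε ≠ 0 := by
    by_contra! hc
    refine h0 (LinearMap.ext fun k => ?_)
    have := mem_of_sq (S := ⊥) h.two (ζ.toAddMonoidHom.comp (AddMonoidHom.mulRight ε)) (fun l => by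
      by_cases hl : l = 0
      · simp [hl]
      simpa [hl, mul_assoc] using hc _ (h.tor_Z hu hζ l)) (k / ε)
    simpa [hε] using this
  obtain ⟨δ, -, h2, h3⟩ := exists_mem_notMem_ker (F := F) (V := K)
    [c ∘ₗ LinearMap.mulLeft F ε] (W := ⊤) (Z := F ∙ ζ ε) (by
      have := finrank_span_singleton_le (F := F) (ζ ε)
      have := h.hr.two_le
      simp only [List.length_singleton, finrank_top]
      omega)
  have h5 : c (ε * δ) = 0 := h3 _ (List.mem_singleton_self _)
  refine h.le_of_AS h4 (w := ζ ε • w) (v := δ • w) (by simp [Q_smul, hu.qe])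
    (smul_ne_zero h1 hu.ne_zero) ⟨by simp [h.pol, hu.ee], fun s => ?_⟩ fun e => h2 ?_
  · obtain ⟨g, hg, hgx⟩ := hT (s • δ) (by simp [h5])
    exact smul_assoc s δ w ▸ tv_Z h.toTrQ hu hζ hg hgx
  · obtain ⟨s, hs⟩ := Submodule.mem_span_singleton.1 e
    rw [← smul_assoc] at hs
    exact Submodule.mem_span_singleton.2 ⟨s, smul_left_injective K hu.ne_zero hs⟩

/-- a non-trivial `ZM` is transitive on the vectors allowed by the form -/
theorem exists_Z_apply (h : Ctx Q q c M) (hu : IsHyp q w u) {ζ : K →ₗ[F] K} (hζ : ζ ∈ ZM M hu.qe)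
    (h0 : ζ ≠ 0) {β κ : K} (hβ : β ≠ 0) (hκ : c (κ * β) = 0) : ∃ ζ ∈ ZM M hu.qe, ζ β = κ := by
  have := h.fd
  let J := (ZM M hu.qe).map (LinearMap.applyₗ (R := F) β).toAddMonoidHom
  let T : Submodule F K :=
    { carrier := {k | ∀ s : F, s • k ∈ J}
      add_mem' := fun ha hb s => by rw [smul_add]; exact J.add_mem (ha s) (hb s)
      zero_mem' := fun s => by simp
      smul_mem' := fun a k hk s => by rw [smul_smul]; exact hk _ }
  have f : ∀ k, k * k * ζ (k * k * β) ∈ J := fun k => ⟨_, h.tor_Z hu hζ k, rfl⟩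
  have g : ∀ k, 2 * (k * k * ζ β + ζ (k * k * β)) + 8 * (k * ζ (k * β)) ∈ J := fun k => by
    convert sub_mem (sub_mem (sub_mem (sub_mem (add_mem (f (k + 1)) (f (k - 1))) (f k)) (f k)) (f 1))
      (f 1) using 1
    rw [show (k + 1) * (k + 1) * β = k * k * β + k * β + k * β + β by ring,
      show (k - 1) * (k - 1) * β = k * k * β - k * β - k * β + β by ring]
    simp only [map_add, map_sub, one_mul]
    ring
  have P : ∀ a b, (4 : F) • (a * b * ζ β + ζ (a * b * β) + (2 : F) • (a * ζ (b * β) + b * ζ (a * β))) ∈ J :=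
    fun a b => by
      convert sub_mem (sub_mem (g (a + b)) (g a)) (g b) using 1
      rw [show (a + b) * (a + b) * β = a * a * β + a * b * β + a * b * β + b * b * β by ring, add_mul a b β]
      simp only [map_add, Algebra.smul_def, map_ofNat]
      ring
  by_contra hc
  obtain ⟨φ, h1, h2⟩ := exists_dual_eq_one (W := T) (x := κ) fun e => hc (by simpa [J] using e 1)
  obtain ⟨x, hx⟩ := exists_eq_mul h.ne φ
  have h4 : (4 : F) ≠ 0 := by rw [show (4 : F) = 2 * 2 by norm_num]; exact mul_ne_zero h.two' h.two'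
  let ω : K →ₗ[F] K →ₗ[F] F := LinearMap.mk₂ F (fun a b => c (a * β * ζ (b * β)))
    (by simp [add_mul]) (by simp) (by simp [add_mul, mul_add]) (by simp)
  have := skew_eq_zero h.hr h.two' ω (fun a b => h.skew hu hζ _ _) (κ := x / β) (fun s e => by
    rw [hx, eq_div_iff hβ] at *
    rw [← e, ← Algebra.smul_def, smul_mul_assoc, map_smul, mul_comm, hκ] at h1
    simp at h1) (fun t => -(c (x * t * ζ β) + c (x * ζ (t * β))) / 2) fun a b => by
    have h3 := h2 ((4 : F) • (a * b * ζ β + ζ (a * b * β) +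
        (2 : F) • (a * ζ (b * β) + b * ζ (a * β)))) fun s => by
      convert P (s • a) b using 1
      simp only [smul_mul_assoc, map_smul, mul_smul_comm]
      module
    simp only [map_smul, map_add, smul_eq_mul, mul_eq_zero, h4, false_or] at h3
    simp only [hx] at h3
    change c _ - c _ = _
    rw [h.skew hu hζ (a * β), show x / β * a * β = x * a by field_simp,
      show x / β * b * β = x * b by field_simp, eq_div_iff h.two']
    simp only [mul_assoc] at h3 ⊢
    linear_combination h3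
  refine h0 (LinearMap.ext fun k => h.zero_of fun a => ?_)
  simpa [ω, hβ] using this (a / β) (k / β)

end Ctx

end H91
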