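/- Images of singular `K`-points under an overgroup of `Ω(V, K)`; pairs with maximal intersection. -/
import Cfsg.Agent.H91.OFZ

set_option autoImplicit false
set_option linter.unusedSectionVars false

namespace H91

open QuadraticMap H56 H60 H62 Module

variable {F K V : Type*} [Field F] [Field K] [Algebra F K] [AddCommGroup V] [Module F V]
  [Module K V] [IsScalarTower F K V] {Q : QuadraticForm F V} {q : QuadraticForm K V} {c : Dual F K}
  {M : Subgroup (O Q)} {w u v x y : V} {L L₀ : Submodule F V}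

variable (q) in
/-- the images of singular `K`-points -/
def Mem (M : Subgroup (O Q)) (L : Submodule F V) : Prop :=
  ∃ g ∈ M, ∃ w, w ≠ 0 ∧ q w = 0 ∧ L = img g (kl F K w)

theorem Mem.kl (hw0 : w ≠ 0) (hw : q w = 0) : Mem q M (kl F K w) :=
  ⟨1, M.one_mem, w, hw0, hw, (img_one _).symm⟩

theorem Mem.img (h : Mem q M L) {g : O Q} (hg : g ∈ M) : Mem q M (img g L) := by
  obtain ⟨g', h1, w, h2, h3, rfl⟩ := h
  exact ⟨g * g', M.mul_mem hg h1, w, h2, h3, (img_mul _ _ _).symm⟩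

theorem Mem.finrank (h : Mem q M L) : finrank F L = finrank F K := by
  obtain ⟨g', -, w, h2, -, rfl⟩ := h
  rw [finrank_img, finrank_kl h2]

theorem Mem.ts (h : Mem q M L) (ht : TrQ Q q c) : ∀ x ∈ L, Q x = 0 := by
  obtain ⟨g', -, w, -, h3, rfl⟩ := h
  exact fun x hx => by simpa using ht.kl_ts h3 (mem_img.1 hx)

theorem img_inf (g : O Q) (A B : Submodule F V) : img g (A ⊓ B) = img g A ⊓ img g B := by
  ext x; simp [mem_img]

theorem img_inv_img (g : O Q) (A : Submodule F V) : img g⁻¹ (img g A) = A := by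
  rw [← img_mul, inv_mul_cancel, img_one]

theorem smul_mem_kl' (a : K) (hv : v ∈ kl F K w) : a • v ∈ kl F K w := (K ∙ w).smul_mem a hv

variable (q) in
/-- two members with maximal intersection -/
structure MP (M : Subgroup (O Q)) (L₀ L : Submodule F V) : Prop where
  left : Mem q M L₀
  right : Mem q M L
  ne : L₀ ≠ L
  pos : L₀ ⊓ L ≠ ⊥
  max : ∀ A B, Mem q M A → Mem q M B → finrank F ↥(L₀ ⊓ L) < finrank F ↥(A ⊓ B) → A = B

theorem MP.img (h : MP q M L₀ L) {g : O Q} (hg : g ∈ M) : MP q M (img g L₀) (img g L) where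
  left := h.left.img hg
  right := h.right.img hg
  ne e := h.ne (by rw [← img_inv_img g L₀, e, img_inv_img])
  pos e := h.pos (by rw [← img_inv_img g (L₀ ⊓ L), img_inf g, e]; ext x; simp [mem_img])
  max := by rw [← img_inf, finrank_img]; exact h.max

variable [Finite K] [FiniteDimensional K V] [FiniteDimensional F V]

theorem exists_MP (h1 : Mem q M L₀) (h2 : Mem q M L) (h3 : L₀ ≠ L) (h4 : L₀ ⊓ L ≠ ⊥) :
    ∃ A B, MP q M A B := by
  let S : Set (Submodule F V × Submodule F V) := {t | Mem q M t.1 ∧ Mem q M t.2 ∧ t.1 ≠ t.2}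
  let f : Submodule F V × Submodule F V → ℕ := fun t => finrank F ↥(t.1 ⊓ t.2)
  obtain ⟨t, ht, hmax⟩ := Set.Finite.exists_maximalFor' f S
    ((Set.finite_Iic (finrank F V)).subset (by
      rintro _ ⟨t, -, rfl⟩; exact Submodule.finrank_le _)) ⟨(L₀, L), h1, h2, h3⟩
  have key : ∀ A B, Mem q M A → Mem q M B → f t < finrank F ↥(A ⊓ B) → A = B := fun A B hA hB h => by
    by_contra hc
    exact absurd (hmax (j := (A, B)) ⟨hA, hB, hc⟩ h.le) (not_le.2 h)
  refine ⟨t.1, t.2, ht.1, ht.2.1, ht.2.2, fun e => h3 (key _ _ h1 h2 ?_), key⟩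
  simp only [f]
  rw [e, finrank_bot]
  exact Nat.pos_of_ne_zero fun e => h4 (Submodule.finrank_eq_zero.1 e)

theorem MP.exists_notMem (h : MP q M L₀ L) : ∃ x ∈ L, x ∉ L₀ := by
  by_contra! hc
  exact h.ne (Submodule.eq_of_le_of_finrank_eq hc (by rw [h.left.finrank, h.right.finrank])).symm

theorem MP.stab (h : MP q M L₀ L) {e : O Q} (he : e ∈ M) (h1 : ∀ z ∈ L₀, z ∈ L → e z = z)
    (hx : x ∈ L) (hx' : x ∉ L₀) (hex : e x ∈ L) : ∀ z ∈ L, e z ∈ L := by
  have := h.max _ _ (h.right.img he) h.right (Submodule.finrank_lt_finrank_of_lt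
    (lt_of_le_of_ne (fun z hz => ⟨h1 z hz.1 hz.2 ▸ apply_mem_img.2 hz.2, hz.2⟩) fun e0 => by
      have h2 : e x ∈ L₀ ⊓ L := e0 ▸ ⟨apply_mem_img.2 hx, hex⟩
      exact hx' (e.injective (h1 _ h2.1 h2.2) ▸ h2.1)))
  exact fun z hz => this ▸ apply_mem_img.2 hz

theorem MP.next (h : MP q M L₀ L) {e : O Q} (he : e ∈ M) (h1 : ∀ z ∈ L₀, z ∈ L → e z = z)
    (hx : x ∈ L) (hex : e x ∉ L) : MP q M L (H60.img e L) := by
  have h2 : L₀ ⊓ L ≤ L ⊓ H60.img e L := fun z hz => ⟨hz.2, h1 z hz.1 hz.2 ▸ apply_mem_img.2 hz.2⟩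
  exact ⟨h.right, h.right.img he, fun e0 => hex (e0 ▸ apply_mem_img.2 hx),
    fun e0 => h.pos (le_bot_iff.1 (e0 ▸ h2)),
    fun A B hA hB hl => h.max A B hA hB ((Submodule.finrank_mono h2).trans_lt hl)⟩

theorem MP.exists_kw (h : MP q M (kl F K w) L) : ∃ δ : K, δ ≠ 0 ∧ δ • w ∈ L := by
  obtain ⟨v, hv, h0⟩ := Submodule.exists_mem_ne_zero_of_ne_bot h.pos
  obtain ⟨k, rfl⟩ := mem_kl.1 hv.1
  exact ⟨k, left_ne_zero_of_smul h0, hv.2⟩

theorem MP.not_all (h : MP q M (kl F K w) L) (hw : w ≠ 0) (h1 : ∀ k : K, k • w ∈ L) : False :=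
  h.ne (eq_kl_of_le h.right.finrank.le hw h1).symm

namespace Ctx

theorem exists_img (h : Ctx Q q c M) (hw0 : w ≠ 0) (hw : q w = 0) (hL : Mem q M L) :
    ∃ g ∈ M, L = img g (kl F K w) := by
  obtain ⟨g', h1, w', h2, h3, rfl⟩ := hL
  obtain ⟨g, hg, κ, hκ, e⟩ := exists_EG_apply_eq_smul h.nd h.h3 hw0 hw h2 h3
  exact ⟨g' * h.res g, M.mul_mem h1 (h.EG_mem hg), by rw [img_mul, h.img_kl, e, kl_smul hκ]⟩

theorem normK (h : Ctx Q q c M) {g : O Q}
    (hg : ∀ w, w ≠ 0 → q w = 0 → ∃ w', q w' = 0 ∧ img g (kl F K w) = kl F K w') : NormK K g.1 := by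
  have h1 : ∀ w, w ≠ 0 → q w = 0 → img g (kl F K w) = kl F K (g w) := fun w h0 hw => by
    obtain ⟨w', -, e⟩ := hg w h0 hw
    obtain ⟨k, hk⟩ := mem_kl.1 (e ▸ apply_mem_img.2 (self_mem_kl w))
    rw [e, ← hk, kl_smul (left_ne_zero_of_smul (b := w') (by simpa [hk] using h0))]
  have h2 : ∀ w, q w = 0 → ∀ k : K, ∃ θ : K, θ • g w = g (k • w) := fun w hw k => by
    by_cases h0 : w = 0
    · simp [h0]
    exact mem_kl.1 (h1 w h0 hw ▸ apply_mem_img.2 (smul_mem_kl k w))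
  intro k
  have key : ∀ w u, IsHyp q w u → ∀ θ : K, θ • g u = g (k • u) →
      ∀ y, polar q w y = 0 → θ • g y = g (k • y) := fun w u hu θ hθ => by
    have h3 : ∀ x, polar q (g w) (g x) = 0 ↔ polar q w x = 0 := fun x => by
      rw [← h.mem_perp_kl, ← h.mem_perp_kl, ← h1 w hu.ne_zero hu.qe, ← img_perp, apply_mem_img]
    let N : Submodule F V := LinearMap.eqLocus
      ((LinearMap.lsmul K V θ).restrictScalars F ∘ₗ g.lin) (g.lin ∘ₗ (LinearMap.lsmul K V k).restrictScalars F)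
    have hN : ∀ y, polar q w y = 0 → (polar q y u - q y) • w - y ∈ N := fun y hy => by
      obtain ⟨θ', h4⟩ := h2 (eich q w y u) (by simp [hu.qf]) k
      have h5 : eich q w y u = u + ((polar q y u - q y) • w - y) := by
        rw [eich_apply hu.qe hy, hu.ef]; module
      have h6 := congrArg (polar q (g w)) h4
      have h7 : polar q w ((polar q y u - q y) • w - y) = 0 := by simp [hu.ee, hy]
      rw [h5, smul_add, map_add, map_add, ← hθ] at h4 h6
      simp only [polar_add_right, polar_smul_right, (h3 _).2 h7,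
        (h3 (k • _)).2 (by rw [polar_smul_right, h7, smul_zero]), add_zero, smul_eq_mul] at h6
      rw [mul_right_cancel₀ (fun e => by simpa [hu.ef] using (h3 u).1 e) h6, smul_add] at h4
      exact add_left_cancel h4
    obtain ⟨y₀, h4, -, h5⟩ := hu.exists_perp_Q_ne h.nd h.h3
    have h6 : ∀ a : K, a • w ∈ N := fun a => by
      have h0 : -(2 * q y₀) ≠ 0 := by simp [h.two, h5]
      have := mem_of_sq (S := N.toAddSubgroup) h.two ((LinearMap.toSpanSingleton K V w).toAddMonoidHom.comp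
        (AddMonoidHom.mulRight (-(2 * q y₀)))) (fun l => by
          change (l * l * -(2 * q y₀)) • w ∈ N
          convert N.add_mem (hN (l • y₀) (by simp [h4])) (hN (-(l • y₀)) (by simp [h4])) using 1
          simp only [polar_neg_left, QuadraticMap.map_neg, Q_smul]
          module) (a / -(2 * q y₀))
      change (a / -(2 * q y₀) * -(2 * q y₀)) • w ∈ N at this
      rwa [div_mul_cancel₀ _ h0] at this
    exact fun y hy => (N.sub_mem_iff_right (h6 _)).1 (hN y hy)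
  obtain ⟨w, -, hw0, hw⟩ := exists_sing (Q := q) ⊤ (by simpa using h.h3)
  obtain ⟨u, hu⟩ := exists_isHyp h.nd hw0 hw
  obtain ⟨θ, hθ⟩ := h2 u hu.qf k
  refine ⟨θ, fun x => ?_⟩
  have e1 := key w u hu θ hθ (x - polar q w x • u) (by simp [hu.ef])
  have e2 := key u w hu.symm θ (key w u hu θ hθ w hu.ee) (polar q w x • u) (by simp [hu.ff])
  rw [smul_sub, map_sub, map_sub, smul_sub, e2, sub_left_inj] at e1
  exact e1.symm

theorem orth_of_rot (h : TrQ Q q c) (hr : (finrank F K).Prime) (h2 : finrank F K ≠ 2)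
    {U : Submodule K V} (hU : Nondeg q U) (hU2 : 2 ≤ finrank K U) {N : Submodule F V}
    (hN : finrank F N ≤ finrank F K)
    (hs : ∀ g ∈ commutator (O q), (∀ v ∈ perp q U, g v = v) → ∀ n ∈ N, g n ∈ N) (hx : x ∈ N)
    (hx0 : x ≠ 0) (hxU : x ∈ perp q U) {n : V} (hn : n ∈ N) : n ∈ perp q U := by
  have key : ∀ a ∈ U, q a ≠ 0 → polar q a n = 0 := fun a ha hq => by
    obtain ⟨b, hb, hqb⟩ := (hU.inf_ort ha (by simp [h.two, hq])).exists_Q_ne fun e => by
      have := finrank_le_inf_ort (Q := q) U a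
      rw [e, finrank_bot] at this; omega
    have hp : OPair q a b (q b / q a) := ⟨h.two, hq, div_ne_zero hqb hq, by field_simp, hb.2⟩
    obtain ⟨z, hz⟩ := exists_rot (F := F) hr h2 h.two hp.ne'
    exact (hp.orth_of_stable hr h hz hN (hs _ (hp.rot_sq_mem z) fun v hv =>
      hp.rot_fix _ (hv a ha) (hv b hb.1)) hx hx0 (hxU a ha) (hxU b hb.1) hn).1
  obtain ⟨a, ha, hq⟩ := hU.exists_Q_ne fun e => by rw [e, finrank_bot] at hU2; omega
  refine mem_perp.2 fun y hy => ?_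
  by_cases h3 : q y = 0
  swap
  · exact key y hy h3
  by_cases h4 : q (y + a) = 0
  · simpa [key a ha hq] using key (y - a) (U.sub_mem hy ha) fun h5 => mul_ne_zero h.two hq (by
      rw [Q_add] at h4; rw [Q_sub] at h5; linear_combination h4 + h5 - 2 * h3)
  · simpa [key a ha hq] using key (y + a) (U.add_mem hy ha) h4

theorem nondeg_ort (h : TrQ Q q c) (hx : q x ≠ 0) : Nondeg q (⊤ ⊓ ort q x) :=
  (nondeg_top h.nd).inf_ort trivial (by simp [h.two, hx])

theorem mem_kl_of_perp (h : TrQ Q q c) (hv : v ∈ perp q (⊤ ⊓ ort q x)) : v ∈ kl F K x := by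
  obtain ⟨a, ha⟩ := exists_smul_of_orth h.nd (x := x) (z := v) fun y hy => pc (hv y ⟨trivial, hy⟩)
  exact mem_kl.2 ⟨a, ha.symm⟩

theorem exists_MP (h : Ctx Q q c M) (h4 : finrank F K = 2 → 4 ≤ finrank K V) {g : O Q} (hg : g ∈ M)
    (hn : ¬ NormK K g.1) : ∃ A B, MP q M A B := by
  obtain ⟨L, hL, h1⟩ : ∃ L, Mem q M L ∧ ∀ w', q w' = 0 → L ≠ kl F K w' := by
    by_contra! hc
    exact hn (h.normK fun w h0 hw => hc _ ((Mem.kl h0 hw).img hg))
  by_contra hc
  have h2 : ∀ x ∈ L, x ≠ 0 → ∀ A, Mem q M A → x ∈ A → A = L := fun x hx h0 A hA hx' => by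
    by_contra e
    exact hc (H91.exists_MP hA hL e fun e => h0 ((Submodule.mem_bot F).1 (e ▸ ⟨hx', hx⟩)))
  have h3 : ∀ x ∈ L, x ≠ 0 → q x ≠ 0 := fun x hx h0 e =>
    h1 x e (h2 x hx h0 _ (Mem.kl h0 e) (self_mem_kl x)).symm
  obtain ⟨x, hx, h0⟩ := Submodule.exists_mem_ne_zero_of_ne_bot (p := L) fun e => by
    have := hL.finrank
    rw [e, finrank_bot] at this
    exact h.hr.ne_zero this.symm
  have h5 : ∀ g ∈ commutator (O q), g x = x → ∀ n ∈ L, g n ∈ L := fun g hg e n hn =>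
    h2 x hx h0 _ (hL.img (h.mem g hg)) (e ▸ apply_mem_img.2 hx) ▸ apply_mem_img (g := h.res g) |>.2 hn
  obtain ⟨n, hn, hn'⟩ := not_le_kl h.toTrQ hL.finrank (hL.ts h.toTrQ) (h3 x hx h0)
  have h6 := finrank_le_inf_ort (Q := q) ⊤ x
  rw [finrank_top] at h6
  by_cases hr : finrank F K = 2
  · obtain ⟨y, hy, h7, h8⟩ := exists_sing (Q := q) (⊤ ⊓ ort q x) (by have := h4 hr; omega)
    exact h3 y (grow_ort h.toTrQ (h4 hr) (h3 x hx h0) (fun u y hu hy => h5 _
      (H56.eich_mem_commutator h.nd (not_isExc_of_two_ne h.two) u y)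
      (eich_apply_of_orth_orth (pc hu) (pc hy))) hn hn' hy.2) h7 h8
  · have hxU : x ∈ perp q (⊤ ⊓ ort q x) := fun y hy => pc hy.2
    exact hn' (mem_kl_of_perp h.toTrQ (orth_of_rot h.toTrQ h.hr hr (nondeg_ort h.toTrQ (h3 x hx h0))
      (by have := h.h3; omega) hL.finrank.le (fun g hg e => h5 g hg (e x hxU)) hx h0 hxU hn))

theorem eich_fix (hu : q w = 0) (hy : polar q w y = 0) (hz : v ∈ kl F K w) : eich q w y v = v := by
  obtain ⟨k, rfl⟩ := mem_kl.1 hz
  rw [map_smul, eich_apply_self hu hy]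

theorem le_of_caseA (h : Ctx Q q c M) (h4 : finrank F K = 2 → 4 ≤ finrank K V) (hu : IsHyp q w u)
    (hp : MP q M (kl F K w) L) (hA : ∀ z ∈ L, polar q w z = 0) : commutator (O Q) ≤ M := by
  have := h.fd
  have s1 : ∀ x ∈ L, x ∉ kl F K w → ∀ y, polar q w y = 0 → polar q y x • w ∈ L →
      ∀ z ∈ L, polar q y z • w ∈ L := fun x hx hx' y hy h1 z hz => by
    have := hp.stab (h.eich_mem w y) (fun z hz _ => eich_fix hu.qe hy hz) hx hx' (by
      rw [TrQ.res_apply, eich_apply_of_orth hu.qe hy (hA x hx)]; exact L.add_mem hx h1) z hz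
    rwa [TrQ.res_apply, eich_apply_of_orth hu.qe hy (hA z hz), L.add_mem_iff_right hz] at this
  obtain ⟨x, hx, hx'⟩ := hp.exists_notMem
  obtain ⟨y, hy, hyx⟩ := exists_pol_eq h.nd hx' 1
  obtain ⟨η, η1, η0⟩ := exists_dual_eq_one hx'
  have s2 : ∀ z ∈ L, polar q y z = algebraMap F K (η z) ∧ z - η z • x ∈ kl F K w := fun z hz => by
    obtain ⟨s, hs⟩ : ∃ s : F, algebraMap F K s = polar q y z := by
      by_contra! hc
      obtain ⟨δ, h0, hδ⟩ := hp.exists_kw
      refine hp.not_all hu.ne_zero fun k => ?_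
      have := smul_mem_of_stable h.hr (N := kl F K w ⊓ L) hc (fun v hv => ⟨smul_mem_kl' _ hv.1, by
        obtain ⟨a, rfl⟩ := mem_kl.1 hv.1
        simpa [smul_smul, mul_comm] using
          s1 x hx hx' (a • y) (by simp [hy]) (by simpa [hyx] using hv.2) z hz⟩) (k / δ) _
        ⟨smul_mem_kl δ w, hδ⟩
      simpa [smul_smul, h0] using this.2
    have h1 : z - s • x ∈ kl F K w := by
      by_contra hc
      refine hp.not_all hu.ne_zero fun k => ?_
      simpa [hyx] using s1 _ (L.sub_mem hz (L.smul_mem s hx)) hc (k • y) (by simp [hy])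
        (by simp [← hs, hyx, Algebra.smul_def, mul_comm]) x hx
    have h2 : η z = s := by simpa [η1, sub_eq_zero] using η0 _ h1
    exact h2 ▸ ⟨hs.symm, h1⟩
  obtain ⟨g, hg, rfl⟩ := h.exists_img hu.ne_zero hu.qe hp.right
  obtain ⟨ε, hε⟩ := exists_eq_mul h.ne (η ∘ₗ g.lin ∘ₗ (LinearMap.toSpanSingleton K V w).restrictScalars F)
  replace hε : ∀ k : K, η (g (k • w)) = c (ε * k) := hε
  have hL : ∀ k : K, g (k • w) ∈ img g (kl F K w) := fun k => apply_mem_img.2 (smul_mem_kl k w)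
  refine h.le_of_tv h4 hu (ε := ε) ?_ fun δ hδ => ?_
  · rintro rfl
    obtain ⟨k, hk⟩ := mem_kl.1 (mem_img.1 hx)
    simpa [hk, η1] using hε k
  obtain ⟨a, ha⟩ := mem_kl.1 (s2 _ (hL δ)).2
  rw [hε, hδ, zero_smul, sub_zero] at ha
  refine ⟨_, M.mul_mem (M.mul_mem (M.inv_mem hg) (h.eich_mem w (a • y))) hg, fun k => ?_⟩
  rw [O.mul_apply, O.mul_apply, O.inv_apply_eq, TrQ.res_apply,
    eich_apply_of_orth hu.qe (by simp [hy]) (hA _ (hL k)), polar_smul_left, (s2 _ (hL k)).1, hε,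
    add_smul, map_add, smul_assoc (c _), map_smul g (c _), ← ha, smul_eq_mul, mul_comm, mul_smul,
    algebraMap_smul]

/-- reduction to the first case -/
theorem le_of_perp (h : Ctx Q q c M) (h4 : finrank F K = 2 → 4 ≤ finrank K V) (hu : IsHyp q w u)
    (hI : ∀ L, MP q M (kl F K w) L → ∀ x ∈ L, x ∉ kl F K w → polar q w x = 0 → ∀ z ∈ L, polar q w z = 0)
    (hp : MP q M L₀ L) (hx : x ∈ L) (hx' : x ∉ L₀) (hx0 : x ∈ perp Q L₀) : commutator (O Q) ≤ M := by
  obtain ⟨g, hg, rfl⟩ := h.exists_img hu.ne_zero hu.qe hp.left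
  have h1 := hp.img (M.inv_mem hg)
  rw [img_inv_img] at h1
  rw [← img_perp, mem_img, h.mem_perp_kl] at hx0
  exact h.le_of_caseA h4 hu h1 (hI _ h1 _ (apply_mem_img.2 hx) (mt mem_img.2 hx') hx0)

theorem inter_four (h : Ctx Q q c M) (h4 : 4 ≤ finrank K V) (hu : IsHyp q w u)
    (hp : MP q M (kl F K w) L) (hx : x ∈ L) (hx' : x ∉ kl F K w) (h0 : polar q w x = 0) {z : V}
    (hz : z ∈ L) : polar q w z = 0 := by
  by_contra hc
  obtain ⟨y, -, hy, hy'⟩ := exists_mem_notMem_ker (F := K) (V := V)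
    [q.polarBilin w, q.polarBilin x] (W := ⊤) (Z := K ∙ w) (by
      rw [finrank_span_singleton hu.ne_zero, finrank_top]; simp; omega)
  have h1 : polar q w y = 0 := hy' (q.polarBilin w) (by simp)
  have h2 : polar q x y = 0 := hy' (q.polarBilin x) (by simp)
  have h3 : kl F K w ⊔ kl F K y ≤ kl F K w ⊔ L := sup_le le_sup_left fun v hv => by
    obtain ⟨k, rfl⟩ := mem_kl.1 hv
    have e : polar q w ((k / polar q w z) • y) = 0 := by simp [h1]
    have := hp.stab (h.eich_mem w ((k / polar q w z) • y)) (fun z hz _ => eich_fix hu.qe e hz) hx hx'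
      (by rw [TrQ.res_apply, eich_apply_of_orth_orth h0 (by simp [pc h2])]; exact hx) z hz
    rw [TrQ.res_apply, eich_apply hu.qe e, smul_smul, mul_div_cancel₀ _ hc] at this
    convert Submodule.add_mem_sup (smul_mem_kl (F := F) (polar q ((k / polar q w z) • y) z -
      q ((k / polar q w z) • y) * polar q w z) w) (L.sub_mem hz this) using 1
    module
  have h5 : kl F K w ⊓ kl F K y = ⊥ := eq_bot_iff.2 fun v hv => by
    obtain ⟨k, rfl⟩ := mem_kl.1 hv.2
    by_contra h6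
    exact hy (by
      simpa [left_ne_zero_of_smul (mt (Submodule.mem_bot F).2 h6), mem_kl_iff] using smul_mem_kl' k⁻¹ hv.1)
  have e1 := Submodule.finrank_sup_add_finrank_inf_eq (kl F K w) (kl F K y)
  have e2 := Submodule.finrank_sup_add_finrank_inf_eq (kl F K w) L
  have e3 := Submodule.finrank_mono h3
  have e4 := mt Submodule.finrank_eq_zero.1 hp.pos
  rw [h5, finrank_bot, finrank_kl (w := y) (by rintro rfl; simp at hy)] at e1
  rw [hp.right.finrank] at e2
  omega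

theorem hyp_of_ne (hw : q w = 0) (hx : polar q w x ≠ 0) :
    ∃ u, IsHyp q w u ∧ ∃ a : K, x = polar q w x • u + a • w := by
  have h1 : polar q w ((polar q w x)⁻¹ • x) = 1 := by simp [hx]
  refine ⟨_, ⟨hw, partner_Q hw h1, partner_polar hw h1⟩, polar q w x * q ((polar q w x)⁻¹ • x), ?_⟩
  rw [smul_sub, smul_inv_smul₀ hx, smul_smul, sub_add_cancel]

theorem le_of_four (h : Ctx Q q c M) (h4 : 4 ≤ finrank K V) (hp : MP q M L₀ L) :
    commutator (O Q) ≤ M := by
  obtain ⟨w, -, hw0, hw⟩ := exists_sing (Q := q) ⊤ (by simpa using h.h3)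
  obtain ⟨g, hg, rfl⟩ := h.exists_img hw0 hw hp.left
  replace hp := hp.img (M.inv_mem hg)
  rw [img_inv_img] at hp
  generalize img g⁻¹ L = L at hp
  obtain ⟨x, hx, hx'⟩ := hp.exists_notMem
  by_cases hB : polar q w x = 0
  · obtain ⟨u, hu⟩ := exists_isHyp h.nd hw0 hw
    exact h.le_of_perp (fun _ => h4) hu (fun L hp x hx hx' h0 z => h.inter_four h4 hu hp hx hx' h0) hp
      hx hx' (h.mem_perp_kl.2 hB)
  obtain ⟨u, hu, a, ha⟩ := hyp_of_ne hw hB
  have hU := (nondeg_top h.nd).inf_ort_pair trivial trivial hu.qe hu.qf hu.ef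
  have hU2 : 2 ≤ finrank K ↥(⊤ ⊓ ort q w ⊓ ort q u) := by
    have := finrank_le_inf_ort (Q := q) ⊤ w
    have := finrank_le_inf_ort (Q := q) (⊤ ⊓ ort q w) u
    rw [finrank_top] at *
    omega
  set U := ⊤ ⊓ ort q w ⊓ ort q u
  have hwU : ∀ v ∈ kl F K w, v ∈ perp q U := fun v hv y hy => by
    obtain ⟨k, rfl⟩ := mem_kl.1 hv
    simp [pc hy.1.2]
  have hxU : x ∈ perp q U := fun y hy => by rw [ha]; simp [pc hy.1.2, pc hy.2]
  obtain ⟨δ, h0, hδ⟩ := hp.exists_kw
  have hL : ∀ z ∈ L, z ∈ perp q U := fun z hz => by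
    by_cases hr : finrank F K = 2
    · have h1 : (kl F K w ⊓ L) ⊔ F ∙ x = L := Submodule.eq_of_le_of_finrank_le
        (sup_le inf_le_right ((Submodule.span_singleton_le_iff_mem _ _).2 hx)) (by
          have := Submodule.finrank_lt_finrank_of_lt (lt_of_le_of_ne (le_sup_left :
            kl F K w ⊓ L ≤ (kl F K w ⊓ L) ⊔ F ∙ x) fun e => hx' (e.symm ▸ Submodule.mem_sup_right
              (Submodule.mem_span_singleton_self x) : x ∈ kl F K w ⊓ L).1)
          have := mt Submodule.finrank_eq_zero.1 hp.pos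
          rw [hp.right.finrank]; omega)
      rw [← h1] at hz
      obtain ⟨v, hv, _, h2, rfl⟩ := Submodule.mem_sup.1 hz
      obtain ⟨s, rfl⟩ := Submodule.mem_span_singleton.1 h2
      exact Submodule.add_mem _ (hwU v hv.1) (Submodule.smul_of_tower_mem _ s hxU)
    · exact orth_of_rot h.toTrQ h.hr hr hU hU2 hp.right.finrank.le (fun g hg e => hp.stab (h.mem g hg)
        (fun z hz _ => e z (hwU z hz)) hx hx' (by rw [TrQ.res_apply, e x hxU]; exact hx)) hx
        (by rintro rfl; simp at hB) hxU hz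
  obtain ⟨y, hy, hq⟩ := hU.exists_Q_eq hU2 (div_ne_zero h0 hB)
  have e : h.res (eich q w y) x = x - δ • w - polar q w x • y := by
    rw [TrQ.res_apply, eich_apply hw hy.1.2, mem_perp.1 hxU y hy, hq, div_mul_cancel₀ _ hB]; module
  have h1 : h.res (eich q w y) x ∉ L := fun e1 => by
    rw [e, L.sub_mem_iff_right (L.sub_mem hx hδ)] at e1
    have := hL _ e1 y hy
    simp [h.two, hB, hq, h0] at this
  refine h.le_of_perp (fun _ => h4) hu (fun L hp x hx hx' h0 z => h.inter_four h4 hu hp hx hx' h0)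
    (hp.next (h.eich_mem w y) (fun z hz _ => eich_fix hw hy.1.2 hz) hx h1) (apply_mem_img.2 hx) h1
    fun z hz => ?_
  change polar Q z _ = 0
  rw [e, polar_sub_right, polar_eq_zero_of_ts (hp.right.ts h.toTrQ) z hz _ (L.sub_mem hx hδ), h.pol,
    polar_smul_right, pc (hL z hz y hy)]
  simp

theorem inter_Z (h : Ctx Q q c M) (hu : IsHyp q w u) {ζ : K →ₗ[F] K} (hζ : ζ ∈ ZM M hu.qe)
    (h1 : ζ ≠ 0) (hp : MP q M (kl F K w) L) (hx : x ∈ L) (hx' : x ∉ kl F K w)
    (h0 : polar q w x = 0) {z : V} (hz : z ∈ L) : polar q w z = 0 := by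
  by_contra hc
  have h2 : kl F K w ⊓ ort Q z ≤ kl F K w ⊓ L := fun v hv => by
    obtain ⟨k, rfl⟩ := mem_kl.1 hv.1
    obtain ⟨ζ, ⟨e, he, hex⟩, h3⟩ := h.exists_Z_apply hu hζ h1 hc (κ := k)
      (by rw [← h.pol_smul]; exact pc hv.2)
    have := hp.stab he (fun z hz _ => by simp [hex, pol_kl hu.qe hz]) hx hx' (by simpa [hex, h0]) z hz
    rw [hex, h3, L.add_mem_iff_right hz] at this
    exact ⟨hv.1, this⟩
  have e1 := (finrank_le_inf_ort (Q := Q) (kl F K w) z).trans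
    (Nat.add_le_add_right (Submodule.finrank_mono h2) 1)
  have e2 := Submodule.finrank_lt_finrank_of_lt (lt_of_le_of_ne
    (show kl F K w ⊓ L ≤ perp Q (kl F K w) ⊓ L from
      fun v hv => ⟨h.mem_perp_kl.2 (pol_kl hu.qe hv.1), hv.2⟩) fun e => hx' (e.symm ▸ ⟨h.mem_perp_kl.2 h0, hx⟩ : x ∈ kl F K w ⊓ L).1)
  have e3 := Submodule.finrank_lt_finrank_of_lt (lt_of_le_of_ne
    (inf_le_right : perp Q (kl F K w) ⊓ L ≤ L) fun e => hc (h.mem_perp_kl.1 (e.symm ▸ hz : z ∈ _ ⊓ L).1))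
  rw [finrank_kl hu.ne_zero] at e1
  rw [hp.right.finrank] at e3
  omega

theorem le_of_Z (h : Ctx Q q c M) (hr : finrank F K ≠ 2) (hu : IsHyp q w u) {ζ : K →ₗ[F] K}
    (hζ : ζ ∈ ZM M hu.qe) (h1 : ζ ≠ 0) (hp : MP q M L₀ L) : commutator (O Q) ≤ M := by
  have : Finite F := Finite.of_injective _ (algebraMap F K).injective
  obtain ⟨g, hg, rfl⟩ := h.exists_img hu.ne_zero hu.qe hp.left
  replace hp := hp.img (M.inv_mem hg)
  rw [img_inv_img] at hp
  generalize img g⁻¹ L = L at hp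
  have hI := fun L₀ L x => h.le_of_perp (L₀ := L₀) (L := L) (x := x) (fun e => absurd e hr) hu
    fun L hp x hx hx' h0 z => h.inter_Z hu hζ h1 hp hx hx' h0
  by_cases hB : ∃ x ∈ L, x ∉ kl F K w ∧ polar q w x = 0
  · obtain ⟨x, hx, hx', h0⟩ := hB
    exact hI _ _ x hp hx hx' (h.mem_perp_kl.2 h0)
  push Not at hB
  obtain ⟨x, hx, hx'⟩ := hp.exists_notMem
  have h0 := hB x hx hx'
  obtain ⟨y, hy, hQ, hy'⟩ := exists_sing_not_mem_of_finrank (Q := Q) (perp Q L ⊓ perp Q (kl F K w))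
    (perp Q L ⊓ kl F K w) (by
      have e1 := Submodule.finrank_sup_add_finrank_inf_eq (perp Q L) (perp Q (kl F K w))
      have e2 := Submodule.finrank_mono (sup_le (perp_anti inf_le_right) (perp_anti inf_le_left) :
        perp Q L ⊔ perp Q (kl F K w) ≤ perp Q (kl F K w ⊓ L))
      have e3 := Submodule.finrank_sup_add_finrank_inf_eq L (perp Q (kl F K w))
      have e4 := Submodule.finrank_mono (show L ⊓ perp Q (kl F K w) ≤ kl F K w ⊓ L from
        fun v hv => ⟨by by_contra hc; exact hB v hv.1 hc (h.mem_perp_kl.1 hv.2), hv.1⟩)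
      have e5 := Submodule.finrank_mono (show perp Q L ⊓ kl F K w ≤ perp Q (L ⊔ perp Q (kl F K w)) from
        fun v hv => mem_perp.2 fun a ha => by
          obtain ⟨a, h2, b, h3, rfl⟩ := Submodule.mem_sup.1 ha
          rw [polar_add_left, mem_perp.1 hv.1 a h2, pc (h3 v hv.2), add_zero])
      have e6 := finrank_perp h.nondeg L
      have e7 := finrank_perp h.nondeg (kl F K w)
      have e8 := finrank_perp h.nondeg (kl F K w ⊓ L)
      have e9 := finrank_perp h.nondeg (L ⊔ perp Q (kl F K w))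
      have e10 := finrank_mul_finrank F K V
      have e11 := Nat.mul_le_mul_left (finrank F K) h.h3
      have := h.hr.two_le
      rw [hp.right.finrank] at e3 e6
      rw [finrank_kl hu.ne_zero] at e7
      omega)
  have h2 := h.mem_perp_kl.1 hy.2
  have h3 : polar q w ((polar q w x)⁻¹ • y) = 0 := by simp [h2]
  obtain ⟨ζ, ⟨e, he, hex⟩, h4⟩ := h.exists_Z_apply hu hζ h1 h0
    (κ := q ((polar q w x)⁻¹ • y) * polar q w x - polar q ((polar q w x)⁻¹ • y) x) (by
      rw [← sub_eq_zero.2 (hQ.trans (pc (hy.1 x hx)).symm), h.pol, h.eq, ← map_sub, Q_smul,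
        polar_smul_left, smul_eq_mul]
      congr 1; field_simp)
  have e1 : (h.res (eich q w ((polar q w x)⁻¹ • y)) * e) x = x - y := by
    rw [O.mul_apply, hex, h4, TrQ.res_apply, map_add, map_smul, eich_apply_self hu.qe h3,
      eich_apply hu.qe h3, smul_inv_smul₀ h0]
    module
  have h5 : (h.res (eich q w ((polar q w x)⁻¹ • y)) * e) x ∉ L := fun e2 => by
    rw [e1, L.sub_mem_iff_right hx] at e2
    exact hB y e2 (fun e => hy' ⟨hy.1, e⟩) h2
  refine hI _ _ _ (hp.next (M.mul_mem (h.eich_mem _ _) he) (fun z hz _ => by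
    simp [hex, pol_kl hu.qe hz, eich_fix hu.qe h3 hz]) hx h5) (apply_mem_img.2 hx) h5 ?_
  rw [e1]
  exact Submodule.sub_mem _ (fun z hz => polar_eq_zero_of_ts (hp.right.ts h.toTrQ) z hz x hx) hy.1

end Ctx

end H91
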