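/- Matrix version: normalisers of self-adjoint extension fields in `Ω(Q)`. -/
import Cfsg.Agent.H91.OFMax
import Cfsg.Agent.H60.Bridge

set_option autoImplicit false
set_option linter.unusedSectionVars false

namespace H91

open QuadraticMap H56 H60 H62 Module Matrix Cfsg Cfsg.Geo

universe u

section
variable {F K V : Type*} [Field F] [Field K] [Algebra F K] [AddCommGroup V] [Module F V]
  [Module K V] [IsScalarTower F K V] {Q : QuadraticForm F V} {q : QuadraticForm K V} {c : Dual F K}
  [Finite K] [FiniteDimensional K V] [FiniteDimensional F V]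

theorem exists_trQ (hQ : Q.polarBilin.Nondegenerate) (h2 : (2 : F) ≠ 0)
    (hsa : ∀ (k : K) u v, polar Q (k • u) v = polar Q u (k • v)) (hc : c ≠ 0) :
    ∃ q : QuadraticForm K V, TrQ Q q c := by
  have h2' : (2 : K) ≠ 0 := by rw [← map_ofNat (algebraMap F K) 2]; simpa using h2
  choose φ hφ using fun x => exists_comp_eq (K := K) hc (Q.polarBilin x)
  have e : ∀ (k : K) x y, c (k * φ x y) = polar Q x (k • y) := fun k x y => by
    rw [← smul_eq_mul, ← map_smul, hφ]; rfl
  let b : LinearMap.BilinForm K V :=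
    { toFun := φ
      map_add' := fun x y => LinearMap.ext fun v => dual_mul_ext hc fun k => by
        simp [mul_add, e]
      map_smul' := fun a x => LinearMap.ext fun v => dual_mul_ext hc fun k => by
        simp [← mul_assoc, e, hsa, smul_smul, mul_comm] }
  have hs : ∀ x y, φ x y = φ y x := fun x y => dual_mul_ext hc fun k => by
    rw [e, e, ← hsa, polar_comm]
  have hp : ∀ x y, polar ((2⁻¹ : K) • b.toQuadraticMap) x y = φ x y := fun x y => by
    rw [FunLike.coe_smul, polar_smul, LinearMap.BilinMap.polar_toQuadraticMap]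
    change _ • (φ x y + φ y x) = _
    rw [hs y x, ← two_mul, smul_eq_mul, inv_mul_cancel_left₀ h2']
  refine ⟨(2⁻¹ : K) • b.toQuadraticMap, nondegenerate_of_polar fun x hx => eq_zero_of_polar hQ
    fun y => by rw [← one_smul K y, ← e, ← hp, hx, mul_zero, map_zero], hc, fun x => ?_, h2'⟩
  change _ = c (2⁻¹ * φ x x)
  rw [e, show (2⁻¹ : K) = algebraMap F K 2⁻¹ by simp [map_ofNat], algebraMap_smul, polar_smul_right,
    polar_self', smul_eq_mul, inv_mul_cancel_left₀ h2]

theorem Ctx.exists_not_normK (h : Ctx Q q c ⊤) : ∃ g ∈ commutator (O Q), ¬ NormK K g.1 := by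
  have : Finite F := Finite.of_injective _ (algebraMap F K).injective
  have := h.fd
  obtain ⟨w, -, hw0, hw⟩ := exists_sing (Q := q) ⊤ (by simpa using h.h3)
  obtain ⟨u, hu⟩ := exists_isHyp h.nd hw0 hw
  obtain ⟨b, hb⟩ := exists_dual_apply_eq_one h.ne
  obtain ⟨a, -, ha, ha'⟩ := exists_mem_notMem_ker (F := F) (V := K) [c] (W := ⊤) (Z := ⊥)
    (by simpa using h.hr.one_lt)
  refine ⟨eich Q (a • u) (b • u), H60.eich_mem_commutator h.nondeg h.five _ _, fun hn => ?_⟩
  obtain ⟨k, hk⟩ := h.exists_Q_ne (a := eich Q (a • u) (b • u) w) (by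
    simpa [Ctx.eich_kl_apply h.toTrQ hu.qf, hu.fe, hb, ha' c (by simp), hu.Q_add_smul] using ha)
  obtain ⟨k', hk'⟩ := hn k
  have h1 := hk' u
  simp only [O.coe_apply, Ctx.eich_kl_apply h.toTrQ hu.qf, polar_smul_right, hu.ff, smul_zero,
    mul_zero, map_zero, zero_smul, sub_zero, add_zero] at h1
  obtain rfl := smul_left_injective K hu.symm.ne_zero h1
  exact hk (by rw [← O.coe_apply, ← hk', O.coe_apply, O.map_Q, h.Q_kw hw])

end

variable {ι : Type} [Fintype ι] [DecidableEq ι] {F : Type u} [Field F] [Finite F]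

theorem isMaximalIn_o_field_of {Q : QuadraticForm F (ι → F)} (hQ : Q.polarBilin.Nondegenerate)
    (h2 : (2 : F) ≠ 0) {r : ℕ} (hr : r.Prime) (h3 : 3 * r ≤ Fintype.card ι)
    {K : Subalgebra F (Matrix ι ι F)} (hK : IsFieldSubalgebra r K)
    (hsa : IsSelfAdjointFor (polar ⇑Q) K)
    (H : ∀ (K : Type u) [Field K] [Algebra F K] [Module K (ι → F)] [IsScalarTower F K (ι → F)]
      [Finite K] [FiniteDimensional K (ι → F)] (q : QuadraticForm K (ι → F)) (c : Dual F K)
      (M : Subgroup (O Q)), finrank F K = r → r * finrank K (ι → F) = Fintype.card ι → Ctx Q q c M →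
      M ≤ commutator (O Q) → ∀ g ∈ M, ¬ NormK K g.1 → commutator (O Q) ≤ M) :
    IsMaximalIn (omegaGL ⇑Q) (subalgebraNormalizer K ⊓ omegaGL ⇑Q) := by
  have : Nonempty ι := Fintype.card_pos_iff.1 (by have := hr.pos; omega)
  obtain ⟨K', _, _, _, _, _, h0, h1, h4⟩ := exists_field_model hK
  have : Module.Finite K' (ι → F) := Module.Finite.of_restrictScalars_finite F K' _
  obtain ⟨q, h⟩ := exists_trQ (K := K') hQ h2 (fun k u v => by
    obtain ⟨A, hA, hx⟩ := h4 k
    simpa only [← hx] using hsa A hA u v) (Algebra.trace_ne_zero F K')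
  have h5 := finrank_mul_finrank F K' (ι → F)
  rw [h0, finrank_fintype_fun_eq_card] at h5
  have h6 : 3 ≤ finrank K' (ι → F) := Nat.le_of_mul_le_mul_left (by omega) hr.pos
  have h7 : ∀ g : O Q, g ∈ (subalgebraNormalizer K).comap (toGL Q) ↔ NormK K' g.1 := fun g => by
    rw [Subgroup.mem_comap, mem_subalgebraNormalizer_iff h1 h4,
      show toLE (toGL Q g) = g.1 from LinearEquiv.ext (toGL_mulVec g)]
  refine isMaximalIn_GL (isMaximalIn_of ?_ fun M hM hM' g hg hn => H K' q _ M h0 h5
    ⟨h, h0 ▸ hr, h6, fun e he => hM ⟨(h7 _).2 (NormK.of_lin fun k v => map_smul e k v), ?_⟩⟩ hM' g hg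
    (mt (h7 g).2 hn))
  · simpa only [h7] using Ctx.exists_not_normK ⟨h, h0 ▸ hr, h6, fun _ _ => trivial⟩
  · have := Subgroup.mem_map_of_mem h.res he
    rw [commutator, Subgroup.map_commutator] at this
    exact Subgroup.commutator_mono le_top le_top this

/-- dimension at least four over the extension field -/
theorem isMaximalIn_o_field {Q : QuadraticForm F (ι → F)} (hQ : Q.polarBilin.Nondegenerate)
    (h2 : (2 : F) ≠ 0) {r : ℕ} (hr : r.Prime) (h3 : 3 * r < Fintype.card ι)
    {K : Subalgebra F (Matrix ι ι F)} (hK : IsFieldSubalgebra r K)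
    (hsa : IsSelfAdjointFor (polar ⇑Q) K) :
    IsMaximalIn (omegaGL ⇑Q) (subalgebraNormalizer K ⊓ omegaGL ⇑Q) :=
  isMaximalIn_o_field_of hQ h2 hr h3.le hK hsa fun K _ _ _ _ _ _ q c M _ h1 h _ g hg hn => by
    have h4 : 3 < finrank K (ι → F) := Nat.lt_of_mul_lt_mul_left (a := r) (by omega)
    obtain ⟨A, B, hp⟩ := h.exists_MP (fun _ => h4) hg hn
    exact h.le_of_four h4 hp

theorem two_ne_zero_of_odd {F : Type*} [Field F] [Fintype F] (h : Odd (Fintype.card F)) :
    (2 : F) ≠ 0 := fun e => by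
  have := FiniteField.even_card_of_char_two (F := F)
    (CharP.ringChar_of_prime_eq_zero Nat.prime_two (by exact_mod_cast e))
  have := Nat.odd_iff.1 h
  omega

end H91
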