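/- Maximality of stabilisers of orthogonal decompositions into five or six planes. -/
import Cfsg.Agent.H60.DecAll

set_option autoImplicit false
set_option linter.unusedSectionVars false

namespace H91

open QuadraticMap H56 H60 Module Submodule Cfsg.Geo

variable {F V : Type*} [Field F] [AddCommGroup V] [Module F V] {Q : QuadraticForm F V}
  [FiniteDimensional F V] [Finite F] {ι : Type*} [Fintype ι] [DecidableEq ι]
  {D : ι → Submodule F V} {M : Subgroup (O Q)}

theorem le_dstab_even (h : DecM 2 D M) (hg : GoodPlanes Q D) (h2 : (2 : F) = 0)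
    (ht : 4 ≤ Fintype.card ι) : M ≤ dstab Q D := fun g hgM => by
  have := SqCl.subsingleton_of_char_two (F := F) h2
  have F2 : ∀ g ∈ M, ∀ l, ∀ u ∈ D l, ∀ v, Q u ≠ 0 → Q v ≠ 0 → polar Q u v ≠ 0 → u ∉ span F {v} →
      refl Q (g u) * refl Q (g v) ∈ dstab Q D → g ∈ dstab Q D := fun g hgM l u hu v a b c d e => by
    obtain ⟨m, hm⟩ := h.mem_of_refl_mul_refl le_rfl (by rwa [O.map_Q]) (by rwa [O.map_Q])
      (by rwa [O.map_polar]) (apply_not_mem_span g d) e
    exact h.mem_dstab_of_mem_two hg h2 (by omega) hgM hu a hm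
  have key : ∀ g ∈ M, ∀ i, ∀ w ∈ D i, Q w ≠ 0 → ∀ l, (∀ x ∈ D l, polar Q (g x) w = 0) →
      g ∈ dstab Q D ⊓ commutator (O Q) := fun g hgM i w hw hQw l ho => by
    obtain ⟨u, hu, v, hv, hQu, hQv, hc, huv, hn⟩ := h.exists_good_pair_two hg l
    refine ⟨F2 g hgM l u hu v hQu hQv huv hn (h.mem_dstab_of_mem_two hg h2 (by omega)
      (RR.apply (h.mem_RR hu hv hQu hQv hc) hgM).2 hw hQw (i' := i) ?_), h.le' hgM⟩
    rwa [O.mul_apply, refl_apply_of_orth (ho v hv), refl_apply_of_orth (ho u hu)]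
  have hΩ : ∀ {a b : V}, Q a ≠ 0 → Q b ≠ 0 → refl Q a * refl Q b ∈ commutator (O Q) :=
    fun ha hb => H56.refl_mul_refl_mem_commutator h.hQ ha hb (Subsingleton.elim _ _)
  have hA : ∀ s ∈ M, ∀ i j, i ≠ j → ∀ u ∈ D i, ∀ b ∈ D j, Q u ≠ 0 →
      refl Q (s u) * refl Q (s b) ∈ dstab Q D → s ∈ dstab Q D ⊓ commutator (O Q) :=
    fun s hs i j hij u hu b hb hQu h1 => by
      have hub : u ∉ span F {b} := fun e => hij (h.eq_of_mem hu
        (span_le.2 (Set.singleton_subset_iff.2 hb) e) (by rintro rfl; simp at hQu))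
      obtain ⟨I, hI, hI'⟩ := h.exists_fixed h1 (mul_sq_of_commute (commute_refl (by
        simpa using h.orth i j hij u hu b hb)) (by simp) (by simp)) (refl_mul_refl_sub_mem _ _)
        le_rfl le_rfl
      have := finrank_span_pair_le (F := F) (s u) (s b)
      obtain ⟨r, hr⟩ := Finset.card_pos.1 (show 0 < I.card by omega)
      refine (inv_mem_iff).1 (key _ (M.inv_mem hs) i u hu hQu r fun x hx => ?_)
      rw [← O.polar_apply_right]
      exact pc (polar_eq_zero_of_fix (by rwa [O.map_Q]) (apply_not_mem_span s hub) (hI' r hr x hx))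
  let L : Subgroup (O Q) := ⨅ i, sstab Q (D i : Set V)
  have hL : ∀ j, ∀ y ∈ D j, refl Q y ∈ L := fun j y hy => by
    simp only [L, Subgroup.mem_iInf]
    intro i
    by_cases e : j = i
    · exact refl_mem_sstab (e ▸ hy)
    · exact fixer_le_sstab _ (refl_mem_fixer (h.orth j i e y hy))
  have hC : ∀ z ∈ L, z * z = 1 → z ≠ 1 → ∀ g ∈ M, g * z = z * g →
      g ∈ dstab Q D ⊓ commutator (O Q) := fun z hz hz2 hz1 g hgM hc => by
    simp only [L, Subgroup.mem_iInf] at hz
    have hzD : ∀ i, ∀ y ∈ D i, z y ∈ D i := fun i y hy => apply_mem_of_sstab (hz i) hy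
    have hzc : ∀ x, z (z x - x) = z x - x := fun x => by
      rw [map_sub, ← O.mul_apply, hz2, O.one_apply]
      linear_combination (norm := skip) h2 • (x - z x)
      module
    have hw : ∀ i, ∀ x ∈ D i, z x ≠ x → Q (z x - x) ≠ 0 := fun i x hx hzx hQc => by
      have hcD := sub_mem (hzD i x hx) hx
      obtain ⟨f, hf, hQf, hcf⟩ := (h.nd i).exists_partner hcD (sub_ne_zero.2 hzx) hQc
      have hef : IsHyp Q (z x - x) f := ⟨hQc, hQf, hcf⟩
      have hs := eq_span_of_hyp (h.dim i) hcD hf hQc hQf hcf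
      obtain ⟨α, β, e⟩ := mem_span_pair.1 (hs ▸ hzD i f hf)
      have h3 := z.map_polar (z x - x) f
      have h4 := z.map_Q f
      rw [hzc, ← e, polar_add_right, polar_smul_right, polar_smul_right, hef.ee, hcf] at h3
      rw [← e, hef.Q_comb, hQf] at h4
      have hβ : β = 1 := by simpa using h3
      rw [hβ, mul_one] at h4
      rw [hβ, h4, zero_smul, zero_add, one_smul] at e
      obtain ⟨s, t, e'⟩ := mem_span_pair.1 (hs ▸ hx)
      exact hzx (by rw [← e', map_add, map_smul, map_smul, hzc, ← e])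
    by_cases hf : ∃ l, ∀ y ∈ D l, z y = y
    · obtain ⟨l, hl⟩ := hf
      obtain ⟨i, x, hx, hzx⟩ : ∃ i, ∃ x ∈ D i, z x ≠ x := by
        by_contra hc
        push Not at hc
        exact hz1 (h.ext hc)
      exact key g hgM i _ (sub_mem (hzD i x hx) hx) (hw i x hx hzx) l fun y hy =>
        pc (z.polar_sub_fix x (by rw [← O.mul_apply, ← hc, O.mul_apply, hl y hy]))
    · push Not at hf
      have : Nontrivial ι := Fintype.one_lt_card_iff_nontrivial.1 (by omega)
      obtain ⟨i, j, hij⟩ := exists_pair_ne ι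
      obtain ⟨x, hx, hzx⟩ := hf i
      obtain ⟨y, hy, hzy⟩ := hf j
      have k1 := sub_mem (hzD i x hx) hx
      have k2 := sub_mem (hzD j y hy) hy
      have k3 : ∀ v, polar Q (g (z v - v)) (z x - x) = 0 := fun v => by
        rw [map_sub, ← O.mul_apply, hc, O.mul_apply]; exact z.polar_sub_fix _ (hzc x)
      refine hA g hgM i j hij _ k1 _ k2 (hw i x hx hzx) (h.mem_dstab_of_mem_two hg h2 ht
        (RR.apply (h.mem_RR k1 k2 (hw i x hx hzx) (hw j y hy hzy) (Subsingleton.elim _ _)) hgM).2 k1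
        (hw i x hx hzx) (i' := i) ?_)
      rwa [O.mul_apply, refl_apply_of_orth (k3 y), refl_apply_of_orth (k3 x)]
  obtain ⟨T, -, hT⟩ := Finset.exists_subset_card_eq (s := (Finset.univ : Finset ι)) (n := 4)
    (by rw [Finset.card_univ]; omega)
  obtain ⟨i, j, l, m, hij, hil, him, hjl, hjm, hlm, -⟩ := Finset.card_eq_four.1 hT
  obtain ⟨u, hu, v, hv, hQu, hQv, -, huv, hn⟩ := h.exists_good_pair_two hg i
  obtain ⟨b, hb, hQb⟩ := h.exists_ne j
  obtain ⟨c, hc, hQc⟩ := h.exists_ne l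
  obtain ⟨d, hd, hQd⟩ := h.exists_ne m
  have hconj : ∀ s : O Q, s * (refl Q u * refl Q b) * s⁻¹ = refl Q (s u) * refl Q (s b) :=
    fun s => by rw [← conj_refl, ← conj_refl]; group
  have ht0 : refl Q u * refl Q b * (refl Q u * refl Q b) = 1 :=
    mul_sq_of_commute (commute_refl (h.orth i j hij u hu b hb)) (by simp) (by simp)
  have hsq : ∀ s : O Q, refl Q (s u) * refl Q (s b) * (refl Q (s u) * refl Q (s b)) = 1 := fun s => by
    rw [← hconj, show ∀ t, s * t * s⁻¹ * (s * t * s⁻¹) = s * (t * t) * s⁻¹ from fun t => by group,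
      ht0]; simp
  have hst : ∀ s ∈ dstab Q D ⊓ commutator (O Q), ∃ p q, s u ∈ D p ∧ s b ∈ D q := fun s hs => by
    obtain ⟨p, hp⟩ := OrthDec.exists_of_dstab hs.1 i
    obtain ⟨q, hq⟩ := OrthDec.exists_of_dstab hs.1 j
    exact ⟨p, q, hp u hu, hq b hb⟩
  have hd' : ∀ y ∈ D i, Q y ≠ 0 → g ∈ dstab Q D ⊓ commutator (O Q) ∨
      g⁻¹ * (refl Q y * (refl Q b * (refl Q c * refl Q d))) * g ∈ dstab Q D ⊓ commutator (O Q) := by
    intro y hy hQy
    have hsq' : refl Q y * (refl Q b * (refl Q c * refl Q d)) *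
        (refl Q y * (refl Q b * (refl Q c * refl Q d))) = 1 :=
      mul_sq_of_commute ((commute_refl (h.orth i j hij y hy b hb)).mul_right
        ((commute_refl (h.orth i l hil y hy c hc)).mul_right (commute_refl (h.orth i m him y hy d hd))))
        (by simp) (mul_sq_of_commute ((commute_refl (h.orth j l hjl b hb c hc)).mul_right
          (commute_refl (h.orth j m hjm b hb d hd))) (by simp)
          (mul_sq_of_commute (commute_refl (h.orth l m hlm c hc d hd)) (by simp) (by simp)))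
    have hdL : refl Q y * (refl Q b * (refl Q c * refl Q d)) ∈ L :=
      mul_mem (hL i y hy) (mul_mem (hL j b hb) (mul_mem (hL l c hc) (hL m d hd)))
    have hmv : ∀ r ∈ ({i, j, l} : Finset ι), ∃ x ∈ D r,
        (refl Q y * (refl Q b * (refl Q c * refl Q d))) x ≠ x := fun r hr => by
      simp only [Finset.mem_insert, Finset.mem_singleton] at hr
      have hro : ∀ {p q a x}, p ≠ q → a ∈ D p → x ∈ D q → refl Q a x = x := fun e ha hx =>
        refl_apply_of_orth (h.orth _ _ e _ ha _ hx)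
      have hex : ∀ {p a}, a ∈ D p → Q a ≠ 0 → ∃ x ∈ D p, refl Q a x ≠ x := fun ha hQa => by
        obtain ⟨x, hx, e⟩ := (h.nd _).exists_polar_ne ha (by rintro rfl; simp at hQa)
        exact ⟨x, hx, refl_apply_ne hQa e⟩
      simp only [O.mul_apply]
      rcases hr with rfl | rfl | rfl
      · obtain ⟨x, hx, e⟩ := hex hy hQy
        exact ⟨x, hx, by rwa [hro him.symm hd hx, hro hil.symm hc hx, hro hij.symm hb hx]⟩
      · obtain ⟨x, hx, e⟩ := hex hb hQb
        exact ⟨x, hx, by rwa [hro hjm.symm hd hx, hro hjl.symm hc hx,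
          hro hij hy (refl_apply_mem hb hx)]⟩
      · obtain ⟨x, hx, e⟩ := hex hc hQc
        exact ⟨x, hx, by rwa [hro hlm.symm hd hx, hro hjl hb (refl_apply_mem hc hx),
          hro hil hy (refl_apply_mem hc hx)]⟩
    refine ti_lemma h.le ht0 hsq' ⟨mul_mem (h.refl_mem hu) (h.refl_mem hb), hΩ hQu hQb⟩
      ⟨mul_mem (h.refl_mem hy) (mul_mem (h.refl_mem hb) (mul_mem (h.refl_mem hc) (h.refl_mem hd))),
        by rw [← mul_assoc]; exact mul_mem (hΩ hQy hQb) (hΩ hQc hQd)⟩ (fun s hs h1 => ?_)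
      (fun s hs e => ?_) (hC _ hdL hsq' fun e => ?_)
      (fun s hs z hz => ?_) (fun s hs z hz => ?_) hgM
    · rw [hconj] at h1
      exact hA s hs i j hij u hu b hb hQu h1.1
    · rw [hconj] at e
      have := h.card_moved_le (e ▸ mul_mem (h.refl_mem hy) (mul_mem (h.refl_mem hb)
        (mul_mem (h.refl_mem hc) (h.refl_mem hd)))) (hsq s) (refl_mul_refl_sub_mem _ _) le_rfl le_rfl
        {i, j, l} (e ▸ hmv)
      rw [Finset.card_eq_three.2 ⟨i, j, l, hij, hil, hjl, rfl⟩] at this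
      have := finrank_span_pair_le (F := F) (s u) (s b)
      omega
    · obtain ⟨x, -, hx⟩ := hmv i (by simp)
      exact hx (by rw [e]; rfl)
    · obtain ⟨p, q, hp, hq⟩ := hst s hs
      refine hC z ?_
      rw [hz, hconj]
      exact mul_mem hdL (mul_mem (hL p _ hp) (hL q _ hq))
    · obtain ⟨p, q, hp, hq⟩ := hst s hs
      refine hC z ?_
      rw [hz, hconj]
      exact mul_mem (mul_mem (hL i _ hu) (hL j _ hb)) (mul_mem (hL p _ hp) (hL q _ hq))
  rcases hd' u hu hQu with h5 | h5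
  · exact h5.1
  rcases hd' v hv hQv with h6 | h6
  · exact h6.1
  refine (inv_mem_iff).1 (F2 _ (M.inv_mem hgM) i u hu v hQu hQv huv hn ?_)
  have h7 := (mul_mem h5 (inv_mem h6)).1
  rwa [show ∀ a b c : O Q, g⁻¹ * (a * c) * g * (g⁻¹ * (b * c) * g)⁻¹ =
    g⁻¹ * a * g⁻¹⁻¹ * (g⁻¹ * b⁻¹ * g⁻¹⁻¹) from fun a b c => by group, refl_inv, conj_refl,
    conj_refl] at h7

theorem le_dstab_odd (h : DecM 2 D M) (hg : GoodPlanes Q D) (h2 : (2 : F) ≠ 0)
    (ht : 5 ≤ Fintype.card ι) : M ≤ dstab Q D := fun g hgM => by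
  have hq : Nat.card F ≠ 2 := fun e => h2 (two_eq_zero_of_forall (eq_zero_or_one e))
  have F2 : ∀ g ∈ M, ∀ i, ∀ u ∈ D i, ∀ v ∈ D i, Q u ≠ 0 → Q v ≠ 0 → polar Q u v ≠ 0 →
      u ∉ span F {v} → refl Q (g u) * refl Q (g v) ∈ dstab Q D → g ∈ dstab Q D :=
    fun g hgM i u hu v hv hQu hQv huv hn h0 => by
      have hv0 : v ≠ 0 := by rintro rfl; simp at hQv
      obtain ⟨m, hm⟩ := h.mem_of_refl_mul_refl le_rfl (by rwa [O.map_Q]) (by rwa [O.map_Q])
        (by rwa [O.map_polar]) (apply_not_mem_span g hn) h0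
      obtain ⟨n, hn'⟩ := h.mem_of_refl_mul_refl le_rfl (a := g v) (b := g u) (by rwa [O.map_Q])
        (by rwa [O.map_Q]) (by rwa [O.map_polar, polar_comm]) (apply_not_mem_span g fun e => by
          obtain ⟨c, rfl⟩ := mem_span_singleton.1 e
          exact hn (mem_span_singleton.2 ⟨c⁻¹, inv_smul_smul₀ (left_ne_zero_of_smul hv0) u⟩))
        (by simpa using inv_mem h0)
      have h3 := h.eq_of_apply hm hn' huv
      refine h.mem_dstab_of_img hg hq (by omega) hgM (i := i) (i' := m) fun x hx => ?_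
      rw [← Submodule.eq_of_le_of_finrank_le (span_le.2 (Set.insert_subset hv
        (Set.singleton_subset_iff.2 hu))) (by
          rw [h.dim, finrank_span_pair ((LinearIndependent.pair_iff' hv0).2
            fun c e => hn (mem_span_singleton.2 ⟨c, e⟩))])] at hx
      obtain ⟨s, t, rfl⟩ := mem_span_pair.1 hx
      rw [map_add, map_smul, map_smul]
      exact add_mem (smul_mem _ _ h3) (smul_mem _ _ hm)
  have key : ∀ g ∈ M, ∀ i j, (∀ x ∈ D i, ∀ y ∈ D j, polar Q (g x) y = 0) → g ∈ dstab Q D :=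
    fun g hgM i j ho => by
      obtain ⟨u, hu, v, hv, hQu, hQv, hc, huv, hn⟩ := h.exists_good_pair_two hg i
      exact F2 g hgM i u hu v hv hQu hQv huv hn (h.mem_dstab_of_img hg hq (by omega)
        (RR.apply (h.mem_RR hu hv hQu hQv hc) hgM).2 (i := j) (i' := j) fun x hx => by
          rwa [O.mul_apply, refl_apply_of_orth (ho v hv x hx), refl_apply_of_orth (ho u hu x hx)])
  have hC : ∀ J : Finset ι, J.card ≠ 0 → J.card ≤ 4 → ∀ g ∈ M, g * h.dl J = h.dl J * g →
      g ∈ dstab Q D := fun J h0 h4 g hgM hc => by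
    obtain ⟨j, hj⟩ := Finset.card_ne_zero.1 h0
    obtain ⟨i, hi⟩ := exists_notMem_of_card J (by omega)
    refine key g hgM i j fun x hx y hy => polar_eq_zero_of_eigen h2 (h.dl J) ?_ ?_
    · rw [← O.mul_apply, ← hc, O.mul_apply, h.dl_apply J hx, if_neg hi]
    · rw [h.dl_apply J hy, if_pos hj]
  have ha : ∀ i j, ∀ g ∈ M, g * h.dl {i, j} * g⁻¹ ∈ dstab Q D → g ∈ dstab Q D := fun i j g hg h1 => by
    obtain ⟨I, hI, hI'⟩ := h.exists_fixed h1 (N := img g (D i ⊔ D j)) (by
      rw [show ∀ t, g * t * g⁻¹ * (g * t * g⁻¹) = g * (t * t) * g⁻¹ from fun t => by group,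
        h.dl_mul_self]; simp) (fun x => by
      rw [mem_img, map_sub, O.mul_apply, O.mul_apply, O.inv_apply_apply]
      refine h.le_of_forall (T := (D i ⊔ D j).comap ((h.dl {i, j}).lin - LinearMap.id))
        (fun l y hy => ?_) _
      simp only [mem_comap, LinearMap.sub_apply, O.lin_apply, LinearMap.id_apply, h.dl_apply _ hy]
      split_ifs with hl
      · rcases Finset.mem_insert.1 hl with rfl | hl
        · exact mem_sup_left (sub_mem (neg_mem hy) hy)
        · rw [Finset.mem_singleton.1 hl] at hy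
          exact mem_sup_right (sub_mem (neg_mem hy) hy)
      · simp) le_rfl le_rfl
    have h3 := finrank_sup_le (D i) (D j)
    rw [finrank_img] at hI
    rw [h.dim, h.dim] at h3
    obtain ⟨l, hl⟩ := Finset.card_pos.1 (show 0 < I.card by omega)
    refine (inv_mem_iff).1 (key _ (M.inv_mem hg) l i fun x hx y hy => ?_)
    rw [← O.polar_apply_right]
    refine polar_eq_zero_of_eigen h2 _ (hI' l hl x hx) ?_
    rw [O.mul_apply, O.mul_apply, O.inv_apply_apply, h.dl_apply _ hy, if_pos (by simp), map_neg]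
  have NS : ∀ l, ∀ a ∈ D l, Q a ≠ 0 → ∀ s t : F, t ≠ 0 → ¬ ∀ x ∈ D l, t • refl Q a x = s • x :=
    fun l a ha hQa s t ht0 hs => by
      obtain ⟨p, hp, hp0, hap⟩ := exists_orth_of_two (Q := Q) (h.dim l).ge a
      have e1 := hs a ha
      have e2 := hs p hp
      rw [refl_apply_self hQa, smul_neg, ← neg_smul] at e1
      rw [refl_apply_of_orth hap] at e2
      have e3 := smul_left_injective F (show a ≠ 0 by rintro rfl; simp at hQa) e1
      have e4 := smul_left_injective F hp0 e2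
      exact mul_ne_zero h2 ht0 (by linear_combination e4 - e3)
  have hdl : ∀ (P : Finset ι) l, ∃ s : F, s ≠ 0 ∧ ∀ x ∈ D l, h.dl P x = s • x := fun P l => by
    by_cases e : l ∈ P
    · exact ⟨-1, by simp, fun x hx => by rw [h.dl_apply P hx, if_pos e, neg_one_smul]⟩
    · exact ⟨1, by simp, fun x hx => by rw [h.dl_apply P hx, if_neg e, one_smul]⟩
  have hX : ∀ l m, l ≠ m → ∀ a ∈ D l, ∀ b ∈ D m, Q a ≠ 0 → Q b ≠ 0 → ∀ P : Finset ι, ∀ g ∈ M,
      g * (refl Q a * refl Q b * h.dl P) = refl Q a * refl Q b * h.dl P * g → g ∈ dstab Q D :=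
    fun l m hlm a haD b hb hQa hQb P g hgM hc => by
      set z := refl Q a * refl Q b * h.dl P with hz
      have k1 : ∀ i j, i ≠ j → h.dl {i, j} ∈ dstab Q D ⊓ (M ⊓ Subgroup.centralizer {z}) :=
        fun i j hij => ⟨h.dl_mem _, h.le ⟨h.dl_mem _, h.dl_pair_mem hij⟩,
          Subgroup.mem_centralizer_singleton_iff.2 (by
            obtain ⟨s, hs, hs'⟩ := hdl {i, j} l
            obtain ⟨t, ht, ht'⟩ := hdl {i, j} m
            rw [hz, ← mul_assoc, ← mul_assoc, mul_refl (h.dl {i, j}) a, hs' a haD, refl_smul hs,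
              mul_assoc (refl Q a), mul_refl (h.dl {i, j}) b, ht' b hb, refl_smul ht]
            simp only [mul_assoc, h.dl_mul, symmDiff_comm P])⟩
      have k2 : ∀ k ∈ dstab Q D ⊓ (M ⊓ Subgroup.centralizer {z}),
          k * h.dl {l, m} * k⁻¹ = h.dl {l, m} := by
        rintro k ⟨⟨σ, hσ⟩, -, hk⟩
        have k3 : ∀ r, ∀ c ∈ D r, Q c ≠ 0 → (∀ x ∈ D r, (refl Q a * refl Q b) x = refl Q c x) →
            σ r ∈ ({l, m} : Finset ι) := fun r c hc hQc hr => by_contra fun hn => by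
          simp only [Finset.mem_insert, Finset.mem_singleton, not_or] at hn
          obtain ⟨s, -, hs'⟩ := hdl P (σ r)
          obtain ⟨t, ht, ht'⟩ := hdl P r
          refine NS r c hc hQc s t ht fun x hx => k.injective ?_
          have k4 : k x ∈ D (σ r) := by rw [← hσ, apply_mem_img]; exact hx
          have k5 := congrArg (· x) (Subgroup.mem_centralizer_singleton_iff.1 hk)
          simp only [hz, O.mul_apply (refl Q a * refl Q b), O.mul_apply k, O.mul_apply _ k] at k5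
          rw [ht' x hx, hs' _ k4, map_smul, map_smul, map_smul, hr x hx, O.mul_apply,
            refl_apply_of_orth (h.orth _ _ (Ne.symm hn.2) b hb _ k4),
            refl_apply_of_orth (h.orth _ _ (Ne.symm hn.1) a haD _ k4)] at k5
          rw [map_smul, map_smul, k5]
        rw [h.conj_dl hσ]
        congr 1
        refine Finset.eq_of_subset_of_card_le (fun r hr => ?_) (by rw [Finset.card_map])
        obtain ⟨r, hr', rfl⟩ := Finset.mem_map.1 hr
        rcases Finset.mem_insert.1 hr' with rfl | hr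
        · exact k3 r a haD hQa fun x hx => by
            rw [O.mul_apply, refl_apply_of_orth (h.orth _ _ hlm.symm b hb x hx)]
        · rw [Finset.mem_singleton.1 hr]
          exact k3 m b hb hQb fun x hx => by
            rw [O.mul_apply, refl_apply_of_orth (h.orth _ _ hlm a haD _ (refl_apply_mem hb hx))]
      obtain ⟨i, hil, him, -⟩ := exists_ne_ne_ne (by omega) l m m
      have hne : ({l, m} : Finset ι) ≠ {l, i} := fun e => by
        have : i ∈ ({l, m} : Finset ι) := by rw [e]; simp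
        simp [hil, him] at this
      refine (ti_lemma (M := M ⊓ Subgroup.centralizer {z}) inf_le_right (h.dl_mul_self _)
        (h.dl_mul_self _) (k1 l m hlm) (k1 l i hil.symm)
        (fun k hk e => ⟨ha l m k hk.1 e.1, hk⟩) (fun k hk e => hne (h.dl_injective h2
          ((k2 k hk).symm.trans e))) (fun k hk e => ⟨hC _ (by simp) (Finset.card_le_two.trans
            (by omega)) k hk.1 e, hk⟩) (fun k hk z' hz' _ hz1 k' hk' e => ⟨?_, hk'⟩)
        (fun k hk z' hz' _ hz1 => absurd (by rw [hz', k2 k hk, h.dl_mul_self]) hz1)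
        ⟨hgM, Subgroup.mem_centralizer_singleton_iff.2 hc⟩).elim (fun e => e.1)
        fun e => (inv_mem_iff).1 (ha l i _ (M.inv_mem hgM) (by simpa using e.1))
      rw [hz', k2 k hk, h.dl_mul] at hz1 e
      have := card_symmDiff_add {l, i} ({l, m} : Finset ι)
      have := Finset.card_le_two (a := l) (b := i)
      have := Finset.card_le_two (a := l) (b := m)
      exact hC _ (fun e0 => hz1 (by rw [Finset.card_eq_zero.1 e0, h.dl_empty])) (by omega) k' hk'.1 e
  have : Nontrivial ι := Fintype.one_lt_card_iff_nontrivial.1 (by omega)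
  obtain ⟨l, m, hlm⟩ := exists_pair_ne ι
  have hp : ({l, m} : Finset ι).card = 2 := Finset.card_pair hlm
  have hconj : ∀ s ∈ dstab Q D ⊓ M, ∃ P : Finset ι, P.card = 2 ∧
      s * h.dl {l, m} * s⁻¹ = h.dl P := by
    rintro s ⟨⟨σ, hσ⟩, -⟩
    exact ⟨_, by rw [Finset.card_map, hp], h.conj_dl hσ _⟩
  obtain ⟨u, hu, v, hv, hQu, hQv, hc, huv, hn⟩ := h.exists_good_pair_two hg l
  obtain ⟨b, hb, hQb⟩ := h.exists_Q_eq m hu
  have hd : ∀ a ∈ D l, Q a ≠ 0 → sqcl (Q a) = sqcl (Q b) → g ∈ dstab Q D ⊓ M ∨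
      g⁻¹ * (refl Q a * refl Q b) * g ∈ dstab Q D ⊓ M := fun a haD hQa hab => by
    refine ti_lemma inf_le_right (h.dl_mul_self _) (mul_sq_of_commute (commute_refl
      (h.orth l m hlm a haD b hb)) (by simp) (by simp))
      ⟨h.dl_mem _, h.le ⟨h.dl_mem _, h.dl_pair_mem hlm⟩⟩
      ⟨mul_mem (h.refl_mem haD) (h.refl_mem hb), (h.mem_RR haD hb hQa (hQb ▸ hQu) hab).2⟩
      (fun k hk e => ⟨ha l m k hk e.1, hk⟩) (fun s hs e => ?_) (fun k hk e => ⟨hX l m hlm a haD b hb hQa
        (hQb ▸ hQu) ∅ k hk (by rwa [h.dl_empty, mul_one]), hk⟩)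
      (fun s hs z hz _ _ k hk e => ⟨?_, hk⟩) (fun s hs z hz _ hz1 k hk e => ⟨?_, hk⟩) hgM <;>
      obtain ⟨P, hP, e'⟩ := hconj s hs
    · obtain ⟨t, -, ht'⟩ := hdl P l
      refine NS l a haD hQa t 1 one_ne_zero fun x hx => ?_
      rw [← ht' x hx, ← e', e, O.mul_apply, refl_apply_of_orth (h.orth _ _ hlm.symm b hb x hx),
        one_smul]
    · rw [hz, e'] at e
      exact hX l m hlm a haD b hb hQa (hQb ▸ hQu) P k hk e
    · rw [hz, e', h.dl_mul] at hz1 e
      have := card_symmDiff_add {l, m} P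
      exact hC _ (fun e0 => hz1 (by rw [Finset.card_eq_zero.1 e0, h.dl_empty])) (by omega) k hk e
  rcases hd u hu hQu (by rw [hQb]) with h5 | h5
  · exact h5.1
  rcases hd v hv hQv (by rw [hQb, hc]) with h6 | h6
  · exact h6.1
  refine (inv_mem_iff).1 (F2 _ (M.inv_mem hgM) l u hu v hv hQu hQv huv hn ?_)
  have h7 := (mul_mem h5 (inv_mem h6)).1
  rwa [show ∀ a b c : O Q, g⁻¹ * (a * c) * g * (g⁻¹ * (b * c) * g)⁻¹ =
    g⁻¹ * a * g⁻¹⁻¹ * (g⁻¹ * b⁻¹ * g⁻¹⁻¹) from fun a b c => by group, refl_inv, conj_refl,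
    conj_refl] at h7

omit [DecidableEq ι] in
/-- Maximality of decomposition stabilisers, at least five planes. -/
theorem maximal_planes (h : OrthDec Q 2 D) (hg : GoodPlanes Q D) (ht : 5 ≤ Fintype.card ι) :
    IsMaximalIn (commutator (O Q)) (dstab Q D ⊓ commutator (O Q)) := by
  classical
  have h5 : 5 ≤ finrank F V := by rw [h.finrank_eq]; omega
  refine isMaximalIn_of (h.exists_not_mem_two hg (by omega)) fun M hM hM' g hgM hgS => ?_
  by_contra hc
  by_cases h2 : (2 : F) = 0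
  · exact hgS (le_dstab_even ⟨h, h5, hM, hM', hc⟩ hg h2 (by omega) hgM)
  · exact hgS (le_dstab_odd ⟨h, h5, hM, hM', hc⟩ hg h2 ht hgM)

/-- Matrix form of `maximal_planes`. -/
theorem maximal_planes_GL {κ : Type} [Fintype κ] [DecidableEq κ] {F : Type*} [Field F] [Fintype F]
    {Q : QuadraticForm F (κ → F)} (hQ : Q.polarBilin.Nondegenerate) {t : ℕ} (ht : 5 ≤ t)
    {D : Fin t → Submodule F (κ → F)} (hD : IsOrthogonalMDecomposition ⇑Q 2 D)
    (hq : 7 ≤ Fintype.card F ∨ (Fintype.card F ≠ 3 ∧ ¬ ∀ i, IsPlusTypeOn ⇑Q (D i))) :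
    IsMaximalIn (omegaGL ⇑Q) (decompositionStabilizer D ⊓ omegaGL ⇑Q) := by
  have h := orthDec_of hQ hD
  refine isMaximalIn_GL ?_
  rw [comap_decompositionStabilizer]
  refine maximal_planes h ?_ (by simpa using ht)
  rw [GoodPlanes, Nat.card_eq_fintype_card]
  by_cases hp : ∃ j, IsPlusTypeOn ⇑Q (D j)
  · obtain ⟨j, hj⟩ := hp
    exact Or.inl ⟨hq.resolve_right fun e => e.2 (h.plus_all hj),
      fun i => hasHyp_of_isPlusTypeOn (h.nd i) (h.ne_bot i) (h.plus_all hj i)⟩
  · refine Or.inr ⟨by omega, fun j y hy hQy => by_contra fun h0 =>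
      hp ⟨j, span F {y}, span_le.2 (Set.singleton_subset_iff.2 hy), fun w hw => ?_,
        by rw [finrank_span_singleton h0, h.dim]⟩⟩
    obtain ⟨c, rfl⟩ := mem_span_singleton.1 hw
    simp [Q_smul, hQy]

end H91
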