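/- Matrix wrappers for the low-dimensional orthogonal tables. -/
import Cfsg.Agent.H60.GUMat
import Cfsg.Agent.H60.SubfMat
import Cfsg.Agent.H91.FrMax
import Cfsg.Agent.H91.ND4
import Cfsg.Agent.H91.OFMat
import Cfsg.Agent.H91.Planes

set_option autoImplicit false

namespace H91

open QuadraticMap H56 H60 Module Submodule Cfsg.Geo

variable {κ : Type} [Fintype κ] [DecidableEq κ] {F : Type*} [Field F] [Fintype F]
  {Q : QuadraticForm F (κ → F)}

omit [DecidableEq κ] in
theorem plus_of_planes {ι : Type*} [Fintype ι] {D : ι → Submodule F (κ → F)} (h : OrthDec Q 2 D)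
    (hp : ∀ i, IsPlusTypeOn ⇑Q (D i)) : IsPlusTypeOn ⇑Q ⊤ := by
  classical
  have : ∀ i, ∃ e ∈ D i, e ≠ 0 ∧ Q e = 0 := fun i => by
    obtain ⟨e, he, f, -, h1, -, h2⟩ := hasHyp_of_isPlusTypeOn (h.nd i) (h.ne_bot i) (hp i)
    exact ⟨e, he, by rintro rfl; simp at h2, h1⟩
  choose e he h0 hQ using this
  have hi : LinearIndependent F e := Fintype.linearIndependent_iff.2 fun g hg i => by
    have := congrArg (h.pr i) hg
    rw [map_sum, Finset.sum_eq_single i (fun j _ hj => h.pr_of_ne hj (smul_mem _ _ (he j))) (by simp),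
      h.pr_of_mem (smul_mem _ _ (he i)), map_zero] at this
    exact (smul_eq_zero.1 this).resolve_right (h0 i)
  refine ⟨span F (Set.range e), le_top, fun w hw => ?_, ?_⟩
  · obtain ⟨c, rfl⟩ := (mem_span_range_iff_exists_fun F).1 hw
    rw [h.Q_sum fun i => smul_mem _ _ (he i)]
    simp [Q_smul, hQ]
  · rw [finrank_span_eq_card hi, finrank_top, h.finrank_eq, mul_comm]

theorem nondeg_GL (hQ : Q.polarBilin.Nondegenerate) (h9 : 9 ≤ Fintype.card κ)
    {W : Submodule F (κ → F)} (h0 : finrank F W ≠ 0) (h1 : finrank F W ≠ Fintype.card κ)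
    (h2 : 2 * finrank F W ≠ Fintype.card κ) (h3 : finrank F W + 2 ≠ Fintype.card κ)
    (hex : finrank F W = 2 → IsPlusTypeOn ⇑Q W → 4 ≤ Fintype.card F)
    (hW : IsNondegenerateOn (polar ⇑Q) W) :
    IsMaximalIn (omegaGL ⇑Q) (subspaceStabilizer W ⊓ omegaGL ⇑Q) := by
  apply isMaximalIn_GL
  rw [comap_subspaceStabilizer]
  have hn : finrank F (κ → F) = Fintype.card κ := by simp
  have hd := finrank_perp hQ W
  exact nondeg_maximal_ne hQ (nondeg_of_on hW) (by rintro rfl; simp at h0) (by rintro rfl; simp at h1)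
    (fun h => by
      have := hex h.2.1 h.isPlusTypeOn
      have := h.1
      rw [Nat.card_eq_fintype_card] at this; omega)
    (fun h => by have := h.2.1; omega) (by omega) (by omega)

theorem halves_GL (hQ : Q.polarBilin.Nondegenerate) {k : ℕ} (h5 : 5 ≤ k)
    (hk : Fintype.card κ = 2 * k) {D : Fin 2 → Submodule F (κ → F)}
    (hD : IsNondegenerateMDecomposition (polar ⇑Q) k D) (hni : ¬ AreIsometricFor ⇑Q (D 0) (D 1)) :
    IsMaximalIn (omegaGL ⇑Q) (decompositionStabilizer D ⊓ omegaGL ⇑Q) := by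
  apply isMaximalIn_GL
  have hn' : finrank F (κ → F) = Fintype.card κ := by simp
  have h0 := hD.decomp.finrank_eq 0
  have h1 := hD.decomp.finrank_eq 1
  have hd := finrank_perp hQ (D 0)
  have hp : D 1 = perp Q (D 0) := Submodule.eq_of_le_of_finrank_le
    (fun x hx y hy => hD.orthogonal 0 1 (by decide) y hy x hx) (by omega)
  have hni' : ∀ g : O Q, img g (D 0) ≠ D 1 := fun g hg => hni
    ⟨(g.1.submoduleMap (D 0)).trans (LinearEquiv.ofEq _ _ hg), fun w => g.map_Q w⟩
  have hS : (decompositionStabilizer D).comap (toGL Q) = sstab Q (D 0 : Set (κ → F)) := by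
    ext g
    rw [mem_comap_decompositionStabilizer, ← img_eq_iff]
    constructor
    · rintro ⟨σ, hσ⟩
      have h := hσ 0
      generalize σ 0 = j at h
      fin_cases j
      · exact h
      · exact absurd h (hni' g)
    · intro h
      refine ⟨1, fun i => ?_⟩
      fin_cases i
      · exact h
      · change img g (D 1) = D 1
        rw [hp, img_perp, h]
  rw [hS]
  refine nondeg_maximal hQ (by omega) (nondeg_of_on (hD.nondegenerate 0)) ?_ ?_ ?_ ?_ ?_
  · intro h
    rw [h, finrank_bot] at h0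
    omega
  · intro h
    rw [h, finrank_top] at h0
    omega
  · intro h
    have := h.2.1
    omega
  · intro h
    have := h.2.1
    omega
  · rw [← hp]; exact hni'

theorem parabolic_GL (hQ : Q.polarBilin.Nondegenerate) (h5 : 5 ≤ Fintype.card κ)
    {W : Submodule F (κ → F)} (h0 : W ≠ ⊥) (hW : IsTotallySingularQuad ⇑Q W)
    (h : 2 * (finrank F W + 1) ≠ Fintype.card κ ∨ ¬ IsPlusTypeOn ⇑Q ⊤) :
    IsMaximalIn (omegaGL ⇑Q) (subspaceStabilizer W ⊓ omegaGL ⇑Q) := by
  apply isMaximalIn_GL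
  rw [comap_subspaceStabilizer]
  exact parabolic_maximal hQ (by simpa using h5) h0 hW (h.imp (by simp)
    fun h U hU e => h ⟨U, le_top, hU, by simpa using e⟩)

theorem point_GL (hQ : Q.polarBilin.Nondegenerate) (h7 : 7 ≤ Fintype.card κ) {v : κ → F}
    (hv : Q v ≠ 0) : IsMaximalIn (omegaGL ⇑Q) (subspaceStabilizer (span F {v}) ⊓ omegaGL ⇑Q) := by
  apply isMaximalIn_GL
  rw [comap_subspaceStabilizer]
  exact point_maximal hQ (by simpa using h7) hv

end H91
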