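/- Auxiliary group theory and field theory for extension field subgroups of orthogonal groups. -/
import Cfsg.Agent.H91.OFBase
import Cfsg.Agent.H1.CoprimeGen

set_option autoImplicit false

namespace H91

open Module

/-- A non-cyclic abelian `p`-subgroup which is malnormal is the whole group. -/
theorem eq_top_of_malnormal {G : Type*} [Group G] [Finite G] {p : ℕ} [Fact p.Prime] {P : Subgroup G}
    (hp : IsPGroup p P) [IsMulCommutative P] (hc : ¬ IsCyclic P)
    (h : ∀ g : G, ∀ a ∈ P, a ≠ 1 → g * a * g⁻¹ ∈ P → g ∈ P) : P = ⊤ := by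
  have h1 : ∀ g : G, ∀ a ∈ P, a ≠ 1 → g * a = a * g → g ∈ P := fun g a ha h0 e =>
    h g a ha h0 (by rwa [e, mul_inv_cancel_right])
  obtain ⟨a, ha, h0⟩ : ∃ a ∈ P, a ≠ 1 := by
    by_contra! hc'
    exact hc ((Subgroup.eq_bot_iff_forall P).2 hc' ▸ inferInstance)
  obtain ⟨S, hS⟩ := hp.exists_le_sylow
  have : Nontrivial S := ⟨⟨a, hS ha⟩, 1, fun e => h0 (congrArg Subtype.val e)⟩
  obtain ⟨z, hz, hz1⟩ := (Subgroup.nontrivial_iff_exists_ne_one _).1 S.2.center_nontrivial
  have hz2 : (z : G) ∈ P := h1 (z : G) a ha h0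
    (congrArg Subtype.val (Subgroup.mem_center_iff.1 hz ⟨a, hS ha⟩)).symm
  obtain rfl : P = S := le_antisymm hS fun s hs => h1 s z hz2 (by simpa using hz1)
    (congrArg Subtype.val (Subgroup.mem_center_iff.1 hz ⟨s, hs⟩))
  have hN : Subgroup.normalizer (S : Subgroup G) ≤ Subgroup.centralizer (S : Subgroup G) :=
    fun g hg => Subgroup.le_centralizer (S : Subgroup G) (h g a ha h0 ((Subgroup.mem_normalizer_iff.1 hg a).1 ha))
  have h2 := MonoidHom.ker_transferSylow_isComplement' S hN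
  obtain ⟨n, hn⟩ := IsPGroup.iff_card.1 S.2
  have h3 := H1.le_of_noncyclic_centralizer_le hc (K := (MonoidHom.transferSylow S hN).ker)
    (by rw [Subgroup.normalizer_eq_top]; exact le_top) (hn ▸ Nat.Coprime.pow_left n
      ((Nat.Prime.coprime_iff_not_dvd Fact.out).2 (MonoidHom.not_dvd_card_ker_transferSylow S hN)))
    ⊥ fun b hb h0 g hg => h2.disjoint.le_bot
      ⟨hg.1, h1 g b hb h0 (Subgroup.mem_centralizer_singleton_iff.1 hg.2)⟩
  have := h2.sup_eq_top
  rwa [le_bot_iff.1 h3, bot_sup_eq] at this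

theorem le_of_malnormal {G : Type*} [Group G] [Finite G] {p : ℕ} [Fact p.Prime] {P H : Subgroup G}
    (hPH : P ≤ H) (hp : IsPGroup p P) [IsMulCommutative P] (hc : ¬ IsCyclic P)
    (h : ∀ g ∈ H, ∀ a ∈ P, a ≠ 1 → g * a * g⁻¹ ∈ P → g ∈ P) : H ≤ P :=
  have e := Subgroup.subgroupOfEquivOfLe hPH
  Subgroup.subgroupOf_eq_top.1 (eq_top_of_malnormal (hp.of_equiv e.symm)
    (fun _ => hc (isCyclic_of_surjective e e.surjective))
    fun g a ha h0 => h g g.2 a ha (by simpa using h0))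

theorem exists_sum_fixedBy (G X : Type*) [Group G] [Fintype G] [Finite X] [MulAction G X] :
    ∃ j, ∑ g : G, Nat.card (MulAction.fixedBy X g) = j * Nat.card G := by
  classical
  have := Fintype.ofFinite X
  exact ⟨_, by simpa [Nat.card_eq_fintype_card] using
    MulAction.sum_card_fixedBy_eq_card_orbits_mul_card_group G X⟩

theorem gleason {H X : Type*} [Group H] [MulAction H X] [Finite X] {p : ℕ} [Fact p.Prime]
    (h : ∀ a : X, ∃ e : H, e ^ p = 1 ∧ ∀ b, e • b = b ↔ b = a) (a b : X) : ∃ g : H, g • a = b := by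
  classical
  have := Fintype.ofFinite (MulAction.orbit H a)
  have h1 : ∀ e : H, e ^ p = 1 → MulAction.toPermHom H (MulAction.orbit H a) e ^ p ^ 1 = 1 :=
    fun e he => by rw [pow_one, ← map_pow, he, map_one]
  by_cases hp : p ∣ Fintype.card (MulAction.orbit H a)
  · obtain ⟨e, he, h2⟩ := h a
    obtain ⟨b, h3, h4⟩ := Equiv.Perm.exists_fixed_point_of_prime' hp (h1 e he)
      (a := ⟨a, MulAction.mem_orbit_self a⟩) (Subtype.ext ((h2 a).2 rfl))
    exact absurd (Subtype.ext ((h2 b).1 (congrArg Subtype.val h3))) h4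
  · obtain ⟨e, he, h2⟩ := h b
    obtain ⟨c, h3⟩ := Equiv.Perm.exists_fixed_point_of_prime hp (h1 e he)
    exact (h2 c).1 (congrArg Subtype.val h3) ▸ c.2

theorem exists_fixed_ne {H X : Type*} [Group H] [MulAction H X] [Finite X] {t v : H} (ht : t ^ 2 = 1)
    (ht' : ∀ b : X, t • b ≠ b) (hv : v ^ 2 = 1) {a : X} (ha : v • a = a) : ∃ b, v • b = b ∧ b ≠ a := by
  classical
  have := Fintype.ofFinite X
  have h1 : ∀ e : H, e ^ 2 = 1 → MulAction.toPermHom H X e ^ 2 ^ 1 = 1 :=
    fun e he => by rw [pow_one, ← map_pow, he, map_one]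
  refine Equiv.Perm.exists_fixed_point_of_prime' (by_contra fun hp => ?_) (h1 v hv) ha
  obtain ⟨b, hb⟩ := Equiv.Perm.exists_fixed_point_of_prime hp (h1 t ht)
  exact ht' b hb

theorem count_contra {Q q n i j : ℕ} (hq : 3 ≤ q) (hQ : q ^ 5 ≤ Q)
    (h1 : n + (Q - 1) = j * Q) (h2 : 2 * n = i * (Q - 1)) (h3 : n * (Q - q) * q ≤ Q ^ 3) : False := by
  have h4 : 81 * q ≤ Q := by
    calc 81 * q = 3 ^ 4 * q := by norm_num
      _ ≤ q ^ 4 * q := by gcongr
      _ ≤ Q := by rw [← pow_succ]; exact hQ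
  obtain ⟨R, rfl⟩ : ∃ R, Q = R + 1 := ⟨Q - 1, by omega⟩
  obtain ⟨c, rfl⟩ : ∃ c, j = c + 1 := ⟨j - 1, by rcases j with _ | j <;> simp at h1 ⊢; omega⟩
  rw [Nat.add_sub_cancel] at h1 h2
  obtain rfl : n = 1 + c * (R + 1) := by nlinarith
  have h5 : R ≤ 2 + 2 * c := Nat.le_of_dvd (by omega)
    ((Nat.dvd_add_left (Dvd.intro_left (2 * c) rfl)).1 ⟨i, by nlinarith⟩)
  obtain ⟨S, hS⟩ : ∃ S, R + 1 = S + q := ⟨R + 1 - q, by omega⟩
  rw [hS, Nat.add_sub_cancel] at h3
  have h6 : 80 * q ≤ S := by omega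
  have h7 : S + q ≤ 3 + 2 * c := by omega
  have h8 : c * (S + q) * (S * 3) ≤ (S + q) ^ 3 := by
    calc _ ≤ (1 + c * (S + q)) * (S * q) := by gcongr; omega
      _ ≤ _ := by rw [← mul_assoc]; exact h3
  have h9 : c * (S * 3) ≤ (S + q) ^ 2 := Nat.le_of_mul_le_mul_left (by nlinarith) (by omega : 0 < S + q)
  nlinarith

variable {F K : Type*} [Field F] [Field K] [Algebra F K]

theorem mem_range_of_pow (hr : (finrank F K).Prime) {a : K} (ha : a ^ finrank F K = 1) :
    ∃ s : F, algebraMap F K s = a := by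
  have : FiniteDimensional F K := finite_of_finrank_pos hr.pos
  by_cases h1 : a = 1
  · exact ⟨1, by simp [h1]⟩
  have hi : IsIntegral F a := Algebra.IsIntegral.isIntegral a
  rcases (Nat.dvd_prime hr).1 (minpoly.degree_dvd hi) with h | h
  · exact minpoly.natDegree_eq_one_iff.1 h
  have h2 := Polynomial.natDegree_le_natDegree (minpoly.min F a
    (Polynomial.monic_geom_sum_X hr.ne_zero) (by
      simpa using (mul_eq_zero.1 ((mul_geom_sum a _).trans (sub_eq_zero.2 ha))).resolve_left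
        (sub_ne_zero.2 h1)))
  have h3 := Polynomial.natDegree_sum_le_of_forall_le (Finset.range (finrank F K))
    (fun i => (Polynomial.X : Polynomial F) ^ i) (n := finrank F K - 1) fun i hi => by
      have := Finset.mem_range.1 hi
      rw [Polynomial.natDegree_X_pow]; omega
  have := hr.pos
  omega

variable [Finite K]

theorem aut_pow_finrank (θ : K ≃ₐ[F] K) : θ ^ finrank F K = 1 := by
  rw [← IsGalois.card_aut_eq_finrank, pow_card_eq_one']

theorem aut_eq_one_of_cubic (hr : (finrank F K).Prime) (h5 : 5 ≤ finrank F K) {θ : K ≃ₐ[F] K}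
    {a b c d : K} (hd : d ≠ 0) (h : ∀ k, a * k + b * θ k + c * θ (θ k) + d * θ (θ (θ k)) = 0) :
    θ = 1 := by
  by_contra h1
  have : Fact (finrank F K).Prime := ⟨hr⟩
  have h2 := orderOf_eq_prime (aut_pow_finrank θ) h1
  have h3 := H62.linearIndependent_aut (F := F) (K := K).comp (fun i : Fin 4 => θ ^ (i : ℕ))
    fun i j e => Fin.ext (pow_injOn_Iio_orderOf (by simp; omega) (by simp; omega) e)
  refine hd (Fintype.linearIndependent_iff.1 h3 ![a, b, c, d] (LinearMap.ext fun k => ?_) 3)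
  simpa [Fin.sum_univ_four, pow_succ] using h k

omit [Finite K] in
theorem aut_eq_one_of_fix (hr : (finrank F K).Prime) {θ : K ≃ₐ[F] K} {a : K}
    (ha : ∀ s : F, algebraMap F K s ≠ a) (h : θ a = a) : θ = 1 :=
  AlgEquiv.ext (subalg_cases hr (AlgHom.equalizer θ.toAlgHom (AlgHom.id F K)) h ha)

theorem char_lt_card (h : 1 < finrank F K) : ringChar K < Nat.card K := by
  have : Finite F := Finite.of_injective _ (algebraMap F K).injective
  have := Fintype.ofFinite F
  have h1 : ringChar K ∣ Nat.card F := ringChar.dvd (by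
    rw [← map_natCast (algebraMap F K), Nat.card_eq_fintype_card, FiniteField.cast_card_eq_zero, map_zero])
  rw [Module.natCard_eq_pow_finrank (K := F)]
  exact (Nat.le_of_dvd Nat.card_pos h1).trans_lt (lt_self_pow₀ Finite.one_lt_card h)

end H91
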