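/- Overgroups of `Ω₃(K)`: structure of the stabilisers of members. -/
import Cfsg.Agent.H91.OFMax
import Cfsg.Agent.H91.OFGrp

set_option autoImplicit false
set_option linter.unusedSectionVars false

namespace H91

open QuadraticMap H56 H60 H62 Module

variable {F K V : Type*} [Field F] [Field K] [Algebra F K] [AddCommGroup V] [Module F V]
  [Module K V] [IsScalarTower F K V] {Q : QuadraticForm F V} {q : QuadraticForm K V} {c : Dual F K}
  {M : Subgroup (O Q)} {w u v x y : V} {A B : Submodule F V}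

/-- dimension three over `K`, no element fixes the perp of a singular point -/
structure Ctx3 (Q : QuadraticForm F V) (q : QuadraticForm K V) (c : Dual F K) (M : Subgroup (O Q)) :
    Prop extends Ctx Q q c M where
  dim : finrank K V = 3
  r5 : 5 ≤ finrank F K
  det : ∀ g ∈ M, LinearMap.det g.lin = 1
  z0 : ∀ w u, IsHyp q w u → Z0 q M w

variable [Finite K] [FiniteDimensional K V] [FiniteDimensional F V]

theorem TrQ.det_eq_one (h : TrQ Q q c) (hw : q w = 0) {e : O Q} (h1 : ∀ k : K, e (k • w) = k • w)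
    (h2 : ∀ y, polar q w y = 0 → e y - y ∈ kl F K w) : LinearMap.det e.lin = 1 := by
  have h3 : IsNilpotent (1 - e.lin : Module.End F V) := ⟨3, LinearMap.ext fun x => by
    obtain ⟨k, hk⟩ := mem_kl.1 (h2 (x - e x) (by simp [h.pol_fix h1]))
    have := h1 k
    rw [hk] at this
    simp only [pow_succ, pow_zero, one_mul, Module.End.mul_apply, LinearMap.sub_apply,
      Module.End.one_apply, O.lin_apply, LinearMap.zero_apply, map_sub] at this ⊢
    linear_combination (norm := module) this⟩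
  simpa [h3.charpoly_eq_X_pow_finrank] using ((1 - e.lin : Module.End F V).eval_charpoly 1).symm

theorem eq_zero_of_three (h : TrQ Q q c) (h3 : finrank K V = 3) {a b d : V} (h1 : ∃ x, polar q a x ≠ 0)
    (h2 : ∃ x, polar q a x = 0 ∧ polar q b x ≠ 0)
    (h4 : ∃ x, polar q a x = 0 ∧ polar q b x = 0 ∧ polar q d x ≠ 0) (ha : polar q a v = 0)
    (hb : polar q b v = 0) (hd : polar q d v = 0) : v = 0 := by
  obtain ⟨x, h1⟩ := h1
  obtain ⟨y, h2⟩ := h2
  obtain ⟨z, h4⟩ := h4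
  have e1 := Submodule.finrank_lt_finrank_of_lt (lt_top_iff_ne_top.2 fun e : ort q a = ⊤ =>
    h1 (mem_ort.1 (e ▸ Submodule.mem_top)))
  have e2 := Submodule.finrank_lt_finrank_of_lt (lt_of_le_of_ne (inf_le_left : ort q a ⊓ ort q b ≤ _)
    fun e => h2.2 (e.symm ▸ h2.1 : y ∈ ort q a ⊓ ort q b).2)
  have e3 := Submodule.finrank_lt_finrank_of_lt (lt_of_le_of_ne
    (inf_le_left : ort q a ⊓ ort q b ⊓ ort q d ≤ _)
    fun e => h4.2.2 (e.symm ▸ ⟨h4.1, h4.2.1⟩ : z ∈ ort q a ⊓ ort q b ⊓ ort q d).2)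
  rw [finrank_top] at e1
  exact (Submodule.mem_bot K).1 (Submodule.finrank_eq_zero (S := ort q a ⊓ ort q b ⊓ ort q d).1
    (by omega) ▸ ⟨⟨ha, hb⟩, hd⟩)

namespace Ctx3

theorem odd (h : Ctx3 Q q c M) : Odd (finrank F K) := h.hr.odd_of_ne_two (by have := h.r5; omega)

theorem decomp (h : Ctx3 Q q c M) (hu : IsHyp q w u) (h1 : polar q w y = 0) (h2 : polar q u y = 0)
    (h3 : q y ≠ 0) (hx : polar q w x = 0) : ∃ a b : K, x = a • y + b • w := by
  have h4 : 2 * q y ≠ 0 := mul_ne_zero h.two h3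
  refine ⟨polar q y x / (2 * q y), polar q u x, sub_eq_zero.1 (eq_zero_of_three h.toTrQ h.dim
    (a := w) (b := u) (d := y) ⟨u, by simp [hu.ef]⟩ ⟨w, hu.ee, by simp [hu.fe]⟩
    ⟨y, h1, h2, by rwa [polar_self']⟩ ?_ ?_ ?_)⟩
  · simp [hx, h1, hu.ee]
  · simp [h2, hu.fe]
  · simp [pc h1, h4]

theorem act_W (h : Ctx3 Q q c M) (hu : IsHyp q w u) {g : O Q} (hg : g ∈ M) {s : K}
    (hs : s = 1 ∨ s = -1) (h1 : ∀ k : K, g (k • w) = s • k • w) :
    ∀ x, polar q w x = 0 → g x - x ∈ kl F K w := by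
  obtain ⟨y, y1, y2, y3⟩ := hu.exists_perp_Q_ne h.nd h.h3
  have h2 : ∀ k : K, g (k • w) ∈ kl F K w := fun k => h1 k ▸ smul_mem_kl' _ (smul_mem_kl _ _)
  have hss : s * s = 1 := by rcases hs with rfl | rfl <;> simp
  obtain ⟨l, m, hl⟩ := h.decomp hu y1 y2 y3 ((Ctx.pol_of_stab h.toTrQ h2 y).2 y1)
  have h3 : ∀ k : K, ∃ a : K, g (k • y) = (k * l) • y + a • w := fun k => by
    obtain ⟨θ, e1, e2⟩ := h.semilin hu (h.z0 w u hu) hg h2 k
    have e3 := e1 1
    rw [h1, h1, smul_comm θ] at e3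
    have e4 := smul_left_injective K hu.ne_zero (by simpa [smul_smul] using congrArg (s • ·) e3 :
      (s * (s * k)) • w = (s * (s * θ)) • w)
    simp only [← mul_assoc, hss, one_mul] at e4
    obtain ⟨a, ha⟩ := mem_kl.1 (e2 y y1)
    exact ⟨a + k * m, by rw [eq_add_of_sub_eq ha.symm, ← e4, hl]; module⟩
  have h4 : ∀ t : K, t * l = 1 → ∀ e : O q, e w = s • w → e y = t • y → ∀ x, polar q w x = 0 →
      g (e x) - x ∈ kl F K w := fun t ht e e1 e2 x hx => by
    obtain ⟨a, b, rfl⟩ := h.decomp hu y1 y2 y3 hx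
    obtain ⟨d, hd⟩ := h3 (a * t)
    refine mem_kl.2 ⟨d, ?_⟩
    simp only [map_add, map_smul e, e1, e2, smul_smul, hd, h1, mul_assoc, ht, mul_left_comm s, hss]
    module
  have h5 : (l - 1) * (l + 1) = 0 := by
    refine mul_right_cancel₀ y3 (by
      rw [zero_mul]
      refine h.sq_zero fun k => ?_
      obtain ⟨a, ha⟩ := h3 k
      have := g.map_Q (k • y)
      rw [ha, h.eq, h.eq, ← sub_eq_zero, ← map_sub] at this
      rw [← this]
      simp only [Q_add, Q_smul, hu.qe, polar_smul_left, polar_smul_right, pc y1, smul_zero]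
      congr 1; ring)
  rcases mul_eq_zero.1 h5 with h6 | h6
  · intro x hx
    obtain ⟨a, b, rfl⟩ := h.decomp hu y1 y2 y3 hx
    obtain ⟨d, hd⟩ := h3 a
    refine mem_kl.2 ⟨d + s * b - b, ?_⟩
    rw [map_add, hd, h1, sub_eq_zero.1 h6]
    module
  obtain ⟨e, e1, e2, e3⟩ : ∃ e : O q, e w = s • w ∧ e y = (-1 : K) • y ∧ LinearMap.det e.lin = -1 := by
    rcases hs with rfl | rfl
    · exact ⟨refl q y, by simp [refl_apply_of_orth (pc y1)], by simp [refl_apply_self y3], det_refl y3⟩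
    · refine ⟨O.negOne q, by simp, by simp, ?_⟩
      rw [show (O.negOne q).lin = (-1 : K) • LinearMap.id from LinearMap.ext fun v => by simp,
        LinearMap.det_smul, h.dim]
      norm_num
  have h7 := h.det_eq_one hu.qe (e := g * h.res e) (fun k => by
    simp [e1, smul_smul, h1, mul_left_comm s, hss]) (h4 (-1) (by linear_combination -h6) e e1 e2)
  rw [O.lin_mul, LinearMap.det_comp, h.det g hg, one_mul,
    show (h.res e).lin = e.lin.restrictScalars F from rfl, LinearMap.det_restrictScalars, e3,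
    show (-1 : K) = algebraMap F K (-1) by simp, Algebra.norm_algebraMap, h.odd.neg_one_pow] at h7
  exact absurd (by linear_combination -h7) h.two'

theorem std (h : Ctx3 Q q c M) (hA : Mem q M A) (hx : x ∈ A) (h0 : x ≠ 0) :
    ∃ g ∈ M, ∃ w u, IsHyp q w u ∧ g w = x ∧ A = img g (kl F K w) := by
  obtain ⟨g, hg, w, h1, h2, rfl⟩ := hA
  obtain ⟨k, hk⟩ := mem_kl.1 (mem_img.1 hx)
  have h3 : k • w ≠ 0 := by simpa [hk] using h0
  obtain ⟨u, hu⟩ := exists_isHyp h.nd h3 (by simp [Q_smul, h2])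
  exact ⟨g, hg, _, u, hu, by simp [hk], by rw [kl_smul (left_ne_zero_of_smul h3)]⟩

/-- the pointwise stabiliser of a member -/
theorem exists_unip (h : Ctx3 Q q c M) (hA : Mem q M A) : ∃ f : Multiplicative K →* O Q,
    (∀ k, f k ∈ M ∧ ∀ z ∈ A, f k z = z) ∧ (∀ e ∈ M, (∀ z ∈ A, e z = z) → ∃ k, e = f k) ∧
    (∀ k v, f k v = v → k = 1 ∨ v ∈ A) ∧
    ∀ k v, f k (f k (f k v)) - f k (f k v) - f k (f k v) - f k (f k v) + f k v + f k v + f k v = v := by
  obtain ⟨g, hg, w, h1, h2, rfl⟩ := hA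
  obtain ⟨u, hu⟩ := exists_isHyp h.nd h1 h2
  obtain ⟨y, y1, y2, y3⟩ := hu.exists_perp_Q_ne h.nd h.h3
  have y4 : ∀ k : K, polar q w (k • y) = 0 := fun k => by simp [y1]
  let f₀ : Multiplicative K →* O q :=
    { toFun := fun k => eich q w (k.toAdd • y)
      map_one' := by simp
      map_mul' := fun a b => by rw [toAdd_mul, add_smul, eich_add h2 (y4 _) (y4 _)] }
  have f1 : ∀ k v, ((MulAut.conj g).toMonoidHom.comp (h.res.comp f₀)) k (g v) =
      g (eich q w (k.toAdd • y) v) := fun k v => by simp [f₀]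
  refine ⟨(MulAut.conj g).toMonoidHom.comp (h.res.comp f₀), fun k => ⟨M.mul_mem (M.mul_mem hg
    (h.eich_mem _ _)) (M.inv_mem hg), fun z hz => ?_⟩, fun e he h3 => ?_, fun k v hv => ?_,
    fun k v => ?_⟩
  · obtain ⟨z, rfl⟩ := g.surjective z
    rw [f1, Ctx.eich_fix h2 (y4 _) (apply_mem_img.1 hz)]
  · have h4 : ∀ k : K, (g⁻¹ * e * g) (k • w) = k • w := fun k => by
      simp [h3 _ (apply_mem_img.2 (smul_mem_kl k w))]
    have h5 := M.mul_mem (M.mul_mem (M.inv_mem hg) he) hg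
    obtain ⟨y', h6, h7⟩ := h.eq_eich hu (h.z0 w u hu) h5 h4
      (h.act_W hu h5 (Or.inl rfl) (by simpa using h4))
    obtain ⟨a, b, rfl⟩ := h.decomp hu y1 y2 y3 h6
    refine ⟨Multiplicative.ofAdd a, O.ext fun v => ?_⟩
    obtain ⟨v, rfl⟩ := g.surjective v
    rw [f1, toAdd_ofAdd, ← eich_add_smul_self b h2 (y4 a), ← h.res_apply, ← h7]
    simp
  · obtain ⟨v, rfl⟩ := g.surjective v
    rw [f1, O.apply_inj, eich_apply h2 (y4 _)] at hv
    refine or_iff_not_imp_left.2 fun hk => apply_mem_img.2 ?_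
    have hk' : k.toAdd ≠ 0 := hk
    have e1 := congrArg (polar q y) hv
    simp [pc y1, h.two, y3, hk'] at e1
    obtain ⟨a, b, rfl⟩ := h.decomp hu y1 y2 y3 e1
    simp [y1, pc y1, hu.ee, h1, hk', h.two, y3] at hv
    simpa [hv] using smul_mem_kl b w
  · obtain ⟨v, rfl⟩ := g.surjective v
    simp only [f1, ← map_sub, ← map_add, O.apply_inj]
    simp only [eich_apply h2 (y4 _), polar_add_right, polar_sub_right,
      polar_smul_right, polar_smul_left, hu.ee, y1, pc y1, polar_self', smul_eq_mul, Q_smul]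
    match_scalars <;> ring

/-- the stabiliser of a member and of a point on it acts by field automorphisms -/
theorem exists_aut (h : Ctx3 Q q c M) (hA : Mem q M A) (hx : x ∈ A) (h0 : x ≠ 0) {e : O Q}
    (he : e ∈ M) (h1 : ∀ z ∈ A, e z ∈ A) {s : F} (hs : e x = s • x) :
    ∃ (φ : K →ₗ[F] V) (θ : K ≃ₐ[F] K), Function.Injective φ ∧ φ 1 = x ∧ (∀ z ∈ A, ∃ k, φ k = z) ∧
      ∀ k, e (φ k) = s • φ (θ k) := by
  obtain ⟨g, hg, w, u, hu, rfl, rfl⟩ := h.std hA hx h0
  have hs0 : s ≠ 0 := by rintro rfl; simp [hu.ne_zero] at hs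
  choose θ hθ _ using h.semilin hu (h.z0 w u hu) (M.mul_mem (M.mul_mem (M.inv_mem hg) he) hg)
    fun k => by simpa using mem_img.1 (h1 _ (apply_mem_img.2 (smul_mem_kl k w)))
  have h2 : ∀ k, (g⁻¹ * e * g) (k • w) = s • θ k • w := fun k => by
    simpa [hs, smul_comm (θ k)] using hθ k 1
  have h3 : ∀ {a b : K}, s • a • w = s • b • w → a = b := fun e =>
    smul_left_injective K hu.ne_zero (smul_right_injective V hs0 e)
  let θ' : K →ₐ[F] K := AlgHom.ofLinearMap
    { toFun := θ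
      map_add' := fun a b => h3 (by rw [← h2, add_smul, map_add, h2, h2, add_smul, smul_add])
      map_smul' := fun a b => h3 (by
        rw [← h2, smul_assoc, map_smul, h2, smul_comm, RingHom.id_apply, smul_assoc]) }
    (h3 (by change s • θ 1 • w = _; rw [← h2]; simp [hs]))
    fun a b => h3 (by change s • θ _ • w = s • (θ a * θ b) • w; rw [← h2, hθ, h2, mul_smul, smul_comm])
  refine ⟨g.lin ∘ₗ (LinearMap.toSpanSingleton K V w).restrictScalars F,
    AlgEquiv.ofBijective θ' (Finite.injective_iff_bijective.1 θ'.injective),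
    fun a b e => smul_left_injective K hu.ne_zero (g.injective e), by simp, fun z hz => ?_,
    fun k => ?_⟩
  · obtain ⟨k, hk⟩ := mem_kl.1 (mem_img.1 hz)
    exact ⟨k, by simp [hk]⟩
  · have := h2 k
    rw [O.mul_apply, O.mul_apply, O.inv_apply_eq, map_smul g s] at this
    exact this

theorem smul_of_two (h : Ctx3 Q q c M) (hA : Mem q M A) (hx : x ∈ A) (h0 : x ≠ 0) (hy : y ∈ A)
    (hy' : y ∉ F ∙ x) {e : O Q} (he : e ∈ M) (h1 : ∀ z ∈ A, e z ∈ A) {s : F} (hs : e x = s • x)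
    (hs' : e y = s • y) : ∀ z ∈ A, e z = s • z := by
  obtain ⟨φ, θ, h2, rfl, h3, h4⟩ := h.exists_aut hA hx h0 he h1 hs
  obtain ⟨a, rfl⟩ := h3 y hy
  have hs0 : s ≠ 0 := by rintro rfl; simp [h0] at hs
  obtain rfl := aut_eq_one_of_fix h.hr (a := a) (θ := θ) (fun t e => hy' (by
    rw [← e, Algebra.algebraMap_eq_smul_one, map_smul]
    exact Submodule.smul_mem _ _ (Submodule.mem_span_singleton_self _)))
    (h2 (smul_right_injective V hs0 ((h4 a).symm.trans hs')))
  intro z hz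
  obtain ⟨a, rfl⟩ := h3 z hz
  exact h4 a

theorem pow_eq_smul (h : Ctx3 Q q c M) (hA : Mem q M A) (hx : x ∈ A) (h0 : x ≠ 0) {e : O Q}
    (he : e ∈ M) (h1 : ∀ z ∈ A, e z ∈ A) {s : F} (hs : e x = s • x) :
    ∀ z ∈ A, (e ^ finrank F K) z = s ^ finrank F K • z := by
  obtain ⟨φ, θ, -, -, h3, h4⟩ := h.exists_aut hA hx h0 he h1 hs
  have : ∀ (n : ℕ) k, (e ^ n) (φ k) = s ^ n • φ ((θ ^ n) k) := fun n k => by
    induction n with
    | zero => simp
    | succ n ih => rw [pow_succ', O.mul_apply, ih, map_smul, h4, smul_smul, pow_succ, pow_succ']; rfl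
  intro z hz
  obtain ⟨a, rfl⟩ := h3 z hz
  rw [this, aut_pow_finrank]; rfl

theorem smul_of_cubic (h : Ctx3 Q q c M) (hA : Mem q M A) (hx : x ∈ A) (h0 : x ≠ 0) {e : O Q}
    (he : e ∈ M) (h1 : ∀ z ∈ A, e z ∈ A) {s : F} (hs : e x = s • x) {a b d : F}
    (h2 : ∀ v, a • v + b • e v + d • e (e v) + e (e (e v)) = 0) : ∀ z ∈ A, e z = s • z := by
  obtain ⟨φ, θ, h5, -, h3, h4⟩ := h.exists_aut hA hx h0 he h1 hs
  have hs0 : s ≠ 0 := by rintro rfl; simp [h0] at hs
  obtain rfl := aut_eq_one_of_cubic h.hr h.r5 (θ := θ) (a := algebraMap F K a)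
    (b := algebraMap F K (b * s)) (c := algebraMap F K (d * (s * s))) (d := algebraMap F K (s * s * s))
    (by simpa using hs0) fun k => h5 (by
      simpa only [← Algebra.smul_def, map_add, map_smul, h4, smul_smul, map_zero] using h2 (φ k))
  intro z hz
  obtain ⟨a, rfl⟩ := h3 z hz
  exact h4 a

/-- distinct members meet in at most a point -/
theorem uniq (h : Ctx3 Q q c M) (hA : Mem q M A) (hB : Mem q M B) (h0 : x ≠ 0) (hy' : y ∉ F ∙ x)
    (hx : x ∈ A) (hy : y ∈ A) (hx' : x ∈ B) (hy'' : y ∈ B) : A = B := by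
  have : Finite F := Finite.of_injective _ (algebraMap F K).injective
  have : Fact (ringChar K).Prime := ⟨CharP.char_is_prime K _⟩
  obtain ⟨f, f1, f2, f3, -⟩ := h.exists_unip hA
  obtain ⟨f', g1, -, g3, -⟩ := h.exists_unip hB
  have hi : Function.Injective f := (injective_iff_map_eq_one f).2 fun k hk => by
    by_contra e
    obtain ⟨v, hv⟩ := exists_mem_not_mem_of_finrank_lt (A := A) (B := ⊤) (by
      have := h.r5
      rw [hA.finrank, finrank_top, ← finrank_mul_finrank F K V, h.dim]; omega)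
    exact hv.2 ((f3 k v (by simp [hk])).resolve_left e)
  have hp : ∀ k : Multiplicative K, k ^ ringChar K = 1 := fun k => by
    rw [← ofAdd_toAdd k, ← ofAdd_nsmul, nsmul_eq_mul, ringChar.Nat.cast_ringChar, zero_mul, ofAdd_zero]
  have := le_of_malnormal (p := ringChar K) (P := f.range) (H := M ⊓ fixer Q {x, y})
    (by rintro _ ⟨k, rfl⟩; exact ⟨(f1 k).1, by simp [mem_fixer, (f1 k).2, hx, hy]⟩)
    (IsPGroup.of_surjective (fun k => ⟨1, by simpa using hp k⟩) _ f.rangeRestrict_surjective)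
    (fun hc => by
      have := isCyclic_of_surjective _ (MonoidHom.ofInjective hi).symm.surjective
      have h1 := Monoid.exponent_dvd_of_forall_pow_eq_one hp
      rw [IsCyclic.exponent_eq_card] at h1
      exact absurd (Nat.le_of_dvd (Fact.out : (ringChar K).Prime).pos h1)
        (not_le.2 (char_lt_card h.hr.one_lt)))
    (by
      rintro g ⟨hg, hg'⟩ _ ⟨a, rfl⟩ ha ⟨b, hb⟩
      have h2 := h.smul_of_two hA hx h0 hy hy' hg (fun z hz => (f3 b _ (by
        simp [hb, (f1 a).2 z hz])).resolve_left (by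
          rintro rfl; exact ha (by simpa using hb.symm))) (s := 1)
        (by simp [hg' x (by simp)]) (by simp [hg' y (by simp)])
      obtain ⟨k, rfl⟩ := f2 g hg (by simpa using h2)
      exact ⟨k, rfl⟩)
  obtain ⟨k, hk⟩ := this (x := f' (Multiplicative.ofAdd 1))
    ⟨(g1 _).1, by simp [mem_fixer, (g1 _).2, hx', hy'']⟩
  refine Submodule.eq_of_le_of_finrank_eq (fun z hz => (g3 _ z (hk ▸ (f1 k).2 z hz)).resolve_left ?_)
    (by rw [hA.finrank, hB.finrank])
  simp

theorem stab_of_two (h : Ctx3 Q q c M) (hA : Mem q M A) (h0 : x ≠ 0) (hy' : y ∉ F ∙ x) {e : O Q}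
    (he : e ∈ M) (hx : x ∈ A) (hy : y ∈ A) (h1 : e x ∈ A) (h2 : e y ∈ A) : ∀ z ∈ A, e z ∈ A := by
  have := h.uniq (hA.img (M.inv_mem he)) hA h0 hy' (mem_img.2 (by simpa)) (mem_img.2 (by simpa)) hx hy
  exact fun z hz => by simpa using mem_img.1 (this.symm ▸ hz : z ∈ img e⁻¹ A)

/-- the pointwise stabiliser of a member acts freely on the other members through a point -/
theorem eq_of_fix (h : Ctx3 Q q c M) (hA : Mem q M A) (hB : Mem q M B) (h0 : x ≠ 0) (hx : x ∈ A)
    (hx' : x ∈ B) {e : O Q} (he : e ∈ M) (h1 : ∀ z ∈ A, e z = z) (h2 : ∀ z ∈ B, e z ∈ B)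
    (h3 : e ≠ 1) : A = B := by
  obtain ⟨f, -, f2, f3, f4⟩ := h.exists_unip hA
  obtain ⟨k, rfl⟩ := f2 e he h1
  have := h.smul_of_cubic hB hx' h0 he h2 (s := 1) (by simp [h1 x hx]) (a := -1) (b := 3) (d := -3)
    fun v => by linear_combination (norm := module) f4 k v
  exact (Submodule.eq_of_le_of_finrank_eq (fun z hz => (f3 k z (by simpa using this z hz)).resolve_left
    (by rintro rfl; simp at h3)) (by rw [hA.finrank, hB.finrank])).symm

end Ctx3

end H91
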