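/- Quasithin tower, phase 1a: the linear, symplectic and alternating cases of `JobTwo`. -/
import Cfsg.Agent.H91.QTPSL
import Cfsg.Agent.S0252
import Cfsg.Agent.S0255

set_option autoImplicit false

namespace H91.QT

open Cfsg H97.QT Matrix Matrix.SpecialLinearGroup

variable {F : Type*} [Field F] [Fintype F] {K : Type*} [Group K]

theorem two_sl_three [CharP F 2] (h : Fintype.card F ≠ 2) : Two (PL (Fin 3) F) := by
  obtain ⟨p, w, hp, h2, h3, h4, h5⟩ := exists_root h
  by_cases h6 : w ^ 3 = 1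
  · have h7 : w * w = w⁻¹ := eq_inv_of_mul_eq_one_left (by rw [← h6]; ring)
    refine two_pr_comm Nat.prime_three (by decide)
      (a := dg ![1, w, w⁻¹] (by simp [Fin.prod_univ_three, h5])) (b := pm F (finRotate 3))
      (z := dg (fun _ => w) (by simpa using h6)) (dg_pow fun i => ?_) ?_
      (mem_center_iff.2 ⟨w, by simpa using h6, rfl⟩) (dg_ne_one 0 h4) ?_
    · fin_cases i <;> simp [h6]
    · ext i j
      fin_cases i <;> fin_cases j <;>
        simp [pow_succ, Matrix.mul_apply, Fin.sum_univ_three, coe_pm]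
    · ext i j
      fin_cases i <;> fin_cases j <;>
        simp [Matrix.mul_apply, Fin.sum_univ_three, coe_pm, h5, h7]
  · refine two_pr_pair hp h2 (a := dg ![w, w⁻¹, 1] (by simp [Fin.prod_univ_three, h5]))
      (b := dg ![w, w, (w * w)⁻¹] (by simp [Fin.prod_univ_three]; field_simp))
      (s := pm F (Equiv.swap 0 1)) (dg_pow fun i => ?_) (dg_pow fun i => ?_) (dg_ne_one 0 h4)
      (fun e => h6 ?_) dg_comm (pm_conj_inv _ fun i => ?_) (pm_conj _ fun i => ?_)
    · fin_cases i <;> simp [h3]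
    · fin_cases i <;> simp [h3, mul_pow]
    · obtain ⟨r, h7, h8⟩ := mem_center_iff.1 (pr_eq_one.1 e)
      obtain rfl : r = w := by simpa using congrFun (congrFun h8 0) 0
      simpa using h7
    · fin_cases i <;> simp [Equiv.swap_apply_def, h5]
    · fin_cases i <;> simp [Equiv.swap_apply_def]

theorem two_L3e (h : L3e K) : Two K ∨ R1List K := by
  obtain ⟨F, _, _, _, ⟨e⟩⟩ := h
  by_cases h2 : Fintype.card F = 2
  · have : Fact (Nat.Prime 7) := ⟨by norm_num⟩
    obtain ⟨f⟩ := Cfsg.Agent.S0255.result (F := ZMod 7) (by simp) h2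
    exact .inr (.inr (.inr (.inl ⟨ZMod 7, _, inferInstance, by simpa using this.1, by simp,
      ⟨e.trans f.symm⟩⟩)))
  · exact .inl ((two_sl_three h2).of_equiv e)

theorem charP_of_card {p k : ℕ} (hp : p.Prime) (h : Fintype.card F = p ^ k) : CharP F p := by
  obtain ⟨r, e, hr, _, he, h'⟩ := exists_card F
  obtain rfl := (Nat.prime_dvd_prime_iff_eq hr hp).1 (hr.dvd_of_dvd_pow (n := k)
    (by rw [← h, h']; exact dvd_pow_self r (by omega)))
  assumption

theorem two_L2pp (h : L2pp K) : Two K := by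
  obtain ⟨F, _, _, p, hp, h2, hF, ⟨e⟩⟩ := h
  have := charP_of_card hp hF
  exact (two_sl_odd hp h2 (fun _ : Unit => (0 : Fin 2)) (fun _ => 1) (by simp) (by simp)
    (by simpa [hF] using Nat.pow_lt_pow_right hp.one_lt one_lt_two)).of_equiv e

theorem two_L3p (h : L3p K) : Two K := by
  obtain ⟨F, _, _, hp, h2, ⟨e⟩⟩ := h
  have := charP_of_card (F := F) hp (pow_one _).symm
  exact (two_sl_odd hp h2 (fun _ : Fin 2 => (0 : Fin 3)) Fin.succ (by simp) (by simp)
    (by simpa using Nat.pow_lt_pow_right hp.one_lt one_lt_two)).of_equiv e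

theorem two_Ln2 {n : ℕ} (hn : 4 ≤ n) (h : Ln2 n K) : Two K := by
  obtain ⟨F, _, _, hF, ⟨e⟩⟩ := h
  have := charP_of_card (F := F) Nat.prime_two (hF.trans (pow_one _).symm)
  exact (two_sl_four hn).of_equiv e

theorem two_S4e (h : S4e K) : Two K := by
  obtain ⟨F, _, _, _, -, ⟨e⟩⟩ := h
  exact (two_sp_even le_rfl).of_equiv e

theorem r1_Alt5 (h : Alt 5 K) : R1List K := by
  obtain ⟨e⟩ := h
  have := Fintype.ofFinite (GaloisField 2 2)
  obtain ⟨f⟩ := Cfsg.Agent.S0252.result (F := GaloisField 2 2)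
    (by rw [← Nat.card_eq_fintype_card, GaloisField.card 2 2 two_ne_zero]; rfl)
  exact .inl ⟨GaloisField 2 2, _, this, inferInstance, ⟨e.trans f.symm⟩⟩

theorem two_Alt {n : ℕ} (hn : 6 ≤ n) (h : Alt n K) : Two K := by
  obtain ⟨e⟩ := h
  have h6 : Two (alternatingGroup (Fin 6)) := by
    let c : Fin 4 → alternatingGroup (Fin 6) := fun i =>
      ⟨Equiv.swap i.castSucc.castSucc i.castSucc.succ * Equiv.swap i.succ.castSucc i.succ.succ, by
        rw [Equiv.Perm.mem_alternatingGroup]
        simp [Equiv.Perm.sign_swap', (Fin.castSucc_lt_succ (i := _)).ne]⟩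
    refine two_of_pair Nat.prime_three (by decide) (a := c 0) (b := c 3) (by decide) (by decide)
      (by decide) (show _ * _ = _ * _ by decide) fun ⟨k, hk⟩ => ?_
    have h1 : ((c 0 ^ k).1 : Equiv.Perm (Fin 6)) 3 = 3 :=
      Equiv.Perm.zpow_apply_eq_self_of_apply_eq_self (f := (c 0).1) (by decide) k
    rw [show c 0 ^ k = c 3 from hk] at h1
    exact absurd h1 (by decide)
  let e' : Fin 6 ↪ Fin n := Fin.castLEEmb hn
  let f : alternatingGroup (Fin 6) →* alternatingGroup (Fin n) :=
    ((Equiv.Perm.viaEmbeddingHom e').comp (alternatingGroup (Fin 6)).subtype).codRestrict _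
      fun x => by
        rw [Equiv.Perm.mem_alternatingGroup]
        change Equiv.Perm.sign (Equiv.Perm.viaEmbedding x.1 e') = 1
        rw [Equiv.Perm.viaEmbedding, Equiv.Perm.sign_extendDomain]
        exact Equiv.Perm.mem_alternatingGroup.mp x.2
  exact (h6.of_injective f fun x y hxy =>
    Subtype.ext (Equiv.Perm.viaEmbeddingHom_injective e' (congrArg Subtype.val hxy))).of_equiv e

end H91.QT
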