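/- Balance in groups of Lie type (row S2188), slot X-Chev: the untwisted exceptional groups. -/
import Cfsg.Agent.H54.SXSpec
import Cfsg.Agent.H54.Schreier
import Cfsg.Agent.H55.LB7
import Cfsg.Agent.H91.LBCore
import Cfsg.Agent.H46.LBRed
import Cfsg.Agent.H46.LBLang

set_option autoImplicit false
set_option linter.unusedSectionVars false

namespace H91.SX

open Cfsg Cfsg.Lie H63 H46 H67 H67.Sub H54.SC
open H64 (gen RGD XR HH cker StB nn_eq)

universe u

theorem par_of (F : Type) [Field F] {r p : ℕ} [CharP F r] (hr : r.Prime) (hp : p.Prime) (h2 : p ≠ 2)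
    (hpr : p ≠ r) : Par F p :=
  ⟨hp, h2, fun h => hpr ((Nat.prime_dvd_prime_iff_eq hr hp).1 ((CharP.cast_eq_zero_iff F r p).1 h)).symm⟩

theorem alg_closure (F : Type) [Field F] [Fintype F] (r : ℕ) [Fact r.Prime] [CharP F r] :
    Alg (AlgebraicClosure F) r := fun t => by
  obtain ⟨σ, h1, -, -, h4⟩ := exists_frobAut F
  obtain ⟨j, hj, e⟩ := H54.exists_card_eq_pow F r
  obtain ⟨n, hn, h⟩ := h4 t
  exact ⟨j * n, Nat.mul_pos hj hn, by rwa [ringAut_pow_apply h1, e, ← pow_mul] at h⟩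

theorem mem_range_iff (F : Type) [Field F] [Fintype F] (t : AlgebraicClosure F) :
    t ^ Fintype.card F = t ↔ t ∈ (algebraMap F (AlgebraicClosure F)).range := by
  obtain ⟨σ, h1, h2, -⟩ := exists_frobAut F
  rw [← h1, h2]

theorem mem_of_fix_V {F : Type*} [Field F] {G : Type*} [Group G] {D : ChevalleyDatum} [RS D]
    {x : ℕ → F → G} {θ : G →* G} {σ : F →+* F} (hθ : ∀ (r : Rt D) t, θ (x r t) = x r (σ t))
    (h : StB D x) {K : Subgroup G} (hK : ∀ (r : Rt D) t, σ t = t → x r t ∈ K)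
    {u : G} (hu : u ∈ h.rgd.V) (e : θ u = u) : u ∈ K := by
  obtain ⟨w, hw⟩ := (H64.wdata D).exists_w0
  obtain ⟨m, hm, -, hmw⟩ := h.rgd.exists_act_of_mem_WJ (J := Set.univ) (w := w)
    (by rw [H64.WData.WJ_univ]; trivial)
  have hm' : m ∈ K ⊓ θ.eqLocus (MonoidHom.id G) := (Subgroup.closure_le _).2 (by
    rintro _ ⟨i, -, rfl⟩
    refine ⟨?_, (fld_nn hθ (simpleR i) 1).trans (by rw [map_one]; rfl)⟩
    rw [h.rgd_n, nn_eq]
    have a := hK (simpleR i) 1 (map_one σ)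
    exact mul_mem (mul_mem a (hK (negR (simpleR i)) _ (by simp))) a) hm
  have h1 := mem_of_fix_U hθ h hK (hmw.conj_gen (fun r hr => (hw r).2 hr) hu) (by
    rw [map_mul, map_mul, map_inv, e, show θ m = m from hm'.2])
  have h2 : m ∈ K := hm'.1
  simpa [mul_assoc] using mul_mem (mul_mem (inv_mem h2) h1) h2

variable {D : ChevalleyDatum} [RS D] [H65.Tab D] [H65.Comm D]

theorem dg_of {k : Type} [Field k] {n : ℕ} (hn : n = 1 ∨ n = 2 ∨ n = 3)
    (h : ∀ d ∈ cker D kˣ, d ^ n = 1) : DG D k := by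
  rcases hn with rfl | rfl | rfl
  exacts [⟨2, 0, Nat.prime_two, h⟩, ⟨2, 1, Nat.prime_two, h⟩, ⟨3, 1, Nat.prime_three, h⟩]

theorem ha_or_hb {k : Type} [Field k] {n p : ℕ} (hn : n = 1 ∨ n = 2 ∨ n = 3)
    (h : ∀ d ∈ cker D kˣ, d ^ n = 1) (hp : p.Prime) (h2 : p ≠ 2) {ρ : Equiv.Perm (Rt D)}
    (hρ : IsLin ρ) : Ha D k p ∨ Hb p ρ := by
  by_cases h3 : p = 3
  · exact .inr ⟨h3, hρ.len_apply⟩
  have h5 : 5 ≤ p := hp.five_le_of_ne_two_of_ne_three h2 h3
  refine .inl ⟨fun d hd e => ?_, fun a b e => ?_⟩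
  · have : n.Coprime p :=
      (hp.coprime_iff_not_dvd.2 fun k => by have := Nat.le_of_dvd (by omega) k; omega).symm
    exact orderOf_eq_one_iff.1 (Nat.eq_one_of_dvd_coprimes this (orderOf_dvd_of_pow_eq_one (h d hd))
      (orderOf_dvd_of_pow_eq_one e))
  · have h1 := pairing_le_three a b
    have h4 := pairing_le_three a (negR b)
    rw [negR_val, pairing_negR_right] at h4
    exact Int.eq_zero_of_dvd_of_natAbs_lt_natAbs e (by omega)

theorem center_eq_bot {F : Type} [Field F] : Subgroup.center ↥(D.group F) = ⊥ :=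
  eq_bot_iff.2 fun _ hg => eq_one_of_comm_x fun _ _ => (Subgroup.mem_center_iff.1 hg _).symm

theorem env_chev {F k : Type} [Field F] [Field k] (ι : F →+* k) {r j : ℕ} [Fact r.Prime] [CharP k r]
    (hj : 0 < j) (h : ∀ t, t ^ r ^ j = t ↔ t ∈ ι.range) :
    Env r (mapG D ι) (frb D k r j) (1 : Equiv.Perm (Rt D)) fun _ => r ^ j := by
  have hK : ∀ (a : Rt D) t, iterateFrobenius k r j t = t → xG D k a t ∈ (mapG D ι).range :=
    fun a t ht => by
      obtain ⟨s, rfl⟩ := (h t).1 ht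
      exact ⟨_, mapG_xG ι a s⟩
  exact ⟨⟨gf_frb j, isSt_frb hj, fun _ h => h⟩, mapG_injective ι,
    fun y => group_ext fun a b => (h _).2 ⟨_, rfl⟩,
    fun u hu => mem_of_fix_U (fun a t => mapG_xG _ a t) stBG hK hu,
    fun u hu => mem_of_fix_V (fun a t => mapG_xG _ a t) stBG hK hu⟩

theorem bal_chev (h : JobEI) (hD : D ∈ [chevG2, chevB2, chevD4, chevF4, chevE6, chevE7, chevE8])
    {n : ℕ} (hn : n = 1 ∨ n = 2 ∨ n = 3) (hc : ∀ (A : Type) [CommGroup A], ∀ d ∈ cker D A, d ^ n = 1)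
    (F : Type) [Field F] [Fintype F] {r p : ℕ} [CharP F r] (hr : r.Prime) (hp : p.Prime) (h2 : p ≠ 2)
    (hpr : p ≠ r) : Bal p ↥(D.group F) := by
  intro hd E hE g hg
  have : Fact r.Prime := ⟨hr⟩
  have : Fact p.Prime := ⟨hp⟩
  have : Finite ↥(D.group F) := inferInstance
  by_cases hI : ∀ α ∈ E, α ≠ 1 → D.IsInnerDiagonalAutOn (D.group F) α
  swap
  · push Not at hI
    obtain ⟨α, h3, h4, h5⟩ := hI
    have h6 : α ^ p = 1 := congrArg Subtype.val (hE.pow ⟨α, h3⟩)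
    refine (hg α h3 h4).eq_one_of_core center_eq_bot (by_contra fun h7 => ?_)
    exact hp.coprime_iff_not_dvd.1 ((H91.LB.s2688_of H46.LB.jobLang
      (fun _ hD _ _ => H91.LB.core_of H46.LB.jobLang H46.LB.jobRed2 H46.LB.jobRed3 H55.LB.jobU3 hD)
      D hD F r ⊤ (fun _ => trivial) p hpr α (orderOf_eq_prime h6 h4) h5).1 h7).2 (dvd_fix hp hd h6)
  have : CharP (AlgebraicClosure F) r :=
    charP_of_injective_ringHom (algebraMap F (AlgebraicClosure F)).injective r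
  obtain ⟨j, hj, e⟩ := H54.exists_card_eq_pow F r
  have hE' := env_chev (D := D) (algebraMap F (AlgebraicClosure F)) hj fun t => e ▸ mem_range_iff F t
  refine h D _ r (alg_closure F r) (dg_of hn (hc _)) _ _ _ _ _ hE' p (par_of _ hr hp h2 hpr)
    (ha_or_hb hn (hc _) hp h2 isLin_one) E hE (fun α hα => ?_) g hg
  by_cases h1 : α = 1
  · exact ⟨1, map_one _, fun y => by simp [h1]⟩
  obtain ⟨a, c, rfl⟩ := H91.LB.inndiag_iff.1 (hI α hα h1)
  obtain ⟨t, -, ht⟩ := LB.diag_inner (frT D (algebraMap F (AlgebraicClosure F)) c)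
  have key : ∀ y, mapG D (algebraMap F (AlgebraicClosure F)) (diagAut D c y) =
      t * mapG D (algebraMap F (AlgebraicClosure F)) y * t⁻¹ := fun y => by
    rw [LB.map_diag, ← ht]; rfl
  refine ⟨mapG D (algebraMap F (AlgebraicClosure F)) a * t, ?_, fun y => ?_⟩
  · rw [map_mul, hE'.fix]
    refine congrArg _ (LB.eq_of_conj (algebraMap F (AlgebraicClosure F)) fun y => ?_)
    have := hE'.fix (diagAut D c y)
    rwa [key, map_mul, map_mul, map_inv, hE'.fix] at this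
  · rw [MulAut.mul_apply, MulAut.conj_apply, map_mul, map_mul, map_inv, key]; group

theorem jobChev (h : JobEI) : JobChev.{u} := by
  rintro G _ _ r p hr hp h2 hpr ⟨F, _, _, _, ⟨-, ⟨φ⟩⟩ | ⟨⟨φ⟩⟩ | ⟨⟨φ⟩⟩ | ⟨⟨φ⟩⟩ | ⟨⟨φ⟩⟩⟩
  · haveI := H65.tabG2; haveI := H65.commG2
    exact (bal_chev h (by simp) (.inl rfl) (fun _ _ _ => H64.kerG2.pow_eq_one') F hr hp h2 hpr).congr φ
  · haveI := H65.tabF4; haveI := H65.commF4
    exact (bal_chev h (by simp) (.inl rfl) (fun _ _ _ => H64.kerF4.pow_eq_one') F hr hp h2 hpr).congr φ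
  · exact (bal_chev h (by simp) (.inr (.inr rfl)) (fun _ _ _ => H64.kerE6.pow_eq_one') F hr hp h2
      hpr).congr φ
  · haveI := H65.tabE7; haveI := H65.commE7
    exact (bal_chev h (by simp) (.inr (.inl rfl)) (fun _ _ _ => H64.kerE7.pow_eq_one') F hr hp h2
      hpr).congr φ
  · haveI := H65.tabE8; haveI := H65.commE8
    exact (bal_chev h (by simp) (.inl rfl) (fun _ _ _ => H64.kerE8.pow_eq_one') F hr hp h2 hpr).congr φ

end H91.SX
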