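/- Subalgebras of `End E` normalised by the symplectic group or by the Eichler transformations. -/
import Cfsg.Agent.H91.TenForm
import Cfsg.Agent.H60.Geom
import Cfsg.Agent.H56.OmegaGen

set_option autoImplicit false

namespace H91

open Module H56 H62 QuadraticMap
open LinearMap (BilinForm)

variable {F E : Type*} [Field F] [AddCommGroup E] [Module F E] {𝔄 : Subalgebra F (End F E)}

/-- The map `v ↦ B (v, y) x`. -/
def rk1 (B : BilinForm F E) (x y : E) : End F E := (B.flip y).smulRight x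

section rk1

variable {B : BilinForm F E}

@[simp] theorem rk1_apply (x y v : E) : rk1 B x y v = B v y • x := rfl

theorem rk1_mul (x y x' y' : E) : rk1 B x y * rk1 B x' y' = B x' y • rk1 B x y' := by
  ext v; simp [smul_smul, mul_comm]

theorem conj_rk1 {A : E ≃ₗ[F] E} (hA : Iso B A) (x y : E) :
    A.conj (rk1 B x y) = rk1 B (A x) (A y) := by
  ext v
  rw [LinearEquiv.conj_apply_apply, rk1_apply, rk1_apply, map_smul, ← hA (A.symm v)]
  simp

theorem top_of_rk1 [FiniteDimensional F E] (hB : B.Nondegenerate) (h : ∀ x y, rk1 B x y ∈ 𝔄) :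
    𝔄 = ⊤ := eq_top_of_rank_one fun x l => by
  obtain ⟨y, hy⟩ := exists_flip_eq hB l
  convert h x y using 1
  ext v; simp [hy]

/-- The vectors `x` with `B (·, y) x ∈ 𝔄`. -/
def rkL (𝔄 : Subalgebra F (End F E)) (B : BilinForm F E) (y : E) : Submodule F E :=
  (Subalgebra.toSubmodule 𝔄).comap (LinearMap.smulRightₗ (B.flip y))

theorem mem_rkL {x y : E} : x ∈ rkL 𝔄 B y ↔ rk1 B x y ∈ 𝔄 := Iff.rfl

end rk1

section sp

variable [FiniteDimensional F E] {B : BilinForm F E} (hB : B.Nondegenerate) (hA : B.IsAlt)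
  (hN : ∀ (e : E) (c : F) (A : E ≃ₗ[F] E), (∀ x, A x = x + (c * B x e) • e) → Nz 𝔄 A)
include hB hA hN

omit hB hN [FiniteDimensional F E] in
theorem exists_sptv (e : E) (c : F) : ∃ A : E ≃ₗ[F] E, ∀ x, A x = x + (c * B x e) • e :=
  ⟨LinearEquiv.transvection (f := c • B.flip e) (v := e) (by simp [hA.self_eq_zero]),
    fun x => by simp [LinearMap.transvection.apply]⟩

theorem sp_top_of_rk1 {u v : E} (hu : u ≠ 0) (hv : v ≠ 0) (h : rk1 B u v ∈ 𝔄) : 𝔄 = ⊤ := by
  have cj : ∀ e c x y, rk1 B x y ∈ 𝔄 →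
      rk1 B (x + (c * B x e) • e) (y + (c * B y e) • e) ∈ 𝔄 := fun e c x y h => by
    obtain ⟨A, hA'⟩ := exists_sptv hA e c
    simpa only [conj_rk1 (isom_of_sp hA hA'), hA'] using hN e c A hA' _ h
  have k0 : ∀ e, B v e = 0 → B u e ≠ 0 → e ∈ rkL 𝔄 B v := fun e h1 h2 => by
    have := cj e 1 u v h
    rw [h1, mul_zero, zero_smul, add_zero, one_mul, ← mem_rkL,
      add_mem_cancel_left (mem_rkL.2 h)] at this
    exact (Submodule.smul_mem_iff _ h2).1 this
  have k1 : rk1 B v v ∈ 𝔄 := by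
    rw [← mem_rkL]
    by_cases h1 : v ∈ F ∙ u
    · exact (Submodule.span_singleton_le_iff_mem _ _).2 (mem_rkL.2 h) h1
    by_cases h2 : B u v = 0
    swap; · exact k0 v (hA v) h2
    obtain ⟨e, e1, e2⟩ := exists_form_pair hB hA (notMem_span_symm hu h1)
    rw [alt_swap hA] at e1 e2
    have e3 : B u e ≠ 0 := by rintro h; simp [h] at e1
    simpa using sub_mem (k0 (v + e) (by simpa [hA v] using e2) (by simpa [h2] using e3))
      (k0 e (by simpa using e2) e3)
  have k2 : ∀ x y, rk1 B x x ∈ 𝔄 → B x y ≠ 0 → rk1 B y y ∈ 𝔄 := fun x y h1 h2 => by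
    simpa [hA x, h2] using cj (y - x) (B x y)⁻¹ x x h1
  have k3 : ∀ y, rk1 B y y ∈ 𝔄 := fun y => by
    by_cases hy : y = 0
    · convert zero_mem 𝔄 using 1
      ext v; simp [hy]
    obtain ⟨z, -, z1, z2⟩ := H60.exists_not_mem_two (W := ⊤) (A := LinearMap.ker (B.flip v))
      (B := LinearMap.ker (B.flip y)) (fun h => hv (hB.2 _ fun x => h trivial))
      (fun h => hy (hB.2 _ fun x => h trivial))
    exact k2 z y (k2 v z k1 (by rw [alt_swap hA]; simpa using z1)) z2
  refine top_of_rk1 hB fun x y => ?_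
  have k4 : ∀ x, B y x ≠ 0 → x ∈ rkL 𝔄 B y := fun x hx => by
    have := mul_mem (k3 x) (k3 y)
    rw [rk1_mul] at this
    simpa [smul_smul, hx, mem_rkL] using 𝔄.smul_mem this (B y x)⁻¹
  rw [← mem_rkL]
  by_cases hy : y = 0
  · convert zero_mem 𝔄 using 1
    rw [mem_rkL]; congr! 1
    ext v; simp [hy]
  by_cases hx : B y x = 0
  · obtain ⟨z, hz⟩ := exists_form_ne_zero hB hy
    have hz' : B y z ≠ 0 := by rw [alt_swap hA]; simpa using hz
    simpa using sub_mem (k4 (x + z) (by simpa [hx] using hz')) (k4 z hz')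
  · exact k4 x hx

/-- A subalgebra normalised by all symplectic transvections is trivial or everything. -/
theorem eq_top_of_nz_sp [Fintype F] (hex : ¬ (finrank F E = 2 ∧ Fintype.card F = 2))
    {α : End F E} (hα : α ∈ 𝔄) (hα' : ∀ c : F, α ≠ c • 1) : 𝔄 = ⊤ := by
  by_cases h3 : finrank F E ≤ 2
  · refine eq_top_of_nz_sl (fun l u h => ?_) hex hα hα'
    by_cases hu : u = 0
    · exact hN 0 0 _ fun x => by simp [LinearMap.transvection.apply, hu]
    obtain ⟨v, hv⟩ := exists_flip_eq hB l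
    have h1 : F ∙ u = LinearMap.ker (B.flip u) := Submodule.eq_of_le_of_finrank_le
      ((Submodule.span_singleton_le_iff_mem _ _).2 (hA u)) (by
        have := Submodule.finrank_lt (s := LinearMap.ker (B.flip u))
          fun h => hu (hB.2 _ fun x => h.ge trivial)
        rw [finrank_span_singleton hu]; omega)
    obtain ⟨c, rfl⟩ := Submodule.mem_span_singleton.1 (h1.ge (show B v u = 0 by
      rw [alt_swap hA, hv, h, neg_zero]))
    exact hN u c _ fun x => by simp [LinearMap.transvection.apply, ← hv]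
  obtain ⟨e, he⟩ := exists_notMem_span_of_ne hα'
  have he0 : e ≠ 0 := by rintro rfl; simp at he
  have D : ∀ e v₁ v₂ z, rk1 B e v₁ + rk1 B v₂ e ∈ 𝔄 → B e z = 0 →
      B v₁ z • rk1 B e z + B v₂ z • rk1 B z e ∈ 𝔄 := fun e v₁ v₂ z h1 h2 => by
    obtain ⟨A, hA'⟩ := exists_sptv hA z 1
    convert sub_mem (hN z 1 A hA' _ h1) h1 using 1
    rw [map_add, conj_rk1 (isom_of_sp hA hA'), conj_rk1 (isom_of_sp hA hA')]
    ext v; simp [hA', h2]; module
  obtain ⟨A, hA'⟩ := exists_sptv hA e 1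
  obtain ⟨v₁, hv₁⟩ := exists_flip_eq hB (B.flip e ∘ₗ α)
  have h1 : rk1 B e v₁ + rk1 B (-(α e + B (α e) e • e)) e ∈ 𝔄 := by
    convert sub_mem (hN e 1 A hA' _ hα) hα using 1
    ext x
    have : A.symm x = x - B x e • e := by
      rw [LinearEquiv.symm_apply_eq]; simp [hA', hA e]
    simp [LinearEquiv.conj_apply_apply, this, hA', hv₁]; module
  set v₂ := -(α e + B (α e) e • e)
  have h2 : v₂ ∉ F ∙ e := fun h => he (by
    simpa [v₂] using sub_mem (neg_mem h)
      (Submodule.smul_mem _ (B (α e) e) (Submodule.mem_span_singleton_self e)))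
  obtain ⟨z, z1, z2, z3⟩ := H60.exists_not_mem_two (W := LinearMap.ker (B.flip e)) (A := F ∙ e)
    (B := LinearMap.ker (B.flip v₂)) (fun h => by
      have k1 := Submodule.finrank_mono h
      have k2 := finrank_le_finrank_inf_ker_add_one ⊤ (B.flip e)
      rw [finrank_span_singleton he0] at k1
      rw [finrank_top, top_inf_eq] at k2
      omega) (fun h => by
      obtain ⟨x, x1, x2⟩ := exists_form_pair hB hA h2
      simpa [x1] using h x2)
  replace z1 : B e z = 0 := by rw [alt_swap hA]; simpa using z1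
  replace z3 : B v₂ z ≠ 0 := by rw [alt_swap hA]; simpa using z3
  have z0 : z ≠ 0 := by rintro rfl; simp at z2
  have h4 := D e v₁ v₂ z h1 z1
  by_cases h5 : B v₁ z = 0
  · refine sp_top_of_rk1 hB hA hN z0 he0 ?_
    simpa [h5, smul_smul, z3] using 𝔄.smul_mem h4 (B v₂ z)⁻¹
  obtain ⟨y, y1, y2⟩ := exists_form_pair hB hA (notMem_span_symm he0 z2)
  have h6 := D z (B v₂ z • e) (B v₁ z • e) y (by
    convert h4 using 1
    ext v; simp; module) (by rw [alt_swap hA, y2, neg_zero])
  refine sp_top_of_rk1 hB hA hN z0 z0 ?_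
  have h7 := mul_mem h4 h6
  have y3 : B e y = -1 := by rw [alt_swap hA, y1]
  have y4 : B z e = 0 := by rw [alt_swap hA, z1, neg_zero]
  simp only [add_mul, mul_add, smul_mul_assoc, mul_smul_comm, rk1_mul, hA z, y1, y2, y3, y4,
    zero_smul, smul_zero, zero_add, one_smul, map_smul, LinearMap.smul_apply, smul_smul,
    smul_eq_mul] at h7
  simpa [smul_smul, z3, h5, mul_assoc] using 𝔄.smul_mem h7 (-(B v₂ z)⁻¹ * (B v₁ z)⁻¹)

end sp

section orth

open H60

variable [FiniteDimensional F E] [Fintype F] {Q : QuadraticForm F E}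

/-- The hypotheses under which the Eichler transformations act primitively. -/
structure GoodO (Q : QuadraticForm F E) : Prop where
  nd : Q.polarBilin.Nondegenerate
  two : (2 : F) ≠ 0
  three : 3 ≤ finrank F E
  small : ¬ (finrank F E = 3 ∧ Fintype.card F = 3)
  four : finrank F E = 4 → ∀ U : Submodule F E, (∀ u ∈ U, Q u = 0) → finrank F U < 2

omit [FiniteDimensional F E] in
theorem exists_sq_ne (h2 : (2 : F) ≠ 0) (h3 : Fintype.card F ≠ 3) :
    ∃ c : F, c ≠ 0 ∧ c * c ≠ 1 := by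
  classical
  by_contra hc
  push Not at hc
  have h : (Finset.univ : Finset F) = {0, 1, -1} := Finset.eq_univ_iff_forall.2 (fun c => by
    by_cases h : c = 0
    · simp [h]
    · simp [mul_self_eq_one_iff.1 (hc c h)]) |>.symm
  refine h3 ?_
  rw [← Finset.card_univ, h, Finset.card_eq_three]
  exact ⟨0, 1, -1, zero_ne_one, by simp, fun e => h2 (by linear_combination e), rfl⟩

theorem exists_Q_ne_const (h2 : (2 : F) ≠ 0) {U : Submodule F E} (hU : Nondeg Q U) (h0 : U ≠ ⊥)
    (h : ¬ (finrank F U ≤ 1 ∧ Fintype.card F = 3)) {c : F} (hc : c ≠ 0) :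
    ∃ v ∈ U, Q v ≠ 0 ∧ Q v ≠ c := by
  obtain ⟨v, v1, v2⟩ := hU.exists_Q_ne h0
  by_cases h1 : Q v = c
  swap; · exact ⟨v, v1, v2, h1⟩
  by_cases h3 : Fintype.card F = 3
  · have k := hU.inf_ort v1 (by rw [polar_self']; exact mul_ne_zero h2 v2)
    obtain ⟨w, w1, w2⟩ := k.exists_Q_ne fun e => by
      have := finrank_le_inf_ort (Q := Q) U v
      rw [e, finrank_bot] at this
      exact h ⟨this, h3⟩
    by_cases h4 : Q w = c
    · have e : Q (v + w) = 2 * c := by rw [Q_add, h1, h4, mem_ort.1 w1.2]; ring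
      exact ⟨v + w, add_mem v1 w1.1, e ▸ mul_ne_zero h2 hc, fun e' => hc (by
        linear_combination e' - e)⟩
    · exact ⟨w, w1.1, w2, h4⟩
  · obtain ⟨a, a1, a2⟩ := exists_sq_ne h2 h3
    exact ⟨a • v, U.smul_mem a v1, by rw [Q_smul]; simp [a1, v2], fun e => a2
      (mul_right_cancel₀ hc (by rw [← h1, ← Q_smul, e, h1, one_mul]))⟩

omit [FiniteDimensional F E] [Fintype F] in
theorem conj_apply_O (g : O Q) (β : End F E) (x : E) : g.1.conj β (g x) = g (β x) := by
  rw [LinearEquiv.conj_apply_apply, ← O.coe_apply g x, LinearEquiv.symm_apply_apply]; rfl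

namespace GoodO

variable (G : GoodO Q)
include G

theorem hyp : HasHyp Q ⊤ := (nondeg_top G.nd).hasHyp (by simpa using G.three)

theorem exists_sing_ne {x : E} (hx : x ≠ 0) : ∃ e, Q e = 0 ∧ polar Q e x ≠ 0 := by
  obtain ⟨y, hy⟩ := exists_polar_ne_zero G.nd hx
  obtain ⟨e, -, h1, h2⟩ := G.hyp.exists_sing_polar_ne trivial hy
  exact ⟨e, h1, by rwa [polar_comm]⟩

theorem exists_perp_Q {e : E} (he : Q e = 0) (h0 : e ≠ 0) : ∃ w, polar Q e w = 0 ∧ Q w ≠ 0 := by
  obtain ⟨f, hf⟩ := exists_isHyp G.nd h0 he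
  obtain ⟨w, h1, -, h2⟩ := hf.exists_perp_Q_ne G.nd G.three
  exact ⟨w, h1, h2⟩

theorem exists_perp_two (h4 : 4 ≤ finrank F E) (x y : E) :
    ∃ w, polar Q x w = 0 ∧ polar Q y w = 0 ∧ Q w ≠ 0 := by
  by_cases h5 : 5 ≤ finrank F E
  · exact exists_perp_pair_Q_ne G.nd h5 x y
  by_contra hc
  push Not at hc
  have h1 := G.four (by omega) (⊤ ⊓ ort Q x ⊓ ort Q y) fun u hu => hc u hu.1.2 hu.2
  have h2 := finrank_le_inf_ort (Q := Q) (⊤ ⊓ ort Q x) y
  have h3 := finrank_le_inf_ort (Q := Q) ⊤ x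
  rw [finrank_top] at h3
  omega

omit [FiniteDimensional F E] in
/-- A subspace containing the images of `y` under a subgroup of the Eichler group of `e`. -/
theorem mem_of_eich {K S : Submodule F E} {e y w : E} (he : Q e = 0) (hS : S ≤ ort Q e)
    (hw : w ∈ S) (hQw : Q w ≠ 0) (hy : y ∈ K) (hey : polar Q e y ≠ 0)
    (h : ∀ v ∈ S, eich Q e v y ∈ K) : e ∈ K ∧ S ≤ K := by
  have k : ∀ v ∈ S, polar Q v y • e - polar Q e y • v - (Q v * polar Q e y) • e ∈ K :=
    fun v hv => by
      convert sub_mem (h v hv) hy using 1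
      rw [eich_apply he (hS hv)]; abel
  have h1 : e ∈ K := by
    have := add_mem (k w hw) (k (-w) (neg_mem hw))
    rw [← K.smul_mem_iff (s := -2 * (Q w * polar Q e y)) (by simp [G.two, hQw, hey])]
    convert this using 1
    simp only [polar_neg_left, QuadraticMap.map_neg]; module
  refine ⟨h1, fun v hv => ?_⟩
  rw [← K.smul_mem_iff hey]
  convert sub_mem (K.smul_mem (polar Q v y - Q v * polar Q e y) h1) (k v hv) using 1
  module

theorem irred {X : Submodule F E} (h : ∀ u v, ∀ x ∈ X, eich Q u v x ∈ X) (h0 : X ≠ ⊥) :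
    X = ⊤ := by
  obtain ⟨x, hx, hx0⟩ := Submodule.exists_mem_ne_zero_of_ne_bot h0
  obtain ⟨e, he, hex⟩ := G.exists_sing_ne hx0
  obtain ⟨w, w1, w2⟩ := G.exists_perp_Q he (by rintro rfl; simp at hex)
  obtain ⟨-, h1⟩ := G.mem_of_eich he le_rfl w1 w2 hx hex fun v _ => h e v x hx
  refine eq_top_iff.2 fun y _ => ?_
  simpa using add_mem (h1 (show y - (polar Q e y / polar Q e x) • x ∈ ort Q e by simp [hex]))
    (X.smul_mem (polar Q e y / polar Q e x) hx)

theorem exists_move {X : Submodule F E} (h0 : X ≠ ⊥) (h1 : X ≠ ⊤) :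
    ∃ u v, ∃ x ∈ X, eich Q u v x ∉ X := by
  by_contra hc
  push Not at hc
  exact h1 (G.irred hc h0)

/-- The pair lemma. -/
theorem pair {I K : Submodule F E} (hIK : I ≤ K) (hI : 2 ≤ finrank F I)
    (hK : finrank F K + 2 ≤ finrank F E)
    (h : ∀ u v, ∀ x ∈ I, x ≠ 0 → eich Q u v x = x → ∀ y ∈ I, eich Q u v y ∈ K) : False := by
  have h4 : 4 ≤ finrank F E := by have := Submodule.finrank_mono hIK; omega
  have hy : ∀ x : E, ∃ y ∈ I, y ∉ F ∙ x := fun x =>
    exists_mem_not_mem_of_finrank_lt (by have := finrank_span_singleton_le (F := F) x; omega)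
  obtain ⟨x, x1, x0, y, y1, y2, s, s1, s2, s3⟩ : ∃ x ∈ I, x ≠ 0 ∧ ∃ y ∈ I, y ∉ F ∙ x ∧
      ∃ s, Q s = 0 ∧ polar Q x s = 0 ∧ s ∉ F ∙ x := by
    by_cases hc : ∀ x ∈ I, Q x = 0
    · obtain ⟨x, x1, x2⟩ := hy 0
      obtain ⟨y, y1, y2⟩ := hy x
      exact ⟨x, x1, by simpa using x2, y, y1, y2, y, hc y y1,
        polar_eq_zero_of_ts hc x x1 y y1, y2⟩
    · push Not at hc
      obtain ⟨x, x1, x2⟩ := hc
      obtain ⟨y, y1, y2⟩ := hy x
      obtain ⟨s, s1, s2, s3⟩ := exists_sing (Q := Q) (⊤ ⊓ ort Q x) (by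
        have := finrank_le_inf_ort (Q := Q) ⊤ x
        rw [finrank_top] at this; omega)
      refine ⟨x, x1, by rintro rfl; simp at x2, y, y1, y2, s, s3, s1.2, fun hs => ?_⟩
      obtain ⟨c, rfl⟩ := Submodule.mem_span_singleton.1 hs
      rw [Q_smul] at s3
      simp_all
  obtain ⟨e, e1, e2, e3⟩ : ∃ e, Q e = 0 ∧ polar Q e x = 0 ∧ polar Q e y ≠ 0 := by
    by_cases hc : polar Q s y = 0
    swap; · exact ⟨s, s1, pc s2, hc⟩
    have k : ∀ s, s ∉ F ∙ x → ¬ ort Q x ≤ ort Q s := fun s hs h => by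
      obtain ⟨c, hc⟩ := exists_smul_of_orth G.nd (x := x) (z := s) fun v hv => h hv
      exact hs (Submodule.mem_span_singleton.2 ⟨c, hc.symm⟩)
    obtain ⟨z, z1, z2, z3⟩ := exists_not_mem_two (k s s3) (k y y2)
    rw [mem_ort'] at z1 z2 z3
    refine ⟨z - (Q z / polar Q z s) • s, ?_, by simp [z1, pc s2], by simpa [hc] using z3⟩
    rw [Q_sub, Q_smul, s1, polar_smul_right, smul_eq_mul]
    field_simp; ring
  obtain ⟨w, w1, w2, w3⟩ := G.exists_perp_two h4 e x
  obtain ⟨-, k⟩ := G.mem_of_eich (S := ⊤ ⊓ ort Q e ⊓ ort Q x) e1 (fun v hv => hv.1.2)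
    ⟨⟨trivial, w1⟩, w2⟩ w3 (hIK y1) e3 fun v hv =>
      h e v x x1 x0 (eich_apply_of_orth_orth e2 (pc hv.2)) y y1
  have k1 := Submodule.finrank_lt_finrank_of_lt (lt_of_le_of_ne k fun e => e3 (e.ge (hIK y1)).1.2)
  have k2 := finrank_le_inf_ort (Q := Q) (⊤ ⊓ ort Q e) x
  have k3 := finrank_le_inf_ort (Q := Q) ⊤ e
  rw [finrank_top] at k3
  omega

variable (hN : ∀ u v, Nz 𝔄 (eich Q u v).1)
include hN

omit G [FiniteDimensional F E] [Fintype F] in
theorem nz_inv (u v : E) : Nz 𝔄 (eich Q u v).1.symm := by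
  have := hN u (-v)
  rwa [eich_neg] at this

/-- A normalised division algebra is trivial. -/
theorem scalar_of_inj (hi : ∀ β ∈ 𝔄, ∀ x, x ≠ 0 → β x = 0 → β = 0) {α : End F E} (hα : α ∈ 𝔄) :
    ∃ c : F, α = c • 1 := by
  by_contra hc
  push Not at hc
  have : Nontrivial E := Module.nontrivial_of_finrank_pos (R := F) (by have := G.three; omega)
  obtain ⟨x, hx⟩ := exists_ne (0 : E)
  obtain ⟨e, he, hex⟩ := G.exists_sing_ne hx
  have e0 : e ≠ 0 := by rintro rfl; simp at hex
  have sc : ∀ β ∈ 𝔄, ∀ c : F, β e = c • e → β = c • 1 := fun β hβ c h =>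
    sub_eq_zero.1 (hi _ (sub_mem hβ (𝔄.smul_mem 𝔄.one_mem c)) e e0 (by simp [h]))
  have cj : ∀ (β : End F E) v, polar Q e v = 0 →
      (eich Q e v).1.conj β e = eich Q e v (β e) := fun β v hv => by
    rw [LinearEquiv.conj_apply_apply, show (eich Q e v).1.symm e = e from
      (LinearEquiv.symm_apply_eq _).2 (eich_apply_self he hv).symm]; rfl
  obtain ⟨β, b1, b2, b3⟩ : ∃ β ∈ 𝔄, polar Q e (β e) = 0 ∧ β e ∉ F ∙ e := by
    by_cases h : polar Q e (α e) = 0
    · refine ⟨α, hα, h, fun h' => ?_⟩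
      obtain ⟨c, h'⟩ := Submodule.mem_span_singleton.1 h'
      exact hc c (sc α hα c h'.symm)
    obtain ⟨w, w1, w2⟩ := G.exists_perp_Q he e0
    refine ⟨_, sub_mem (hN e w α hα) hα, ?_, fun h' => ?_⟩
    · simp [cj α w w1, eich_apply he w1, pself he, w1]
    · obtain ⟨c, h'⟩ := Submodule.mem_span_singleton.1 h'
      rw [LinearMap.sub_apply, cj α w w1, eich_apply he w1] at h'
      have := congrArg Q (show polar Q e (α e) • w =
        (polar Q w (α e) - Q w * polar Q e (α e) - c) • e by linear_combination (norm := module) h')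
      simp [Q_smul, he, h, w2] at this
  by_cases h4 : 4 ≤ finrank F E
  · obtain ⟨w, w1, w2, w3⟩ := G.exists_perp_two h4 e (β e)
    have k := sc _ (sub_mem (hN e w β b1) b1) 0 (by
      simp [cj β w w1, eich_apply_of_orth_orth b2 (pc w2)])
    have k1 : ∀ y, eich Q e w (β y) = β (eich Q e w y) := fun y => by
      simpa [conj_apply_O, sub_eq_zero] using LinearMap.congr_fun k (eich Q e w y)
    have k2 : ∀ y, eich Q e w (eich Q e w y) - 2 • eich Q e w y + y =
        (-2 * Q w * polar Q e y) • e := fun y => by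
      rw [eich_apply he w1 y]
      simp only [map_add, map_sub, map_smul, eich_apply_self he w1, eich_apply he w1 y,
        eich_apply_of_orth he w1 w1, polar_self']
      module
    have k3 := k2 (β x)
    rw [k1, k1, ← map_nsmul, ← map_sub, ← map_add, k2, map_smul] at k3
    refine b3 ((Submodule.smul_mem_iff _ (s := -2 * Q w * polar Q e x)
      (by simp [G.two, w3, hex])).1 ?_)
    rw [k3]
    exact Submodule.smul_mem _ _ (Submodule.mem_span_singleton_self e)
  · have k := card_le_of_shift β Finset.univ fun c _ => by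
      obtain ⟨φ, p1, p2⟩ := exists_dual_pair b3
      obtain ⟨v, hv⟩ := exists_polar_eq G.nd (c • φ)
      have v1 : polar Q e v = 0 := pc (by simp [hv, p2])
      refine ⟨(eich Q e v).1, fun y => ?_⟩
      have := sc _ (sub_mem (hN e v β b1) b1) c (by
        simp [cj β v v1, eich_apply_of_orth he v1 b2, hv, p1])
      simpa [LinearEquiv.conj_apply_apply, sub_eq_iff_eq_add'] using LinearMap.congr_fun this y
    rw [Finset.card_univ] at k
    have h3 := G.three
    by_cases h : Fintype.card F = 3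
    · exact G.small ⟨by omega, h⟩
    obtain ⟨c, c1, c2⟩ := exists_sq_ne G.two h
    classical
    have := Finset.card_le_univ ({0, 1, -1, c} : Finset F)
    rw [Finset.card_insert_of_notMem (by simp [c1.symm]), Finset.card_insert_of_notMem (by
      simp only [Finset.mem_insert, Finset.mem_singleton, not_or]
      exact ⟨fun e => G.two (by linear_combination e), by rintro rfl; simp at c2⟩),
      Finset.card_pair (by rintro rfl; simp at c2)] at this
    omega

omit G [Fintype F] hN in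
theorem finrank_range_mul_lt {β γ : End F E} {x : E} (hx : x ∈ LinearMap.range γ) (h0 : x ≠ 0)
    (h : β x = 0) : finrank F (LinearMap.range (β * γ)) < finrank F (LinearMap.range γ) := by
  have h1 := LinearMap.finrank_range_add_finrank_ker (β.domRestrict (LinearMap.range γ))
  have h2 : LinearMap.ker (β.domRestrict (LinearMap.range γ)) ≠ ⊥ := fun e =>
    h0 (congrArg Subtype.val ((Submodule.mem_bot F).1 (e.le (show _ = _ from h) :
      (⟨x, hx⟩ : LinearMap.range γ) ∈ ⊥)))
  rw [LinearMap.range_domRestrict, ← LinearMap.range_comp] at h1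
  have := Submodule.one_le_finrank_iff.2 h2
  change finrank F (LinearMap.range (β * γ)) + _ = _ at h1
  omega

omit G [FiniteDimensional F E] [Fintype F] hN in
theorem range_conj (A : E ≃ₗ[F] E) (β : End F E) :
    LinearMap.range (A.conj β) = (LinearMap.range β).map (A : E →ₗ[F] E) := by
  rw [LinearEquiv.conj_apply, LinearEquiv.range_comp, LinearMap.range_comp]

/-- A non-trivial normalised algebra contains an element of rank one. -/
theorem exists_rk1 {α : End F E} (hα : α ∈ 𝔄) (hα' : ∀ c : F, α ≠ c • 1) :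
    ∃ u v, u ≠ 0 ∧ v ≠ 0 ∧ rk1 Q.polarBilin u v ∈ 𝔄 := by
  obtain ⟨β, ⟨b1, b0⟩, hm⟩ := (InvImage.wf (fun β : End F E => finrank F (LinearMap.range β))
    Nat.lt_wfRel.wf).has_min {β | β ∈ 𝔄 ∧ β ≠ 0} ⟨α, hα, by simpa using hα' 0⟩
  replace hm : ∀ γ ∈ 𝔄, finrank F (LinearMap.range γ) < finrank F (LinearMap.range β) → γ = 0 :=
    fun γ h1 h2 => by_contra fun h3 => hm γ ⟨h1, h3⟩ h2
  have r0 : LinearMap.range β ≠ ⊥ := fun e => b0 (LinearMap.range_eq_bot.1 e)
  by_cases r1 : finrank F (LinearMap.range β) ≤ 1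
  · obtain ⟨u, u0, hu⟩ := finrank_eq_one_iff'.1
      (le_antisymm r1 (Submodule.one_le_finrank_iff.2 r0))
    have u1 : (u : E) ≠ 0 := by simpa using u0
    obtain ⟨l, hl⟩ := exists_dual_of_ne_zero (F := F) u1
    obtain ⟨v, hv⟩ := exists_flip_eq G.nd (l ∘ₗ β)
    have e : rk1 Q.polarBilin u v = β := LinearMap.ext fun y => by
      obtain ⟨c, hc⟩ := hu ⟨β y, y, rfl⟩
      have : β y = c • (u : E) := (congrArg Subtype.val hc).symm
      rw [rk1_apply, hv, LinearMap.comp_apply, this]; simp [hl]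
    exact ⟨u, v, u1, fun h => b0 (by rw [← e, h]; ext; simp), by rwa [e]⟩
  exfalso
  by_cases rt : LinearMap.range β = ⊤
  · obtain ⟨c, hc⟩ := G.scalar_of_inj hN (fun γ h1 x x0 h2 => hm γ h1 (by
      have := finrank_range_mul_lt (β := γ) (γ := 1) (x := x) ⟨x, rfl⟩ x0 h2
      rwa [mul_one, End.one_eq_id, LinearMap.range_id, ← rt] at this)) hα
    exact hα' c hc
  have cj : ∀ u v, ∀ γ : End F E, finrank F (LinearMap.range ((eich Q u v).1.conj γ)) =
      finrank F (LinearMap.range γ) := fun u v γ => by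
    rw [range_conj, LinearEquiv.finrank_map_eq]
  obtain ⟨γ, g1, g2, g3⟩ : ∃ γ ∈ 𝔄, finrank F (LinearMap.range γ) = finrank F (LinearMap.range β) ∧
      β * γ = 0 := by
    by_cases hb : β * β = 0
    · exact ⟨β, b1, rfl, hb⟩
    have inj : ∀ n : ℕ, ∀ y ∈ LinearMap.range β, (β ^ n) y = 0 → y = 0 := fun n => by
      induction n with
      | zero => simp
      | succ n ih =>
        intro y hy h
        rw [pow_succ, End.mul_apply] at h
        by_contra y0
        exact hb (hm _ (mul_mem b1 b1) (finrank_range_mul_lt hy y0 (ih _ ⟨y, rfl⟩ h)))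
    have : Finite E := Module.finite_of_finite F
    have : Finite (End F E) := Finite.of_injective _ (DFunLike.coe_injective (F := End F E))
    obtain ⟨n, hn⟩ : ∃ n : ℕ, ∀ y ∈ LinearMap.range β, (β ^ (n + 1)) y = y := by
      obtain ⟨i, j, h1, h2⟩ := Finite.exists_ne_map_eq_of_infinite fun n : ℕ => β ^ n
      wlog hij : i < j generalizing i j
      · exact this j i h1.symm h2.symm (by omega)
      obtain ⟨k, rfl⟩ := Nat.exists_eq_add_of_lt hij
      refine ⟨k, fun y hy => sub_eq_zero.1 (inj i _ (sub_mem ⟨(β ^ k) y, by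
        rw [pow_succ', End.mul_apply]⟩ hy) ?_)⟩
      rw [map_sub, ← End.mul_apply, ← pow_add, ← add_assoc, ← h2, sub_self]
    obtain ⟨u, v, x, x1, x2⟩ := G.exists_move r0 rt
    have k1 := mul_mem (sub_mem 𝔄.one_mem (pow_mem b1 (n + 1))) (hN u v β b1)
    refine ⟨_, k1, le_antisymm ?_ (not_lt.1 fun h => x2 ?_), ?_⟩
    · rw [← cj u v β]
      rw [End.mul_eq_comp, LinearMap.range_comp]
      exact Submodule.finrank_map_le _ _
    · obtain ⟨y, hy⟩ : eich Q u v x ∈ LinearMap.range ((eich Q u v).1.conj β) :=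
        (range_conj _ _).ge (Submodule.mem_map_of_mem x1)
      have := LinearMap.congr_fun (hm _ k1 h) y
      rw [End.mul_apply, hy, LinearMap.sub_apply, LinearMap.zero_apply, sub_eq_zero, pow_succ',
        End.mul_apply] at this
      exact ⟨_, this.symm⟩
    · rw [← mul_assoc, show β * (1 - β ^ (n + 1)) = 0 from LinearMap.ext fun y => by
        have := hn _ ⟨y, rfl⟩
        rw [← End.mul_apply, ← pow_succ, pow_succ', End.mul_apply] at this
        simp [this], zero_mul]
  have k := LinearMap.finrank_range_add_finrank_ker β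
  refine G.pair (I := LinearMap.range γ) (K := LinearMap.ker β)
    (by rintro _ ⟨y, rfl⟩; exact LinearMap.congr_fun g3 y) (by omega) (by omega)
    fun u v x x1 x0 x2 y y1 => ?_
  have k1 : x ∈ LinearMap.range ((eich Q u v).1.conj γ) :=
    (range_conj _ _).ge ⟨x, x1, x2⟩
  obtain ⟨x', rfl⟩ := x1
  have k2 := hm _ (mul_mem b1 (hN u v γ g1))
    (by rw [← g2, ← cj u v γ]; exact finrank_range_mul_lt k1 x0 (LinearMap.congr_fun g3 x'))
  obtain ⟨z, hz⟩ := (range_conj (eich Q u v).1 γ).ge (Submodule.mem_map_of_mem y1)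
  have := LinearMap.congr_fun k2 z
  rwa [End.mul_apply, hz] at this

theorem irred_of_rk1 {u v : E} (hu : u ≠ 0) (hv : v ≠ 0) (h : rk1 Q.polarBilin u v ∈ 𝔄)
    {X : Submodule F E} (hX : ∀ α ∈ 𝔄, ∀ x ∈ X, α x ∈ X) (h0 : X ≠ ⊥) : X = ⊤ := by
  obtain ⟨Y, ⟨y1, y0⟩, hm⟩ := (InvImage.wf (fun Y : Submodule F E => finrank F Y)
    Nat.lt_wfRel.wf).has_min {Y | (∀ α ∈ 𝔄, ∀ x ∈ Y, α x ∈ Y) ∧ Y ≠ ⊥} ⟨X, hX, h0⟩
  replace hm : ∀ Z : Submodule F E, (∀ α ∈ 𝔄, ∀ x ∈ Z, α x ∈ Z) → Z ≠ ⊥ →
    finrank F Y ≤ finrank F Z := fun Z h1 h2 => not_lt.1 (hm Z ⟨h1, h2⟩)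
  refine Submodule.eq_top_of_finrank_eq (le_antisymm (Submodule.finrank_le _)
    (le_trans (le_of_eq ?_) (hm X hX h0)))
  by_contra hY
  have yt : Y ≠ ⊤ := fun e => hY (by rw [e, finrank_top])
  have cj : ∀ (Z : Submodule F E), (∀ α ∈ 𝔄, ∀ x ∈ Z, α x ∈ Z) → ∀ a b, ∀ α ∈ 𝔄,
      ∀ x ∈ Z.comap (eich Q a b).lin, α x ∈ Z.comap (eich Q a b).lin := fun Z hZ a b α hα x hx => by
    simpa [conj_apply_O] using hZ _ (hN a b α hα) _ hx
  have key : ∀ a b, ∀ x ∈ Y, x ≠ 0 → eich Q a b x ∈ Y → ∀ y ∈ Y, eich Q a b y ∈ Y :=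
    fun a b x x1 x0 x2 => (Submodule.eq_of_le_of_finrank_le
      (inf_le_left (a := Y) (b := Y.comap (eich Q a b).lin)) (hm _ (fun α hα y hy =>
        ⟨y1 α hα y hy.1, cj Y y1 a b α hα y hy.2⟩)
        fun e => x0 ((Submodule.mem_bot F).1 (e.le ⟨x1, x2⟩)))).ge.trans inf_le_right
  by_cases h2 : 2 ≤ finrank F Y
  · refine G.pair le_rfl h2 ?_ fun a b x x1 x0 x2 => key a b x x1 x0 (x2.symm ▸ x1)
    obtain ⟨a, b, x, x1, x2⟩ := G.exists_move y0 yt
    have k1 := Submodule.finrank_sup_add_finrank_inf_eq Y (Y.comap (eich Q a b).lin)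
    have k2 : Y ⊓ Y.comap (eich Q a b).lin = ⊥ := (Submodule.eq_bot_iff _).2 fun y hy =>
      by_contra fun h => x2 (key a b y hy.1 h hy.2 x x1)
    have k3 := Submodule.finrank_le (Y ⊔ Y.comap (eich Q a b).lin)
    have k4 : finrank F (Y.comap (eich Q a b).lin) = finrank F Y := finrank_comap_equiv _ _
    rw [k2, finrank_bot] at k1
    omega
  let S : Set E := {x | ∀ α ∈ 𝔄, α x ∈ F ∙ x}
  have s1 : ∀ a b, ∀ x ∈ S, eich Q a b x ∈ S := fun a b x hx α hα => by
    obtain ⟨c, hc⟩ := Submodule.mem_span_singleton.1 (hx _ (nz_inv hN a b α hα))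
    refine Submodule.mem_span_singleton.2 ⟨c, ?_⟩
    simpa [LinearEquiv.conj_apply_apply] using congrArg (eich Q a b).1 hc
  obtain ⟨x, x1, x2⟩ : ∃ x ∈ S, polar Q x v ≠ 0 := by
    by_contra hc
    push Not at hc
    obtain ⟨y, y2, y3⟩ := Submodule.exists_mem_ne_zero_of_ne_bot y0
    have k1 : F ∙ y = Y := Submodule.eq_of_le_of_finrank_le
      ((Submodule.span_singleton_le_iff_mem _ _).2 y2) (by rw [finrank_span_singleton y3]; omega)
    have k2 := G.irred (X := Submodule.span F S) (fun a b x hx =>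
      (Submodule.span_le (p := (Submodule.span F S).comap (eich Q a b).lin)).2
        (fun x hx => Submodule.subset_span (s1 a b x hx)) hx)
      fun e => y3 ((Submodule.mem_bot F).1 (e.le (Submodule.subset_span
        fun α hα => k1.ge (y1 α hα y y2))))
    exact hv (eq_zero_of_polar G.nd fun z =>
      (Submodule.span_le (p := ort Q v)).2 (fun x hx => pc (hc x hx)) (k2.ge trivial))
  have x0 : x ≠ 0 := by rintro rfl; simp at x2
  obtain ⟨c, hc⟩ := Submodule.mem_span_singleton.1 (x1 _ h)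
  rw [rk1_apply, polarBilin_apply_apply] at hc
  obtain ⟨e, he, hex⟩ := G.exists_sing_ne x0
  obtain ⟨f, hf⟩ := exists_isHyp G.nd (by rintro rfl; simp at hex) he
  have k1 : ∀ w, polar Q e w = 0 → Q w ≠ 0 → polar Q (eich Q e w x) v = 0 := fun w w1 w2 => by
    by_contra hne
    obtain ⟨d, hd⟩ := Submodule.mem_span_singleton.1 (s1 e w x x1 _ h)
    rw [rk1_apply, polarBilin_apply_apply] at hd
    have k2 : (polar Q x v * d) • eich Q e w x = (polar Q (eich Q e w x) v * c) • x := by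
      rw [mul_smul, hd, mul_smul, hc, smul_comm]
    have k3 := congrArg (polar Q e) k2
    rw [polar_smul_right, polar_smul_right, O.polar_apply_right, ← eich_neg,
      eich_apply_self he (by simp [w1])] at k3
    have k4 : d ≠ 0 := by rintro rfl; exact smul_ne_zero hne hu (by rw [← hd, zero_smul])
    rw [← mul_right_cancel₀ hex k3] at k2
    have k5 := smul_right_injective E (mul_ne_zero x2 k4) k2
    rw [eich_apply he w1] at k5
    have := congrArg Q (show polar Q e x • w = (polar Q w x - Q w * polar Q e x) • e by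
      linear_combination (norm := module) -k5)
    simp [Q_smul, he, hex, w2] at this
  have k2 : ∀ w, polar Q e w = 0 → Q w ≠ 0 → Q w * (polar Q e x * polar Q e v) = polar Q x v :=
    fun w w1 w2 => by
      have a1 := k1 w w1 w2
      have a2 := k1 (-w) (by simp [w1]) (by simpa using w2)
      rw [eich_apply he (by simp [w1])] at a1 a2
      simp only [polar_add_left, polar_sub_left, polar_smul_left, polar_neg_left, smul_eq_mul,
        QuadraticMap.map_neg] at a1 a2
      exact mul_left_cancel₀ G.two (by linear_combination -a1 - a2)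
  have nU := (nondeg_top G.nd).inf_ort_pair trivial trivial he hf.qf hf.ef
  have d1 := finrank_le_inf_ort (Q := Q) (⊤ ⊓ ort Q e) f
  have d2 := finrank_le_inf_ort (Q := Q) ⊤ e
  have d3 := G.three
  rw [finrank_top] at d2
  obtain ⟨w, w1, w2⟩ := G.exists_perp_Q he hf.ne_zero
  have d4 : polar Q e x * polar Q e v ≠ 0 := fun e => x2 (by rw [← k2 w w1 w2, e, mul_zero])
  obtain ⟨z, z1, z2, z3⟩ := exists_Q_ne_const G.two nU (fun e => by
    rw [e, finrank_bot] at d1; omega) (fun h => G.small ⟨by omega, h.2⟩) (div_ne_zero x2 d4)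
  exact z3 (eq_div_of_mul_eq d4 (k2 z z1.1.2 z2))

/-- A subalgebra normalised by all Eichler transformations is trivial or everything. -/
theorem eq_top {α : End F E} (hα : α ∈ 𝔄) (hα' : ∀ c : F, α ≠ c • 1) : 𝔄 = ⊤ := by
  obtain ⟨u, v, hu, hv, h⟩ := G.exists_rk1 hN hα hα'
  have k : rkL 𝔄 Q.polarBilin v = ⊤ := G.irred_of_rk1 hN hu hv h (fun α hα x hx => by
    convert mul_mem hα (mem_rkL.1 hx) using 1
    rw [mem_rkL]; congr! 1
    ext y; simp) fun e => hu ((Submodule.mem_bot F).1 (e.le h))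
  let Y : Submodule F E :=
    { carrier := {y | ∀ x, rk1 Q.polarBilin x y ∈ 𝔄}
      zero_mem' := fun x => by
        convert zero_mem 𝔄 using 1
        ext; simp
      add_mem' := fun ha hb x => by
        convert add_mem (ha x) (hb x) using 1
        ext; simp [add_smul]
      smul_mem' := fun c y ha x => by
        convert 𝔄.smul_mem (ha x) c using 1
        ext; simp [smul_smul] }
  have k2 : Y = ⊤ := G.irred (fun a b y hy x => by
    have := hN a b _ (hy ((eich Q a b)⁻¹ x))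
    rw [conj_rk1 (fun x y => by simp)] at this
    simpa using this) fun e => hv ((Submodule.mem_bot F).1 (e.le fun x => k.ge trivial))
  exact top_of_rk1 G.nd fun x y => k2.ge trivial x

end GoodO

end orth

end H91
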