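/- Overgroups of a tensor product group inside an orthogonal group: the stabiliser of `E ⊗ w₀`. -/
import Cfsg.Agent.H91.TenRk
import Cfsg.Agent.H60.Bridge
import Cfsg.Agent.H58.OQuot

set_option autoImplicit false

namespace H91

open Module H56 H56.Ten H62 H60 QuadraticMap
open LinearMap (BilinForm)

variable {F E W V : Type*} [Field F] [AddCommGroup E] [Module F E] [AddCommGroup W] [Module F W]
  [AddCommGroup V] [Module F V]

/-- A proper overgroup `M` of the tensor product group inside `Ω(Q)`. -/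
structure OC (T : Ten F E W V) (fE : BilinForm F E) (fW : BilinForm F W) (Q : QuadraticForm F V)
    (ε : F) (M : Subgroup (V ≃ₗ[F] V)) : Prop extends MC T fE fW Q.polarBilin ε ε M where
  le : M ≤ OG Q
  sing : ∀ e w, fW w w = 0 → Q (T.t e w) = 0
  five : 5 ≤ finrank F W
  line : ∀ w, w ≠ 0 → fW w w = 0 → ∃ z, fW z z = 0 ∧ fW z w = 0 ∧ z ∉ F ∙ w
  nz : ∀ 𝔄 : Subalgebra F (End F E), (∀ A, T.tm A 1 ∈ M → Nz 𝔄 A) → ∀ α ∈ 𝔄,
    (∀ c : F, α ≠ c • 1) → 𝔄 = ⊤
  nt : ¬ commutator (O Q) ≤ M.subgroupOf (OG Q)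

variable {T : Ten F E W V} {fE : BilinForm F E} {fW : BilinForm F W} {Q : QuadraticForm F V}
  {ε : F} {M : Subgroup (V ≃ₗ[F] V)} {w₀ : W}

theorem iso_of_OG {g : V ≃ₗ[F] V} (h : g ∈ OG Q) : Iso Q.polarBilin g :=
  fun x y => O.map_polar ⟨g, h⟩ x y

variable (T fW Q M) in
/-- All Eichler maps with centre `e ⊗ w` and direction in `E ⊗ w^⊥` lie in `M`. -/
def PE (w : W) : Prop := ∀ e y, tpi T fW w y = 0 → y ∈ AS (M.subgroupOf (OG Q)) (T.t e w)

theorem TF.pol {δ : F} (H : TF T fE fW Q.polarBilin δ ε) (e : E) (u : W) (y : V) :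
    polar Q (T.t e u) y = fE (tpi T fW u y) e := by
  rw [polar_comm, ← H.f_t]; rfl

namespace OC

variable (H : OC T fE fW Q ε M) [FiniteDimensional F E] [FiniteDimensional F W]
include H

theorem pe_of_top (hw : w₀ ≠ 0) (h0 : fW w₀ w₀ = 0) {z : W} (hz : fW z z = 0)
    (hzw : fW z w₀ = 0) (hi : z ∉ F ∙ w₀)
    (ht : Algebra.adjoin F (T.E0 M z (W₁ := W1 fW w₀) h0) = ⊤) : PE T fW Q M w₀ := by
  have pa := fun u hu β => H.pure_all hw h0 hz hzw hi H.five ht (u := u) hu β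
  obtain ⟨p, p1, p2⟩ := H.exists_partner hw h0
  obtain ⟨u, u1, u2⟩ := H.exists_pair hi
  intro e y hy
  have k0 : ∀ y, tpi T fW w₀ y = 0 → polar Q (T.t e w₀) y = 0 := fun y hy => by simp [H.pol, hy]
  have k1 : ∀ y ∈ T.LS (W1 fW w₀), (Q.polarBilin y).smulRight e ∈ T.QA M (W₁ := W1 fW w₀) h0 :=
    fun y hy => T.LS_induction (p := fun y => (Q.polarBilin y).smulRight e ∈ T.QA M h0) hy
      (by simp) (fun e' w hw => by
        convert pa w hw ((fE.flip e').smulRight e) using 1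
        ext x; simp [H.pol]) fun x y hx hy => by
      convert add_mem hx hy using 1
      ext x; simp [add_smul]
  refine ⟨k0 y hy, fun c => ?_⟩
  have k2 : tpi T fW w₀ (c • y) = 0 := by simp [hy]
  refine H.mem_of_QA (g := (eich Q (T.t e w₀) (c • y)).1) hw h0 (k1 _ (mem_LS_W1.2 k2))
    (iso_of_OG (eich Q _ _).2) (fun x hx => ?_) fun m hm γ hγ => ?_
  · rw [O.coe_apply, eich_apply_of_orth (H.sing e _ h0) (k0 _ k2) (k0 x hx)]
    simp
  obtain ⟨β, rfl⟩ := exists_adj_sub (γ := γ) H.ndE H.symE fun x => by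
    have := (mul_mem (inv_mem (H.le hm)) (eich Q (T.t e w₀) (c • y)).2) (T.t x p)
    rw [hγ, Q_add, H.sing _ _ h0, polar_comm, H.pol] at this
    rw [H.symE]
    simpa [p1, H.eps_ne] using this
  refine H.comm_mem_ZS h0 hzw ⟨_, pa u (H.reflW u2) β, fun e => by simp [u1]⟩

omit [FiniteDimensional F E] in
theorem PE.move (h0 : fW w₀ w₀ = 0) {z : W} (hz : fW z z = 0) (hzw : fW z w₀ = 0)
    (hi : z ∉ F ∙ w₀) (hw : w₀ ≠ 0) [Nontrivial E] (h : PE T fW Q M w₀) : PE T fW Q M z := by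
  obtain ⟨s, s1, s2, -⟩ := H.exists_s h0 hz hzw hi hw
  intro e y hy
  have sI := H.iso_of_rt (H.isom _ s1)
  have k := H.tpi_rt sI w₀ ((T.rt s)⁻¹ y)
  rw [s2, ← neg_one_smul F z, tpi_smul] at k
  have := apply_mem_AS (g := ⟨_, H.le s1⟩) s1 (h (-e) ((T.rt s)⁻¹ y) (by simpa [hy] using k.symm))
  simpa [s2] using this

theorem full (h0 : fW w₀ w₀ = 0) {z : W} (hz : fW z z = 0) (hzw : fW z w₀ = 0)
    (hi : z ∉ F ∙ w₀) (hw : w₀ ≠ 0) [Nontrivial E] (h : PE T fW Q M w₀) (h' : PE T fW Q M z)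
    (e : E) : Full (M.subgroupOf (OG Q)) (T.t e w₀) := by
  obtain ⟨p, p1, p2⟩ := H.exists_pair (notMem_span_symm hw hi)
  obtain ⟨v, v1, v2⟩ := H.exists_pair hi
  obtain ⟨e₂, he⟩ := exists_ne (0 : E)
  obtain ⟨e₃, he'⟩ := exists_form_ne_zero H.ndE he
  have p3 : fW p w₀ = ε := by rw [H.symW, p1, mul_one]
  have v3 : fW v z = ε := by rw [H.symW, v1, mul_one]
  refine full_of_ort_le fun y hy => ?_
  set e' := ε • tpi T fW w₀ y
  have e1 : fE e' e = 0 := by simp [e', ← H.pol, mem_ort.1 hy]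
  have k1 : T.t e' p ∈ AS (M.subgroupOf (OG Q)) (T.t e₂ z) := h' _ _ (by simp [H.reflW p2])
  have k2 := H.sing e₂ z hz
  have k3 := h e (T.t e₃ v) (by simp [H.reflW v2])
  have k4 := h e (T.t e₂ z) (by simp [hzw])
  have k5 := apply_mem_AS_of_fix (eich_mem_of_AS k1) (eich_apply_of_orth_orth
    (by simp [H.pol, H.reflW hzw]) (by simp [H.pol, H.reflE e1])) k3
  rw [eich_apply k2 k1.1] at k5
  have k6 : T.t e' p ∈ AS (M.subgroupOf (OG Q)) (T.t e w₀) := by
    rw [← Submodule.smul_mem_iff _ (s := polar Q (T.t e₂ z) (T.t e₃ v))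
      (by simp [H.pol, v3, H.eps_ne, he'])]
    convert sub_mem (sub_mem (add_mem k3 (Submodule.smul_mem _ (polar Q (T.t e' p) (T.t e₃ v)) k4))
      (Submodule.smul_mem _ (Q (T.t e' p) * polar Q (T.t e₂ z) (T.t e₃ v)) k4)) k5 using 1
    abel
  simpa using add_mem (h e (y - T.t e' p) (by simp [p3, e', smul_smul, H.sqW])) k6

/-- The stabiliser of `E ⊗ w₀` in `M` preserves the decomposition. -/
theorem stab [Finite F] [Nontrivial E] (hw : w₀ ≠ 0) (h0 : fW w₀ w₀ = 0) (g : V ≃ₗ[F] V)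
    (hg : g ∈ M) (h : ∀ v ∈ T.LS (F ∙ w₀), g v ∈ T.LS (F ∙ w₀)) : g ∈ T.grp := by
  have := T.finite
  obtain ⟨z, z1, z2, z3⟩ := H.line w₀ hw h0
  have hs := H.scalar_of_iso h0 z1 z2 z3 fun z z2 z1 z3 α hα => by
    by_contra hc
    push Not at hc
    have k1 := H.pe_of_top hw h0 z1 z2 z3
      (H.nz _ (fun A hA => nz_E0 hA) α (Algebra.subset_adjoin hα) hc)
    have k2 := PE.move H h0 z1 z2 z3 hw k1
    have z0 : z ≠ 0 := by rintro rfl; simp at z3
    obtain ⟨x, x1, x2⟩ := H.exists_pair (notMem_span_symm hw z3)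
    have x3 : fW x w₀ = ε := by rw [H.symW, x1, mul_one]
    obtain ⟨c, hc⟩ := H.exists_iso h0 (y := x) (by simp [x3, H.eps_ne])
    set p := x - c • w₀
    have p1 : fW p w₀ = ε := by simp [p, x3, h0]
    have p2 : fW p z = 0 := by simp [p, H.reflW x2, H.reflW z2]
    have p3 : p ∉ F ∙ z := fun e => by
      obtain ⟨a, ha⟩ := Submodule.mem_span_singleton.1 e
      simp [← ha, z2, H.eps_ne.symm] at p1
    have p0 : p ≠ 0 := fun e => by simp [e] at p3
    have k3 := PE.move H z1 hc p2 p3 z0 k2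
    obtain ⟨e, he⟩ := exists_ne (0 : E)
    obtain ⟨e', he'⟩ := exists_form_ne_zero H.ndE he
    refine H.nt (commutator_le_of_full₂ H.nd ?_ (H.full h0 z1 z2 z3 hw k1 k2 e)
      (H.full hc z1 (H.reflW p2) (notMem_span_symm z0 p3) p0 k3 k2 e') (H.sing _ _ h0)
      (H.sing _ _ hc) (by simp [H.pol, p1, H.eps_ne, he']))
    rw [T.finrank_eq]
    exact H.five.trans (Nat.le_mul_of_pos_left _ finrank_pos)
  refine H.stab_le hw h0 ?_ hs (H.ZS_scalar hw h0 z1 z2 z3 hs) g hg h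
  obtain ⟨y, y1, y2⟩ := H.exists_pair z3
  exact ⟨z, y, z2, H.reflW y2, y1⟩

end OC

theorem TF.unip_of_UL {f : BilinForm F V} {δ : F} (H : TF T fE fW f δ ε) [FiniteDimensional F E]
    {g : V ≃ₗ[F] V} (hg : Iso f g) (h : UL T fW w₀ g) : Unip g :=
  unip_of_three (L := T.LS (F ∙ w₀)) (L' := T.LS (W1 fW w₀))
    (fun y => mem_LS_W1.2 (by rw [map_sub, H.tpi_sub hg h.1, sub_self]))
    (fun y hy => Submodule.mem_comap.1 ((T.LS_le (L := (T.LS (F ∙ w₀)).comap
      ((g : V →ₗ[F] V) - LinearMap.id))).2 (fun e w hw => Submodule.mem_comap.2 (h.2 e w hw)) hy))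
    fun y hy => by obtain ⟨e, rfl⟩ := T.mem_LS_span.1 hy; exact h.1 e

theorem mem_OG_of_iso (h2 : (2 : F) ≠ 0) {g : V ≃ₗ[F] V} (h : Iso Q.polarBilin g) : g ∈ OG Q :=
  fun v => mul_left_cancel₀ h2 (by rw [← polar_self', ← polar_self']; exact h v v)

/-- In odd characteristic unipotent isometries lie in `Ω`. -/
theorem mem_commutator_of_unip [Finite F] [FiniteDimensional F V]
    (hQ : Q.polarBilin.Nondegenerate) (h2 : (2 : F) ≠ 0) {g : O Q} (h : Unip g.1) :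
    g ∈ commutator (O Q) := by
  have hp : Fact (ringChar F).Prime := ⟨CharP.char_is_prime F _⟩
  obtain ⟨k, hk⟩ := (unip_iff (ringChar F)).1 h
  obtain ⟨n, hn⟩ : Odd (ringChar F ^ k) := (hp.out.odd_of_ne_two fun e => h2 (by
    rw [← Nat.cast_ofNat, ← e]; exact ringChar.Nat.cast_ringChar)).pow
  have e : g = g ^ (n + 1) * g ^ (n + 1) := by
    rw [← pow_add, show n + 1 + (n + 1) = ringChar F ^ k + 1 by omega, pow_succ,
      show g ^ ringChar F ^ k = 1 from Subtype.ext hk, one_mul]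
  rw [e]
  exact H58.mul_self_mem_commutator hQ (fun h => h2 (two_eq_zero_of_forall h.1)) _

/-- The maximality criterion. -/
theorem isMaximalIn_ten (h1 : ∃ g ∈ commutator (O Q), g.1 ∉ T.grp)
    (h2 : ∀ M : Subgroup (V ≃ₗ[F] V), (∀ g ∈ commutator (O Q), g.1 ∈ T.grp → g.1 ∈ M) →
      (∀ g ∈ M, ∃ h : g ∈ OG Q, ⟨g, h⟩ ∈ commutator (O Q)) →
      ¬ commutator (O Q) ≤ M.subgroupOf (OG Q) → M ≤ T.grp) :
    Cfsg.Geo.IsMaximalIn (commutator (O Q)) (T.grp.subgroupOf (OG Q) ⊓ commutator (O Q)) := by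
  refine isMaximalIn_of h1 fun M k1 k2 g k3 k4 => by_contra fun hc => k4 ?_
  refine h2 (M.map (OG Q).subtype) (fun g a b => ⟨g, k1 ⟨b, a⟩, rfl⟩) ?_ ?_ ⟨g, k3, rfl⟩
  · rintro _ ⟨g, hg, rfl⟩
    exact ⟨g.2, k2 hg⟩
  · rwa [Subgroup.subgroupOf, Subgroup.comap_map_eq_self_of_injective (OG Q).subtype_injective]

/-- A Siegel transformation outside the tensor product group. -/
theorem TF.exists_notMem_grp [FiniteDimensional F E] [FiniteDimensional F W] {δ : F}
    (H : TF T fE fW Q.polarBilin δ ε) (hs : ∀ e w, fW w w = 0 → Q (T.t e w) = 0)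
    (ha : 2 ≤ finrank F E) (hb : 3 ≤ finrank F W) {w z : W} (hw : w ≠ 0) (h0 : fW w w = 0)
    (hzw : fW z w = 0) (hz : fW z z = 0) (hi : z ∉ F ∙ w) :
    ∃ g ∈ commutator (O Q), g.1 ∉ T.grp := by
  have := T.finite
  have : Nontrivial E := Module.nontrivial_of_finrank_pos (R := F) (by omega)
  obtain ⟨e, he⟩ := exists_ne (0 : E)
  obtain ⟨e', -, he'⟩ := exists_mem_notMem (W := ⊤) (Z := F ∙ e) (by
    rw [finrank_span_singleton he, finrank_top]; omega)
  obtain ⟨e₁, h1⟩ := H.swap.exists_one he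
  obtain ⟨x, x1, x2⟩ := H.exists_pair hi
  have k0 : polar Q (T.t e w) (T.t e z) = 0 := by simp [H.pol, hzw]
  have k := eich_apply (hs e w h0) k0
  refine ⟨eich Q (T.t e w) (T.t e z), eich_mem_commutator H.nd (fun h => ?_) _ _, fun h => ?_⟩
  · have := h.2.1
    have := Nat.mul_le_mul ha hb
    rw [← T.finrank_eq] at this
    omega
  have k1 : mv (eich Q (T.t e w) (T.t e z)).1 ≤ Submodule.span F {T.t e w, T.t e z} :=
    mv_le.2 fun y => Submodule.mem_span_pair.2 ⟨polar Q (T.t e z) y, -polar Q (T.t e w) y, by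
      simp [k, hs e z hz]; abel⟩
  obtain ⟨B, hB⟩ := T.exists_eq_rt_of_finrank h (by
    have := (Submodule.finrank_mono k1).trans (finrank_span_pair_le _ _); omega)
  have k2 := sub_mem_mv (eich Q (T.t e w) (T.t e z)).1 (T.t e₁ (ε • x))
  rw [O.coe_apply, k, hB, mv_rt] at k2
  have k3 : w ∈ mv B := (T.t_mem_LS_iff he).1 (by
    simpa [H.pol, h1, H.reflW x2, H.symW z x, x1, H.sqW] using k2)
  have k4 := k1 (by rw [hB, mv_rt]; exact T.t_mem_LS e' k3)
  refine he' ((T.swap.t_mem_LS_iff hw).1 (Submodule.span_le.2 ?_ k4))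
  rintro _ (rfl | rfl) <;> exact T.swap.t_mem_LS _ (Submodule.mem_span_singleton_self e)

section mat

open Cfsg.Geo Matrix

variable {ι : Type} [Fintype ι] [DecidableEq ι] {n₁ n₂ : ℕ} {Q : QuadraticForm F (ι → F)}
  (e : ι ≃ Fin n₁ × Fin n₂) (P : GL ι F)

theorem bilin_eq_sum {κ : Type} [Fintype κ] [DecidableEq κ] {f : (κ → F) → (κ → F) → F}
    (h : IsBilinearForm f) (x y : κ → F) : f x y = ∑ a, ∑ b, x a * gramMatrix f a b * y b := by
  conv_lhs => rw [← bilinOf_apply h, ← (Pi.basisFun F κ).sum_repr x, ← (Pi.basisFun F κ).sum_repr y]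
  rw [Finset.sum_comm]
  simp [gramMatrix, Finset.mul_sum, mul_comm, mul_left_comm]

theorem tens_of_structure {f : BilinForm F (ι → F)} {f₁ : (Fin n₁ → F) → (Fin n₁ → F) → F}
    {f₂ : (Fin n₂ → F) → (Fin n₂ → F) → F} (h₁ : IsBilinearForm f₁) (h₂ : IsBilinearForm f₂)
    (hT : IsTensorFormStructure id (fun x y => f x y) f₁ f₂ e P) : ∃ c : F, c ≠ 0 ∧ ∀ x y x' y',
      f ((matTen e P).t x y) ((matTen e P).t x' y') = (c • bilinOf h₁) x x' * bilinOf h₂ y y' := by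
  obtain ⟨c, hc, h⟩ := hT
  refine ⟨c, hc, fun x y x' y' => ?_⟩
  rw [matTen_t, matTen_t]
  refine (h _ _).trans ?_
  rw [LinearMap.smul_apply, LinearMap.smul_apply, bilinOf_apply, bilinOf_apply, smul_eq_mul,
    bilin_eq_sum h₁ x, bilin_eq_sum h₂ y, mul_assoc, Finset.sum_mul_sum, formOfGram,
    Fintype.sum_prod_type]
  congr 1
  refine Finset.sum_congr rfl fun a _ => Finset.sum_congr rfl fun b _ => ?_
  rw [Finset.sum_mul_sum, Fintype.sum_prod_type]
  exact Finset.sum_congr rfl fun a _ => Finset.sum_congr rfl fun b _ => by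
    simp only [id, kroneckerMap_apply]; ring

theorem isMaximalIn_matTen (h : IsMaximalIn (commutator (O Q))
    ((matTen e P).grp.subgroupOf (OG Q) ⊓ commutator (O Q))) :
    IsMaximalIn (omegaGL ⇑Q) (tensorProductSubgroup n₁ n₂ e P ⊓ omegaGL ⇑Q) := by
  refine isMaximalIn_GL ?_
  convert h using 2
  ext g
  rw [Subgroup.mem_comap, mem_tensorProductSubgroup_iff, Subgroup.mem_subgroupOf,
    show toLE (toGL Q g) = g.1 from LinearEquiv.ext fun v => toGL_mulVec g v]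

end mat

end H91
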