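/- Maximality of `O(E) ⊗ O(W)` in `Ω(E ⊗ W)`. -/
import Cfsg.Agent.H91.TenOm
import Cfsg.Agent.H91.TenNz

set_option autoImplicit false

namespace H91

open Module H56 H56.Ten H62 H60 QuadraticMap
open LinearMap (BilinForm)

variable {F E W V : Type*} [Field F] [AddCommGroup E] [Module F E] [AddCommGroup W] [Module F W]
  [AddCommGroup V] [Module F V] {T : Ten F E W V} {QE : QuadraticForm F E}
  {QW : QuadraticForm F W} {Q : QuadraticForm F V} {M : Subgroup (V ≃ₗ[F] V)}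

theorem unip_eich (u v : W) : Unip (eich QW u v).1 := by
  by_cases h : QW u = 0 ∧ polar QW u v = 0
  swap; · rw [eich_of_not h]; exact ⟨1, by rw [pow_one]; exact sub_self _⟩
  refine unip_of_three (L := F ∙ u) (L' := ort QW u) (fun y => ?_) (fun y hy => ?_) fun y hy => ?_
  · simp [eich_apply h.1 h.2, pself h.1, h.2]
  · exact Submodule.mem_span_singleton.2 ⟨polar QW v y, by simp [eich_apply_of_orth h.1 h.2 hy]⟩
  · obtain ⟨c, rfl⟩ := Submodule.mem_span_singleton.1 hy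
    simp [eich_apply_self h.1 h.2]

theorem Unip.rt [Finite F] {B : W ≃ₗ[F] W} (h : Unip B) : Unip (T.rt B) := by
  have hp : Fact (ringChar F).Prime := ⟨CharP.char_is_prime F _⟩
  obtain ⟨k, hk⟩ := (unip_iff (ringChar F)).1 h
  exact (unip_iff (ringChar F)).2 ⟨k, by rw [← map_pow, hk, map_one]⟩

theorem mv_eich_le {u v : W} (hu : QW u = 0) (h : polar QW u v = 0) :
    mv (eich QW u v).1 ≤ Submodule.span F {u, v} := mv_le.2 fun y => Submodule.mem_span_pair.2
  ⟨polar QW v y - QW v * polar QW u y, -polar QW u y, by simp only [O.coe_apply, eich_apply hu h]; module⟩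

/-- An overgroup of `O(E) ⊗ O(W)` inside `Ω(Q)`. -/
structure OO (T : Ten F E W V) (QE : QuadraticForm F E) (QW : QuadraticForm F W)
    (Q : QuadraticForm F V) (M : Subgroup (V ≃ₗ[F] V)) : Prop
    extends TF T QE.polarBilin QW.polarBilin Q.polarBilin 1 1 where
  two : (2 : F) ≠ 0
  ge : ∀ g ∈ commutator (O Q), g.1 ∈ T.grp → g.1 ∈ M
  le : ∀ g ∈ M, ∃ h : g ∈ OG Q, ⟨g, h⟩ ∈ commutator (O Q)

namespace OO

variable (H : OO T QE QW Q M)
include H

theorem swap' : OO T.swap QW QE Q M := ⟨H.swap, H.two, by simpa using H.ge, H.le⟩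

theorem isom {g : V ≃ₗ[F] V} (hg : g ∈ M) : Iso Q.polarBilin g := iso_of_OG (H.le g hg).1

theorem sing_iff {w : W} : QW.polarBilin w w = 0 ↔ QW w = 0 := by
  simp [H.two]

theorem sing (e : E) {w : W} (h : QW w = 0) : Q (T.t e w) = 0 := mul_left_cancel₀ H.two (by
  rw [← polar_self', H.pol]; simp [h])

variable [Fintype F] [FiniteDimensional F E] [FiniteDimensional F W]

theorem eich_mem (u v : W) : T.rt (eich QW u v).1 ∈ M :=
  have := T.finite
  H.ge ⟨_, mem_OG_of_iso H.two (H.iso_rt (iso_of_OG (eich QW u v).2))⟩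
    (mem_commutator_of_unip H.nd H.two (unip_eich u v).rt) (T.rt_mem _)

theorem EG_mem {s : O QW} (hs : s ∈ EG QW) : T.rt s.1 ∈ M :=
  EG_le (M := (M.comap T.rt).subgroupOf (OG QW)) (fun u v _ _ _ => H.eich_mem u v) hs

theorem mc : MC T QE.polarBilin QW.polarBilin Q.polarBilin 1 1 M := by
  have := T.finite
  refine ⟨H.toTF, fun m => H.isom, fun u => ⟨QW u, by simp; ring⟩, fun w u h1 h2 =>
    ⟨_, H.eich_mem w u, QW u, fun x => ?_⟩, fun w _ _ k k1 k2 g k3 k4 => ?_⟩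
  · simp [eich_apply (H.sing_iff.1 h1) (pc h2), polar_comm QW x]
  obtain ⟨g1, g2⟩ := H.le g k3
  have k5 := mem_OG_of_iso H.two k2
  have k6 := mem_commutator_of_unip (g := (⟨k, k5⟩ : O Q)⁻¹ * ⟨g, g1⟩) H.nd H.two
    (H.unip_of_UL (k2.inv.mul (iso_of_OG g1)) k4)
  exact H.ge ⟨k, k5⟩ (by simpa using mul_mem g2 (inv_mem k6)) k1

theorem oc (G : GoodO QE) (hb : 5 ≤ finrank F W)
    (nt : ¬ commutator (O Q) ≤ M.subgroupOf (OG Q)) : OC T QE.polarBilin QW.polarBilin Q 1 M := by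
  refine ⟨H.mc, fun m hm => (H.le m hm).1, fun e w h => H.sing e (H.sing_iff.1 h), hb,
    fun w hw h => ?_, fun 𝔄 h α h1 h2 =>
      G.eq_top (fun u v => h _ (T.swap_tm _ 1 ▸ H.swap'.eich_mem u v)) h1 h2, nt⟩
  obtain ⟨z, z1, z2, z3⟩ := exists_sing_not_mem_of_finrank (Q := QW) (⊤ ⊓ ort QW w) (F ∙ w) (by
    have := finrank_le_inf_ort (Q := QW) ⊤ w
    rw [finrank_top] at this
    rw [finrank_span_singleton hw]; omega)
  exact ⟨z, H.sing_iff.2 z2, pc z1.2, z3⟩

variable (h3 : 3 ≤ finrank F E) (hab : finrank F E < finrank F W)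
  (H1 : ∀ w, w ≠ 0 → QW w = 0 → ∀ g ∈ M, (∀ v ∈ T.LS (F ∙ w), g v ∈ T.LS (F ∙ w)) → g ∈ T.grp)
include h3 hab

theorem exists_rt {u v : W} (hu : QW u = 0) (h : polar QW u v = 0) {g : V ≃ₗ[F] V} (hg : g ∈ M)
    (h1 : g * T.rt (eich QW u v).1 * g⁻¹ ∈ T.grp) : ∃ B, g * T.rt (eich QW u v).1 * g⁻¹ = T.rt B :=
  H.exists_eq_rt_of_unip H.two h3 h1 ((unip_eich u v).rt.conj g)
    (H.isom (mul_mem (mul_mem hg (H.eich_mem u v)) (inv_mem hg))) (by
      rw [finrank_mv_conj, mv_rt, finrank_LS]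
      have := Nat.mul_le_mul_left (finrank F E)
        ((Submodule.finrank_mono (mv_eich_le hu h)).trans (finrank_span_pair_le _ _))
      omega)

omit h3 hab [Fintype F] [FiniteDimensional F W] in
theorem ts_of_le [Nontrivial E] {g : V ≃ₗ[F] V} (hg : g ∈ M) {J J' : Submodule F W}
    (hJ : ∀ x ∈ J, QW x = 0) (h : T.LS J' ≤ (T.LS J).map (g : V →ₗ[F] V)) :
    ∀ x ∈ J', QW x = 0 := fun x hx => by
  obtain ⟨e, he⟩ := exists_ne (0 : E)
  obtain ⟨e', he'⟩ := exists_form_ne_zero H.ndE he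
  obtain ⟨y, y1, y2⟩ := h (T.t_mem_LS e hx)
  obtain ⟨y', y3, y4⟩ := h (T.t_mem_LS e' hx)
  have k := H.isom hg y' y
  rw [show g y = _ from y2, show g y' = _ from y4, H.tens,
    show Q.polarBilin y' y = 0 from T.LS_induction (p := fun y => Q.polarBilin y' y = 0) y1 (by simp)
      (fun a w hw => by
        rw [H.f_t, T.eqOn_LS (g := 0) (fun b w' hw' => by
          simp [polar_eq_zero_of_ts hJ w' hw' w hw]) y3]
        simp) fun a b ha hb => by rw [map_add, ha, hb, add_zero]] at k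
  exact H.sing_iff.1 ((mul_eq_zero.1 k).resolve_left he')

include H1

/-- The cubic Eichler transformations are rigid. -/
theorem rigid3 {w u : W} (hw : w ≠ 0) (h0 : QW w = 0) (h : polar QW w u = 0) (hu : QW u ≠ 0) :
    Rigid M T.grp (T.rt (eich QW w u).1) := by
  have := T.finite
  have : Nontrivial E := Module.nontrivial_of_finrank_pos (R := F) (by omega)
  refine ⟨H.eich_mem w u, fun g hg h1 => ?_⟩
  obtain ⟨B, hB⟩ := H.exists_rt h3 hab h0 h hg h1
  set X := T.rt (eich QW w u).1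
  have k1 : ∀ y, X (X y) - 2 • X y + y = (-2 * QW u) • T.t (tpi T QW.polarBilin w y) w := fun y =>
    T.induction y (by simp) (fun e x => by
      simp only [X, rt_t, O.coe_apply, eich_apply h0 h x, map_add, map_sub, map_smul,
        eich_apply_self h0 h, eich_apply_of_orth h0 h h, polar_self', tpi_t,
        polarBilin_apply_apply, polar_comm QW x, LinearMap.smul_apply]
      module) fun x y hx hy => by
      simp only [map_add, LinearMap.add_apply, smul_add, ← hx, ← hy]; abel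
  have k2 : ∀ y, T.rt B (g y) = g (X y) := fun y => by simp [← hB]
  let N : W →ₗ[F] W := (B : W →ₗ[F] W) ∘ₗ B - 2 • (B : W →ₗ[F] W) + LinearMap.id
  have k3 : (T.LS (F ∙ w)).map (g : V →ₗ[F] V) = T.LS (LinearMap.range N) := by
    refine le_antisymm ?_ (T.LS_le.2 ?_)
    · rintro _ ⟨v, hv, rfl⟩
      obtain ⟨e, rfl⟩ := T.mem_LS_span.1 hv
      obtain ⟨p, hp⟩ := H.exists_one hw
      rw [← Submodule.smul_mem_iff _ (s := -2 * QW u) (by simp [H.two, hu])]
      refine T.mem_LS.2 fun l => ⟨T.cL l (g (T.t e p)), ?_⟩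
      have := congrArg (T.cL l ∘ g) (k1 (T.t e p))
      simp only [Function.comp, map_add, map_sub, map_nsmul, ← k2, cL_rt, tpi_t, hp, one_smul,
        map_smul] at this
      simpa [N] using this
    · rintro e _ ⟨x, rfl⟩
      obtain ⟨y, hy⟩ := g.surjective (T.t e x)
      refine ⟨_, k1 y ▸ Submodule.smul_mem _ _ (T.t_mem_LS _ (Submodule.mem_span_singleton_self w)), ?_⟩
      simp [← k2, hy, N]
  have k4 := congrArg (fun L : Submodule F V => finrank F L) k3
  simp only [LinearEquiv.finrank_map_eq, T.finrank_LS_span hw] at k4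
  rw [finrank_LS, eq_comm, Nat.mul_eq_left (by omega)] at k4
  obtain ⟨⟨w', a1⟩, a2, a3⟩ := finrank_eq_one_iff'.1 k4
  obtain ⟨s, s1, c, -, s2⟩ := exists_EG_apply_eq_smul H.ndW (by omega) (by simpa using a2)
    (H.ts_of_le hg (J := F ∙ w) (fun x hx => by
      obtain ⟨c, rfl⟩ := Submodule.mem_span_singleton.1 hx
      simp [Q_smul, h0]) k3.ge w' a1) hw h0
  refine (mul_mem_cancel_left (T.rt_mem s.1)).1 (H1 w hw h0 _ (mul_mem (H.EG_mem s1) hg)
    fun v hv => T.rt_mem_LS.2 (T.LS_mono (fun x hx => ?_) (k3.le (Submodule.mem_map_of_mem hv))))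
  obtain ⟨d, hd⟩ := a3 ⟨x, hx⟩
  exact Submodule.mem_span_singleton.2 ⟨d * c, by
    simp [← show d • w' = x from congrArg Subtype.val hd, s2, smul_smul]⟩

omit H h3 hab H1 [Fintype F] [FiniteDimensional F W] in
theorem _root_.H91.rt_eich_fix {w u : W} {J : Submodule F W}
    (h : ∀ x ∈ J, polar QW w x = 0 ∧ polar QW u x = 0) {y : V} (hy : y ∈ T.LS J) :
    T.rt (eich QW w u).1 y = y :=
  T.eqOn_LS (f := (T.rt (eich QW w u).1 : V →ₗ[F] V)) (g := LinearMap.id)
    (fun e x hx => by simp [eich_apply_of_orth_orth (h x hx).1 (h x hx).2]) hy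

theorem mem_of_map (hb : 5 ≤ finrank F W) {g : V ≃ₗ[F] V} (hg : g ∈ M) {w : W} (hw : w ≠ 0)
    (h0 : QW w = 0) {J : Submodule F W} (hJ : ∀ x ∈ J, QW x = 0) (h2 : finrank F J ≤ 2)
    (h : ∀ e, g (T.t e w) ∈ T.LS J) : g ∈ T.grp := by
  have : Nontrivial E := Module.nontrivial_of_finrank_pos (R := F) (by omega)
  obtain ⟨w', w1, w2⟩ := Submodule.exists_mem_ne_zero_of_ne_bot (p := J) (by
    rintro rfl
    obtain ⟨e, he⟩ := exists_ne (0 : E)
    simpa [t_eq_zero, he, hw] using h e)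
  obtain ⟨u, u1, u2⟩ := (nondeg_top H.ndW).exists_Q_ne_of_lt H.ndW (W := perp QW J) le_top (by
    have := finrank_perp H.ndW J
    rw [finrank_top]; omega)
  refine (inv_mem_iff).1 ((H.rigid3 h3 hab H1 w2 (hJ _ w1) (u1 _ w1) u2).2 _ (inv_mem hg)
    (H1 w hw h0 _ (mul_mem (mul_mem (inv_mem hg) (H.eich_mem _ _)) (inv_mem (inv_mem hg)))
      fun v hv => ?_))
  obtain ⟨e, rfl⟩ := T.mem_LS_span.1 hv
  simpa [rt_eich_fix (fun x hx => ⟨polar_eq_zero_of_ts hJ _ w1 x hx, pc (u1 x hx)⟩) (h e)] using hv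

theorem le_grp (hb : 5 ≤ finrank F W) {w z : W} (hw : w ≠ 0) (h0 : QW w = 0) (hz : QW z = 0)
    (hwz : polar QW w z = 0) (hi : z ∉ F ∙ w) : M ≤ T.grp := by
  have := T.finite
  have : Nontrivial E := Module.nontrivial_of_finrank_pos (R := F) (by omega)
  by_contra hne
  set J : Submodule F W := Submodule.span F {w, z}
  have wJ : w ∈ J := Submodule.subset_span (by simp)
  have zJ : z ∈ J := Submodule.subset_span (by simp)
  have hJ : ∀ x ∈ J, QW x = 0 := fun x hx => by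
    obtain ⟨a, b, rfl⟩ := Submodule.mem_span_pair.1 hx
    simp [Q_add, Q_smul, h0, hz, hwz]
  have J2 : finrank F J = 2 := by
    rw [show J = (F ∙ w) ⊔ F ∙ z from Submodule.span_insert _ _,
      Submodule.finrank_sup_span_singleton hi, finrank_span_singleton hw]
  have pJ := polar_eq_zero_of_ts hJ
  have LJ : T.LS J ≤ T.LS (perp QW J) := T.LS_mono fun x hx y hy => pJ y hy x hx
  have mx : ∀ c : F, c ≠ 0 → mv (T.rt (eich QW w (c • z)).1) = T.LS J := fun c hc => by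
    have k := eich_apply (v := c • z) h0 (by simp [hwz])
    rw [mv_rt]
    refine congrArg _ (le_antisymm ((mv_eich_le h0 (by simp [hwz])).trans (Submodule.span_le.2 ?_))
      (Submodule.span_le.2 ?_))
    · rintro _ (rfl | rfl)
      exacts [wJ, J.smul_mem c zJ]
    obtain ⟨x, x1, x2⟩ := H.exists_pair hi
    obtain ⟨y, y1, y2⟩ := H.exists_pair (notMem_span_symm hw hi)
    rw [polarBilin_apply_apply] at x1 x2 y1 y2
    rintro _ (rfl | rfl)
    · exact mem_mv.2 ⟨c⁻¹ • x, by simp [k, x1, x2, hc]⟩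
    · exact mem_mv.2 ⟨-c⁻¹ • y, by simp [k, y1, y2, hc, Q_smul, hz]⟩
  have fx : ∀ c : F, ∀ v ∈ T.LS (perp QW J), T.rt (eich QW w (c • z)).1 v = v := fun c v =>
    rt_eich_fix (J := perp QW J) fun x hx => ⟨hx w wJ, hx _ (J.smul_mem c zJ)⟩
  have L1 : ∀ g ∈ M, (∀ v ∈ T.LS J, g v ∈ T.LS J) → g ∈ T.grp := fun g hg h =>
    H.mem_of_map h3 hab H1 hb hg hw h0 hJ J2.le fun e => h _ (T.t_mem_LS e wJ)
  obtain ⟨k, c⟩ := exists_crit (T.LS J) hne
  have k1 : ∀ y, k y ∈ T.LS J → y ∈ T.LS (perp QW J) → y ∈ T.LS J := fun y y1 y2 =>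
    c.mem_of (h := T.rt (eich QW w ((1 : F) • z)).1) ⟨H.eich_mem _ _, fun g hg h1 => by
      obtain ⟨B, hB⟩ := H.exists_rt h3 hab h0 (by simp [hwz]) hg h1
      have h2 := congrArg mv hB
      rw [mv_conj, mx 1 one_ne_zero, mv_rt] at h2
      have h4 := congrArg (fun L : Submodule F V => finrank F L) h2
      simp only [LinearEquiv.finrank_map_eq, finrank_LS, J2] at h4
      exact H.mem_of_map h3 hab H1 hb hg hw h0 (H.ts_of_le hg hJ h2.ge)
        (Nat.eq_of_mul_eq_mul_left (by omega) h4).ge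
        fun e => h2.le (Submodule.mem_map_of_mem (T.t_mem_LS e wJ))⟩
      (fun v hv hv' => by rwa [fx _ v (LJ hv)]) y1 (by rwa [fx _ y y2])
  have pp : ∀ y, y ∈ T.LS (perp QW J) ↔ ∀ v ∈ T.LS J, Q.polarBilin y v = 0 := fun y =>
    ⟨fun hy v hv => T.LS_induction (p := fun v => Q.polarBilin y v = 0) hv (by simp)
      (fun a x hx => by
        rw [H.f_t, T.eqOn_LS (g := 0) (fun b x' hx' => by simp [pc (hx' x hx)]) hy]
        simp) fun a b ha hb => by rw [map_add, ha, hb, add_zero],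
    fun h => H.mem_LS_of_tpi fun u hu => H.tpi_eq_zero fun e => h _ (T.t_mem_LS e
      ((perp_perp H.ndW J).le hu))⟩
  have k2 : ∀ y ∈ T.LS J ⊔ (T.LS J).comap (k : V →ₗ[F] V), y ∈ T.LS (perp QW J) → y ∈ T.LS J :=
    fun y y1 y2 => by
      obtain ⟨l, hl, l', hl', rfl⟩ := Submodule.mem_sup.1 y1
      exact add_mem hl (k1 l' hl' ((add_mem_cancel_left (LJ hl)).1 y2))
  refine c.false_of_quad L1 (fun i : Bool => T.rt (eich QW w ((if i then 1 else -1 : F) • z)).1)
    (fun i => H.eich_mem _ _) (fun i => mx _ (by cases i <;> simp))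
    (fun i v hv => fx _ v (LJ hv)) (fun _ => 2⁻¹) (fun v => ?_) fun m m1 m2 m3 m4 => ?_
  · refine T.induction v (by simp) (fun e x => ?_) fun x y hx hy => by
      simp only [map_add, smul_add, Finset.sum_add_distrib, hx, hy]
    have := H.two
    simp [eich_apply h0 hwz, eich_apply (v := -z) h0 (by simp [hwz]), hz]
    match_scalars <;> field_simp <;> ring
  have mI := H.isom m1
  suffices mv m ≤ T.LS J from ⟨this, fun v hv => sub_eq_zero.1 (H.nd.1 _ fun y => by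
    obtain ⟨y, rfl⟩ := m.surjective y
    have := (pp v).1 (LJ hv) _ (this (sub_mem_mv m y))
    simp only [map_sub, LinearMap.sub_apply, mI v y] at this ⊢
    linear_combination -this)⟩
  obtain ⟨r, r1, r2⟩ := (nondeg_top H.ndW).exists_Q_ne_of_lt H.ndW (W := perp QW J) le_top (by
    have := finrank_perp H.ndW J
    rw [finrank_top]; omega)
  obtain ⟨B, rfl⟩ := T.exists_eq_rt_of_sub_mem m2 (J := J) (w := r) (fun h => r2 (hJ r h)) fun e =>
    k2 _ (m4 (sub_mem_mv m _)) (sub_mem ((pp _).2 fun v hv => by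
      rw [← m.apply_symm_apply v, mI]
      exact (pp _).1 (T.t_mem_LS e r1) _ (inv_mem_of_le m3 v hv)) (T.t_mem_LS e r1))
  rw [mv_rt] at m4 ⊢
  refine T.LS_mono fun v hv => by_contra fun hv' => ?_
  obtain ⟨e, he⟩ := exists_ne (0 : E)
  obtain ⟨j, j1, j2⟩ : ∃ j ∈ J, polar QW j v ≠ 0 := by
    by_contra hc
    push Not at hc
    exact hv' ((T.t_mem_LS_iff he).1 (k2 _ (m4 (T.t_mem_LS e hv)) (T.t_mem_LS e hc)))
  obtain ⟨w₁, ⟨a1, a2⟩, a3⟩ := Submodule.exists_mem_ne_zero_of_ne_bot (p := J ⊓ ort QW v) fun h => by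
    have := finrank_le_inf_ort (Q := QW) J v
    rw [h, finrank_bot] at this; omega
  set u := r - (polar QW r v / polar QW j v) • j
  have u1 : u ∈ perp QW J := sub_mem r1 (Submodule.smul_mem _ _ fun x hx => pJ x hx j j1)
  have hI : T.LS (J ⊔ F ∙ v) ≤ T.LS J ⊔ (T.LS J).comap (k : V →ₗ[F] V) := by
    rw [LS_sup]
    exact sup_le le_sup_left ((T.LS_mono (by simpa using hv)).trans m4)
  have b1 := c.le (H.rigid3 h3 hab H1 a3 (hJ _ a1) (u1 _ a1)
      (by simpa [u, Q_sub, Q_smul, hJ j j1, pc (r1 j j1)] using r2))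
    (X := (T.LS J).comap (k : V →ₗ[F] V) ⊓ T.LS (J ⊔ F ∙ v)) (fun x hx => hx.1) fun x hx => by
      rw [rt_eich_fix (fun y hy => ?_) hx.2]
      · exact hx.1
      obtain ⟨a, ha, b, hb, rfl⟩ := Submodule.mem_sup.1 hy
      obtain ⟨d, rfl⟩ := Submodule.mem_span_singleton.1 hb
      have : polar QW u v = 0 := by simp [u, j2]
      simp [pJ _ a1 a ha, pc (mem_ort.1 a2), pc (u1 a ha), this]
  have b2 := Submodule.finrank_sup_add_finrank_inf_eq ((T.LS J).comap (k : V →ₗ[F] V))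
    (T.LS (J ⊔ F ∙ v))
  have b3 := Submodule.finrank_mono (sup_le le_sup_right hI)
  have b4 := Crit.finrank_sup_add (T.LS J) k
  rw [finrank_comap_equiv, finrank_LS, finrank_LS, Submodule.finrank_sup_span_singleton hv',
    J2] at b2
  rw [finrank_LS, J2] at b4
  omega

end OO

/-- **Maximality of `O(E) ⊗ O(W)` in `Ω(E ⊗ W)`.** -/
theorem TF.maximal_oo [Fintype F] [FiniteDimensional F E] [FiniteDimensional F W]
    (H : TF T QE.polarBilin QW.polarBilin Q.polarBilin 1 1) (G : GoodO QE)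
    (hab : finrank F E < finrank F W) (hb : 5 ≤ finrank F W) :
    Cfsg.Geo.IsMaximalIn (commutator (O Q)) (T.grp.subgroupOf (OG Q) ⊓ commutator (O Q)) := by
  have h3 := G.three
  have : Nontrivial E := Module.nontrivial_of_finrank_pos (R := F) (by omega)
  obtain ⟨w, -, w1, w2⟩ := exists_sing (Q := QW) ⊤ (by rw [finrank_top]; omega)
  obtain ⟨z, z1, z2, z3⟩ := exists_sing_not_mem_of_finrank (Q := QW) (⊤ ⊓ ort QW w) (F ∙ w) (by
    have := finrank_le_inf_ort (Q := QW) ⊤ w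
    rw [finrank_top] at this
    rw [finrank_span_singleton w1]; omega)
  refine isMaximalIn_ten (H.exists_notMem_grp (fun e w h => mul_left_cancel₀ G.two (by
    rw [← polar_self', H.pol, tpi_t, h]; simp)) (by omega) (by omega) w1 (pself w2) (pc z1.2)
    (pself z2) z3) fun M hM hM' nt => ?_
  have K : OO T QE QW Q M := ⟨H, G.two, hM, hM'⟩
  exact K.le_grp h3 hab (fun w hw h => (K.oc G hb nt).stab hw (pself h)) hb w1 w2 z2 z1.2 z3

theorem exists_quad (h2 : (2 : F) ≠ 0) {f : BilinForm F E} (hs : ∀ x y, f y x = f x y) :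
    ∃ q : QuadraticForm F E, q.polarBilin = f :=
  ⟨LinearMap.BilinMap.toQuadraticMap ((2 : F)⁻¹ • f), LinearMap.ext₂ fun x y => by
    rw [polarBilin_apply_apply, LinearMap.BilinMap.polar_toQuadraticMap]
    simp [hs x y]; field_simp; ring⟩

open Cfsg.Geo Matrix in
theorem exists_TF_oo {ι : Type} [Fintype ι] [DecidableEq ι] {n₁ n₂ : ℕ}
    {Q : QuadraticForm F (ι → F)} (hQ : Q.polarBilin.Nondegenerate) (h2 : (2 : F) ≠ 0)
    (e : ι ≃ Fin n₁ × Fin n₂) (P : GL ι F) {f₁ : (Fin n₁ → F) → (Fin n₁ → F) → F}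
    {f₂ : (Fin n₂ → F) → (Fin n₂ → F) → F} (h₁ : IsSymmetricForm f₁) (h₂ : IsSymmetricForm f₂)
    (hT : IsTensorFormStructure id (polar Q) f₁ f₂ e P) :
    ∃ (q₁ : QuadraticForm F (Fin n₁ → F)) (q₂ : QuadraticForm F (Fin n₂ → F)),
      TF (matTen e P) q₁.polarBilin q₂.polarBilin Q.polarBilin 1 1 ∧ ∀ v, f₂ v v = 2 * q₂ v := by
  obtain ⟨c, hc, h⟩ := tens_of_structure e P (f := Q.polarBilin) h₁.bilinear h₂.bilinear hT
  have n1 := bilinOf_nondegenerate h₁.bilinear h₁.nondegenerate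
  obtain ⟨q₁, k1⟩ := exists_quad h2 (f := c • bilinOf h₁.bilinear) fun x y => by simp [h₁.symm x y]
  obtain ⟨q₂, k2⟩ := exists_quad h2 (f := bilinOf h₂.bilinear) fun x y => h₂.symm y x
  refine ⟨q₁, q₂, ?_, fun v => by
    rw [← polar_self', ← polarBilin_apply_apply, k2, bilinOf_apply]⟩
  rw [k1, k2]
  exact ⟨⟨fun x hx => n1.1 x (by simpa [hc] using hx), fun x hx => n1.2 x (by simpa [hc] using hx)⟩,
    bilinOf_nondegenerate _ h₂.nondegenerate, hQ, fun x y => by simp [h₁.symm y x],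
    fun x y => by simp [h₂.symm y x], by simp, by simp, h⟩

open Cfsg.Geo Matrix in
theorem maximal_oTensor_GL [Fintype F] {ι : Type} [Fintype ι] [DecidableEq ι] {n₁ n₂ : ℕ}
    {Q : QuadraticForm F (ι → F)} (hQ : Q.polarBilin.Nondegenerate) (h2 : (2 : F) ≠ 0)
    (hn : 13 ≤ Fintype.card ι) (h1 : 3 ≤ n₁) (ho : Odd n₁) (hex : ¬ (Fintype.card F = 3 ∧ n₁ = 3))
    (e : ι ≃ Fin n₁ × Fin n₂) (P : GL ι F) {f₁ : (Fin n₁ → F) → (Fin n₁ → F) → F}
    {f₂ : (Fin n₂ → F) → (Fin n₂ → F) → F} (h₁ : IsSymmetricForm f₁) (h₂ : IsSymmetricForm f₂)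
    (h12 : n₁ < n₂ ∨ (4 ≤ n₂ ∧ n₂ < n₁ ∧ ¬ IsPlusTypeOn (fun v => f₂ v v) ⊤))
    (hT : IsTensorFormStructure id (polar Q) f₁ f₂ e P) :
    IsMaximalIn (omegaGL ⇑Q) (tensorProductSubgroup n₁ n₂ e P ⊓ omegaGL ⇑Q) := by
  obtain ⟨q₁, q₂, H, hq⟩ := exists_TF_oo hQ h2 e P h₁ h₂ hT
  have h3 := Fintype.card_congr e
  simp only [Fintype.card_fin, Fintype.card_prod] at h3
  obtain ⟨k, hk⟩ := ho
  refine isMaximalIn_matTen e P ?_
  rcases h12 with h | ⟨h4, h, hm⟩
  · refine H.maximal_oo ⟨H.ndE, h2, by simpa, by simpa [and_comm] using hex, by simp; omega⟩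
      (by simpa) ?_
    rw [finrank_fintype_fun_eq_card, Fintype.card_fin]
    by_contra hc
    obtain rfl : n₂ = 4 := by omega
    omega
  · rw [← swap_grp]
    refine H.swap.maximal_oo ⟨H.ndW, h2, by simp; omega, by simp; omega, fun h5 U hU => ?_⟩
      (by simpa) (by simp; omega)
    by_contra hc
    have := (nondeg_top H.ndW).two_mul_finrank_le H.ndW (W := U) le_top (polar_eq_zero_of_ts hU)
    exact hm ⟨U, le_top, fun u hu => by simp [hq, hU u hu], by rw [finrank_top] at *; omega⟩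

end H91
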