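/- Overgroups of `O(E) ⊗ O(W)` with `dim E = 3` and `W` of Witt index one: the stabiliser of
`E ⊗ w₀`. -/
import Cfsg.Agent.H91.TenOO

set_option autoImplicit false

namespace H91

open Module H56 H56.Ten H62 H60 QuadraticMap
open LinearMap (BilinForm)

variable {F E W V : Type*} [Field F] [AddCommGroup E] [Module F E] [AddCommGroup W] [Module F W]
  [AddCommGroup V] [Module F V] {T : Ten F E W V} {QE : QuadraticForm F E}
  {QW : QuadraticForm F W} {Q : QuadraticForm F V} {M : Subgroup (V ≃ₗ[F] V)}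

/-- Witt index at most one. -/
def I1 (Q : QuadraticForm F W) : Prop := ∀ w u, w ≠ 0 → Q w = 0 → polar Q w u = 0 → Q u = 0 → u ∈ F ∙ w

theorem i1_of [FiniteDimensional F W] (h : ∀ U : Submodule F W, (∀ u ∈ U, QW u = 0) → finrank F U < 2) :
    I1 QW := fun w u hw h0 h1 h2 => by
  by_contra hc
  have := h ((F ∙ w) ⊔ F ∙ u) fun x hx => by
    rw [← Submodule.span_insert] at hx
    obtain ⟨a, b, rfl⟩ := Submodule.mem_span_pair.1 hx
    simp [Q_add, Q_smul, h0, h1, h2]
  rw [Submodule.finrank_sup_span_singleton hc, finrank_span_singleton hw] at this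
  omega

theorem i1_of_three [FiniteDimensional F E] (hQ : QE.polarBilin.Nondegenerate)
    (h3 : finrank F E = 3) : I1 QE := i1_of fun U hU => by
  have := (nondeg_top hQ).two_mul_finrank_le hQ (W := U) le_top (polar_eq_zero_of_ts hU)
  rw [finrank_top] at this
  omega

/-- An alternating map vanishing on all incident pairs with singular first entry vanishes. -/
theorem alt_eq_zero [FiniteDimensional F E] [Finite F] (hQ : QE.polarBilin.Nondegenerate)
    (h2 : (2 : F) ≠ 0) (h3 : 3 ≤ finrank F E) {Z : Type*} [AddCommGroup Z] [Module F Z]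
    {β : E →ₗ[F] E →ₗ[F] Z} (h0 : ∀ x, β x x = 0)
    (h : ∀ e v, QE e = 0 → polar QE e v = 0 → β e v = 0) : β = 0 := by
  have hy := (nondeg_top hQ).hasHyp (by rwa [finrank_top])
  have sw : ∀ x y, β x y = -β y x := fun x y => by
    have := h0 (x + y)
    simp only [map_add, LinearMap.add_apply, h0] at this
    linear_combination (norm := module) this
  have k : ∀ e f, IsHyp QE e f → β e f = 0 := fun e f hf => by
    obtain ⟨v, v1, v2, v3⟩ := hf.exists_perp_Q_ne hQ h3
    have := h (e + v - QE v • f) (e + QE v • f)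
      (by simp [Q_sub, Q_add, Q_smul, hf.1, hf.2, hf.3, v1, pc v2])
      (by simp [hf.1, hf.2, hf.3, hf.fe, pc v1, pc v2])
    simp only [map_add, map_sub, map_smul, LinearMap.add_apply, LinearMap.sub_apply,
      LinearMap.smul_apply, h0, sw v e, sw v f, sw f e, h e v hf.1 v1, h f v hf.2 v2] at this
    exact (smul_eq_zero.1 (show (2 * QE v) • β e f = 0 by
      linear_combination (norm := module) this)).resolve_left (mul_ne_zero h2 v3)
  refine LinearMap.ker_eq_top.1 (eq_top_iff.2 (hy.le_of_sing fun e _ he => LinearMap.ker_eq_top.1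
    (eq_top_iff.2 (hy.le_of_sing fun f _ hf => ?_))))
  by_cases h1 : polar QE e f = 0
  · exact h e f he h1
  · simpa [h1] using k e ((polar QE e f)⁻¹ • f) ⟨he, by simp [Q_smul, hf], by simp [h1]⟩

/-- A self-adjoint map moving every singular vector into its orthogonal is scalar. -/
theorem scalar_of_sing [FiniteDimensional F E] [Finite F] (hQ : QE.polarBilin.Nondegenerate)
    (h2 : (2 : F) ≠ 0) (h3 : 3 ≤ finrank F E) {a : F} (a0 : a ≠ 0) (a1 : a * a ≠ 1) {α : End F E}
    (hs : ∀ x y, polar QE x (α y) = polar QE y (α x))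
    (h : ∀ e, QE e = 0 → polar QE e (α e) = 0) : ∃ c : F, α = c • 1 := by
  have k : ∀ e f v, IsHyp QE e f → polar QE e v = 0 → polar QE f v = 0 →
      polar QE v (α v) + 2 * polar QE e (α v) =
        2 * QE v * (polar QE e (α f) + polar QE f (α v)) := fun e f v hf v1 v2 => by
    have := h (e + v - QE v • f) (by simp [Q_sub, Q_add, Q_smul, hf.1, hf.2, hf.3, v1, pc v2])
    simp only [map_add, map_sub, map_smul, polar_add_left, polar_sub_left, polar_smul_left,
      polar_add_right, polar_sub_right, polar_smul_right, smul_eq_mul, h e hf.1, h f hf.2,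
      hs v e, hs v f, hs f e] at this
    linear_combination this
  have k1 : ∀ e f v, IsHyp QE e f → polar QE e v = 0 → polar QE f v = 0 →
      polar QE v (α v) = 2 * QE v * polar QE e (α f) ∧
      polar QE e (α v) = QE v * polar QE f (α v) := fun e f v hf v1 v2 => by
    have b1 := k e f v hf v1 v2
    have b2 := k e f (-v) hf (by simp [v1]) (by simp [v2])
    simp only [map_neg, polar_neg_left, polar_neg_right, neg_neg, QuadraticMap.map_neg] at b2
    exact ⟨mul_left_cancel₀ h2 (by linear_combination b1 + b2),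
      mul_left_cancel₀ (mul_ne_zero h2 h2) (by linear_combination b1 - b2)⟩
  have k2 : ∀ e f v, IsHyp QE e f → polar QE e v = 0 → polar QE f v = 0 →
      polar QE e (α v) = 0 := fun e f v hf v1 v2 => by
    have b1 := (k1 e f v hf v1 v2).2
    have b2 := (k1 e f (a • v) hf (by simp [v1]) (by simp [v2])).2
    simp only [map_smul, polar_smul_right, smul_eq_mul, Q_smul] at b2
    exact mul_left_cancel₀ (mul_ne_zero a0 (sub_ne_zero.2 a1)) (by
      linear_combination a * a * a * b1 - b2)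
  obtain ⟨e, -, f, -, hf⟩ := (nondeg_top hQ).hasHyp (by rwa [finrank_top])
  replace hf : IsHyp QE e f := ⟨hf.1, hf.2.1, hf.2.2⟩
  have k3 : ∀ x, polar QE x (α x) = 2 * QE x * polar QE e (α f) := fun x => by
    obtain ⟨v1, v2⟩ := hf.polar_proj x
    obtain ⟨v, hv⟩ : ∃ v, v = x - polar QE f x • e - polar QE e x • f := ⟨_, rfl⟩
    rw [← hv] at v1 v2
    generalize polar QE f x = s at hv
    generalize polar QE e x = t at hv
    obtain rfl : x = v + s • e + t • f := by rw [hv]; abel
    simp only [map_add, map_smul, polar_add_left, polar_smul_left, polar_add_right,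
      polar_smul_right, smul_eq_mul, h e hf.1, h f hf.2, hs v e, hs v f, hs f e, Q_add, Q_smul,
      (k1 e f v hf v1 v2).1, k2 e f v hf v1 v2, k2 f e v hf.symm v2 v1, hf.1, hf.2, hf.3, pc v1,
      pc v2]
    ring
  refine ⟨polar QE e (α f), LinearMap.ext fun y => sub_eq_zero.1 (hQ.2 _ fun x =>
    mul_left_cancel₀ h2 ?_)⟩
  have := k3 (x + y)
  simp only [map_add, polar_add_left, polar_add_right, k3, hs y x, Q_add] at this
  simp only [polarBilin_apply_apply, polar_sub_right, LinearMap.smul_apply, End.one_apply,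
    polar_smul_right, smul_eq_mul]
  linear_combination this

/-- The alternating map attached to two vectors. -/
def gamB (B : BilinForm F E) : E →ₗ[F] E →ₗ[F] End F E :=
  LinearMap.mk₂ F (fun x y => rk1 B x y - rk1 B y x) (by intros; ext; simp [add_smul]; abel)
    (by intros; ext; simp [smul_sub, smul_smul, mul_comm]) (by intros; ext; simp [add_smul]; abel)
    (by intros; ext; simp [smul_sub, smul_smul, mul_comm])

@[simp] theorem gamB_apply (B : BilinForm F E) (x y v : E) : gamB B x y v = B v y • x - B v x • y := rfl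

/-- The central elements form a group. -/
def ZA (T : Ten F E W V) (fW : BilinForm F W) (M : Subgroup (V ≃ₗ[F] V)) {w₀ : W}
    (h0 : fW w₀ w₀ = 0) : AddSubgroup (End F E) where
  carrier := ZS T fW M w₀
  zero_mem' := ⟨1, one_mem _, by simp⟩
  add_mem' := by
    rintro a b ⟨m, hm, h1⟩ ⟨n, hn, h2⟩
    exact ⟨m * n, mul_mem hm hn, fun y => by simp [h1, h2, h0]; abel⟩
  neg_mem' := by
    rintro a ⟨m, hm, h1⟩
    exact ⟨m⁻¹, inv_mem hm, fun y => m.injective (by
      rw [LinearEquiv.coe_inv, m.apply_symm_apply]; simp [h1, h0])⟩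

theorem conj_mem_ZA {fW : BilinForm F W} {w₀ : W} {h0 : fW w₀ w₀ = 0} {γ : End F E}
    (h : γ ∈ ZA T fW M h0) {A : E ≃ₗ[F] E} (hA : T.tm A 1 ∈ M) : A.conj γ ∈ ZA T fW M h0 := by
  obtain ⟨m, hm, h1⟩ := h
  refine ⟨_, mul_mem (mul_mem hA hm) (inv_mem hA), fun y => ?_⟩
  obtain ⟨y, rfl⟩ := (T.tm A 1).surjective y
  simp [h1, tpi, cR_tm]

theorem eich_symm_apply (u v x : E) : (eich QE u v).1.symm x = eich QE u (-v) x := by
  rw [eich_neg]; rfl

theorem eich_sum (α : E →ₗ[F] E) {e v : E}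
    (h1 : QE e = 0) (h2 : polar QE e v = 0) (c : F) (x : E) :
    eich QE e (c • v) (α (eich QE e (-(c • v)) x)) + eich QE e (-(c • v)) (α (eich QE e (c • v) x))
      - (α x + α x) = (2 * (c * c)) • (-(QE v * polar QE e (α x)) • e - (QE v * polar QE e x) • α e -
        polar QE v x • (polar QE v (α e) • e - polar QE e (α e) • v) +
        polar QE e x • (polar QE v (α v) • e - polar QE e (α v) • v)) +
      (2 * (c * c) ^ 2 * (QE v ^ 2 * polar QE e x * polar QE e (α e))) • e := by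
  simp only [eich_apply (v := c • v) h1 (by simp [h2]), eich_apply (v := -(c • v)) h1 (by simp [h2]),
    map_add, map_sub, map_smul, polar_add_right, polar_sub_right, polar_smul_right, polar_smul_left,
    polar_neg_left, QuadraticMap.map_neg, Q_smul, map_neg, polar_neg_right, smul_eq_mul]
  module

namespace OO

variable (H : OO T QE QW Q M) [Fintype F] [FiniteDimensional F E] [FiniteDimensional F W]
include H

theorem tm_eich (u v : E) : T.tm (eich QE u v).1 1 ∈ M := T.swap_tm _ 1 ▸ H.swap'.eich_mem u v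

theorem gam_mem (h3 : finrank F E = 3) {w₀ : W} (hw : w₀ ≠ 0) (h0 : QW.polarBilin w₀ w₀ = 0)
    {γ : End F E} (hγ : γ ∈ ZA T QW.polarBilin M h0) (hne : γ ≠ 0) (x y : E) :
    gamB QE.polarBilin x y ∈ ZA T QW.polarBilin M h0 := by
  have al : ∀ x, polar QE (γ x) x = 0 := fun x => by
    obtain ⟨m, hm, h1⟩ := hγ
    obtain ⟨p, p1, p2⟩ := H.mc.exists_partner hw h0
    have := (H.le m hm).1 (T.t x p)
    rw [h1, Q_add, H.sing _ (H.sing_iff.1 h0), polar_comm, H.pol, tpi_t, p1] at this
    simpa [polar_comm QE x] using this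
  have al' : ∀ x y, polar QE y (γ x) = -polar QE x (γ y) := fun x y => by
    have := al (x + y)
    simp only [map_add, polar_add_left, polar_add_right, al, polar_comm QE (γ _)] at this
    linear_combination this
  obtain ⟨e, v, e1, e2, e3⟩ : ∃ e v, QE e = 0 ∧ polar QE e v = 0 ∧ polar QE (γ e) v ≠ 0 := by
    by_contra hc
    push Not at hc
    have := alt_eq_zero H.ndE H.two h3.ge (β := QE.polarBilin ∘ₗ γ) al hc
    exact hne (LinearMap.ext fun x => H.ndE.1 _ fun y => LinearMap.congr_fun₂ this x y)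
  have e0 : e ≠ 0 := by rintro rfl; simp at e3
  have v0 : QE v ≠ 0 := fun h => by
    obtain ⟨c, rfl⟩ := Submodule.mem_span_singleton.1 (i1_of_three H.ndE h3 e v e0 e1 e2 h)
    simp [al] at e3
  let Z : Submodule F (End F E) :=
    { carrier := {γ | ∀ c : F, c • γ ∈ ZA T QW.polarBilin M h0}
      zero_mem' := by simp
      add_mem' := fun ha hb c => by rw [smul_add]; exact add_mem (ha c) (hb c)
      smul_mem' := fun a _ h c => by rw [smul_smul]; exact h _ }
  set z := QE v • γ e - polar QE v (γ e) • v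
  have k1 : ∀ c : F, (2 * (c * c)) • gamB QE.polarBilin e z ∈ ZA T QW.polarBilin M h0 := fun c => by
    convert sub_mem (add_mem (conj_mem_ZA hγ (H.tm_eich e (c • v)))
      (conj_mem_ZA hγ (H.tm_eich e (-(c • v))))) (add_mem hγ hγ) using 1
    ext x
    simp only [LinearMap.smul_apply, gamB_apply, LinearMap.sub_apply, LinearMap.add_apply,
      LinearEquiv.conj_apply_apply, eich_symm_apply, O.coe_apply, neg_neg, polarBilin_apply_apply]
    rw [eich_sum γ e1 e2, pc (al e), pc (al v), al' x e, al' v e, polar_comm QE v x,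
      polar_comm QE e x]
    simp only [z, polar_sub_right, polar_smul_right, smul_eq_mul]
    module
  have k2 : gamB QE.polarBilin e z ∈ Z := fun c => by
    convert sub_mem (k1 ((c / 2 + 1) / 2)) (k1 ((c / 2 - 1) / 2)) using 1
    have := H.two
    rw [← sub_smul]; congr 1; field_simp; ring
  have k3 : ∀ v', polar QE e v' = 0 → gamB QE.polarBilin e v' ∈ Z := fun v' hv' => by
    have a1 : z ∉ F ∙ e := fun h => by
      obtain ⟨c, hc⟩ := Submodule.mem_span_singleton.1 h
      have := congrArg (polar QE v) hc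
      simp only [z, polar_smul_right, pc e2, polar_sub_right, polar_self', smul_eq_mul,
        polar_comm QE v (γ e)] at this
      exact mul_ne_zero v0 e3 (by linear_combination this)
    have a2 : (F ∙ e) ⊔ F ∙ z = ort QE e := Submodule.eq_of_le_of_finrank_le
      (by simp [z, pself e1, e2, pc (al e)]) (by
        have := Submodule.finrank_lt (s := ort QE e) fun h => e0 (H.ndE.1 e fun y => h.ge trivial)
        rw [Submodule.finrank_sup_span_singleton a1, finrank_span_singleton e0]; omega)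
    have a3 := a2.ge hv'
    rw [← Submodule.span_insert] at a3
    obtain ⟨a, b, rfl⟩ := Submodule.mem_span_pair.1 a3
    rw [map_add, map_smul, map_smul, show gamB QE.polarBilin e e = 0 from sub_self _]
    simpa using Z.smul_mem b k2
  have k4 := alt_eq_zero H.ndE H.two h3.ge (β := (gamB QE.polarBilin).compr₂ Z.mkQ)
    (fun x => by simp [gamB]) fun e' v' h1 h2 => by
      by_cases h4 : e' = 0
      · simp [h4]
      obtain ⟨s, s1, c, c0, s2⟩ := exists_EG_apply_eq_smul H.ndE h3.ge e0 e1 h4 h1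
      refine (Submodule.Quotient.mk_eq_zero _).2 fun a => ?_
      convert conj_mem_ZA (k3 (s⁻¹ v') (by rw [← O.polar_apply_left, s2]; simp [h2]) (a / c))
        (A := s.1) (T.swap_tm s.1 1 ▸ H.swap'.EG_mem s1) using 1
      simp only [gamB, LinearMap.mk₂_apply, map_smul, map_sub, conj_rk1 (iso_of_OG s.2), O.coe_apply,
        s2, O.apply_inv_apply]
      ext x; simp; match_scalars <;> field_simp
  simpa using (Submodule.Quotient.mk_eq_zero _).1 (LinearMap.congr_fun₂ k4 x y) 1

theorem top_of_gam (h3 : finrank F E = 3) (hb : 3 ≤ finrank F W) (hI : I1 QW) {w₀ : W}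
    (hw : w₀ ≠ 0) (h0 : QW.polarBilin w₀ w₀ = 0)
    (h : ∀ x y, gamB QE.polarBilin x y ∈ ZA T QW.polarBilin M h0) :
    commutator (O Q) ≤ M.subgroupOf (OG Q) := by
  have := T.finite
  set M' := M.subgroupOf (OG Q)
  have k1 : ∀ x y, T.t y w₀ ∈ AS M' (T.t x w₀) := fun x y => by
    have a0 : polar Q (T.t x w₀) (T.t y w₀) = 0 := by rw [H.pol, tpi_t, h0]; simp
    refine ⟨a0, fun c => ?_⟩
    obtain ⟨m, hm, h1⟩ := h x (c • y)
    rwa [Subgroup.mem_subgroupOf, show (eich Q (T.t x w₀) (c • T.t y w₀)).1 = m from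
      LinearEquiv.ext fun v => by
        simp [h1, eich_apply (H.sing x (H.sing_iff.1 h0)) (v := c • T.t y w₀) (by simp [a0]), Q_smul,
          H.sing y (H.sing_iff.1 h0), H.pol, smul_smul, add_sub_assoc, smul_sub, mul_comm c]]
  have k2 : ∀ w, QW w = 0 → ∀ x y, T.t y w ∈ AS M' (T.t x w) := fun w h1 x y => by
    by_cases h2 : w = 0
    · simp [h2]
    obtain ⟨s, s1, c, c0, s2⟩ := exists_EG_apply_eq_smul H.ndW hb hw (H.sing_iff.1 h0) h2 h1
    simpa [s2, smul_smul, c0] using apply_mem_AS (g := ⟨_, (H.le _ (H.EG_mem s1)).1⟩) (H.EG_mem s1)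
      (k1 (c⁻¹ • x) (c⁻¹ • y))
  have mv : ∀ {u u' y x : V}, Q u' = 0 → y ∈ AS M' u' → polar Q u' u = 0 → polar Q y u = 0 →
      x ∈ AS M' u → polar Q y x • u' - polar Q u' x • y - (Q y * polar Q u' x) • u' ∈ AS M' u :=
    fun {u u' y x} a1 a2 a3 a4 a5 => by
      convert sub_mem (apply_mem_AS_of_fix (eich_mem_of_AS a2) (eich_apply_of_orth_orth a3 a4) a5)
        a5 using 1
      rw [eich_apply a1 a2.1]; abel
  have hy := (nondeg_top H.ndW).hasHyp (by rwa [finrank_top])
  have k3 : ∀ e, QE e ≠ 0 → ∀ w, w ≠ 0 → QW w = 0 → ∀ x, polar QE e x = 0 → ∀ v,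
      T.t x v ∈ AS M' (T.t e w) := fun e he w w0 w1 x hx v => by
    refine hy.le_of_sing (T := (AS M' (T.t e w)).comap (T.t x)) (fun v _ hv => ?_) trivial
    by_cases a : polar QW w v = 0
    · obtain ⟨c, rfl⟩ := Submodule.mem_span_singleton.1 (hI w v w0 w1 a hv)
      simpa using Submodule.smul_mem _ c (k2 w w1 e x)
    by_cases x0 : x = 0
    · simp [x0]
    obtain ⟨y, ⟨-, y1⟩, y2⟩ := exists_mem_not_mem_of_finrank_lt (A := F ∙ x) (B := ⊤ ⊓ ort QE e) (by
      have := finrank_le_inf_ort (Q := QE) ⊤ e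
      rw [finrank_top] at this
      rw [finrank_span_singleton x0]; omega)
    obtain ⟨z, z1, z2⟩ := H.swap.exists_pair y2
    rw [polarBilin_apply_apply] at z1 z2
    have := mv (H.sing x hv) (k2 v hv x y) (by simp [H.pol, hx]) (by simp [H.pol, mem_ort.1 y1])
      (k2 w w1 e z)
    simp only [H.pol, tpi_t, map_smul, LinearMap.smul_apply, polarBilin_apply_apply, pc z2,
      polar_comm QE z y, z1, smul_eq_mul, mul_zero, zero_smul, sub_zero, mul_one] at this
    exact Submodule.mem_comap.2 ((Submodule.smul_mem_iff _ a).1 this)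
  have k4 : ∀ e, QE e ≠ 0 → ∀ w, w ≠ 0 → QW w = 0 → Full M' (T.t e w) := fun e he w w0 w1 => by
    obtain ⟨e', ⟨-, e1⟩, e2⟩ := ((nondeg_top H.ndE).inf_ort (a := e) trivial (by
      rw [polar_self']; exact mul_ne_zero H.two he)).exists_Q_ne fun h => by
        have := finrank_le_inf_ort (Q := QE) ⊤ e
        rw [h, finrank_top, finrank_bot] at this; omega
    obtain ⟨p, hp⟩ := exists_isHyp H.ndW w0 w1
    have a1 : ∀ v, polar QW w v = 0 → T.t e v ∈ AS M' (T.t e w) := fun v hv => by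
      have b1 := k3 e he w w0 w1 e' e1 p
      have b2 := mv (H.sing e' hp.2) (k3 e' e2 p hp.symm.ne_zero hp.2 e (pc e1) v)
        (by simp [H.pol, mem_ort.1 e1]) (by simp [H.pol, hv]) (k2 w w1 e e')
      rw [← Submodule.smul_mem_iff _ (s := polar Q (T.t e' p) (T.t e' w))
        (by simp [H.pol, hp.3, H.two, e2])]
      convert sub_mem (sub_mem (Submodule.smul_mem _ (polar Q (T.t e v) (T.t e' w)) b1)
        (Submodule.smul_mem _ (Q (T.t e v) * polar Q (T.t e' p) (T.t e' w)) b1)) b2 using 1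
      abel
    let φ := (2 * QE e)⁻¹ • QE.polarBilin e
    have a2 : ∀ y, y - T.t e (T.cL φ y) ∈ AS M' (T.t e w) := fun y =>
      T.induction y (by simp) (fun x v => by
        simpa using k3 e he w w0 w1 (x - φ x • e) (by simp [φ]; field_simp [H.two]; simp) v)
        fun x y hx hy => by
          convert add_mem hx hy using 1
          simp only [map_add]; abel
    refine full_of_ort_le fun y hy => ?_
    have a3 := sub_mem hy (a2 y).1
    have a4 := a2 y
    generalize T.cL φ y = v at a3 a4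
    rw [sub_sub_cancel, mem_ort, H.pol] at a3
    simpa using add_mem a4 (a1 v (pc (by simpa [H.two, he] using a3)))
  obtain ⟨e, -, he⟩ := (nondeg_top H.ndE).exists_Q_ne fun h => by
    have := congrArg (fun U : Submodule F E => finrank F U) h
    simp [h3] at this
  obtain ⟨p, hp⟩ := exists_isHyp H.ndW hw (H.sing_iff.1 h0)
  exact commutator_le_of_full₂ H.nd (by rw [T.finrank_eq, h3]; omega) (k4 e he w₀ hw hp.1)
    (k4 e he p hp.symm.ne_zero hp.2) (H.sing _ hp.1) (H.sing _ hp.2)
    (by simp [H.pol, hp.fe, H.two, he])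

/-- The stabiliser of `E ⊗ w₀` preserves the decomposition. -/
theorem stab_i1 (h3 : finrank F E = 3) (hb : 3 ≤ finrank F W) (hI : I1 QW) {a : F} (a0 : a ≠ 0)
    (a1 : a * a ≠ 1) (nt : ¬ commutator (O Q) ≤ M.subgroupOf (OG Q)) (w₀ : W) (hw : w₀ ≠ 0)
    (h00 : QW w₀ = 0) : ∀ g ∈ M, (∀ v ∈ T.LS (F ∙ w₀), g v ∈ T.LS (F ∙ w₀)) → g ∈ T.grp := by
  have : Nontrivial E := Module.nontrivial_of_finrank_pos (R := F) (by omega)
  have h0 := H.sing_iff.2 h00
  have Z0 : ∀ γ ∈ ZS T QW.polarBilin M w₀, γ = 0 := fun γ hγ => by_contra fun hne =>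
    nt (H.top_of_gam h3 hb hI hw h0 (H.gam_mem h3 hw h0 hγ hne))
  obtain ⟨p, hp⟩ := exists_isHyp H.ndW hw h00
  refine H.mc.stab_le hw h0 ?_ (fun z hz α hα => scalar_of_sing H.ndE H.two h3.ge a0 a1
    (fun x y => ?_) fun e he => ?_) fun γ hγ => ⟨0, by simp [Z0 γ hγ]⟩
  · obtain ⟨u, u1, -, u2⟩ := hp.exists_perp_Q_ne H.ndW hb
    have := H.two
    exact ⟨u, (2 * QW u)⁻¹ • u, pc u1, by simp [pc u1], by simp; field_simp⟩
  · have := Z0 _ (H.mc.comm_mem_ZS h0 hz hα)
    rw [one_smul, sub_eq_zero] at this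
    rw [← polarBilin_apply_apply, ← adj_spec H.ndE, this, polar_comm]; rfl
  obtain ⟨Φ, hΦ, h1⟩ := hα
  by_contra hc
  have e0 : e ≠ 0 := by rintro rfl; simp at hc
  obtain ⟨f, hf⟩ := exists_isHyp H.ndE e0 he
  obtain ⟨v, v1, -, v2⟩ := hf.exists_perp_Q_ne H.ndE h3.ge
  let P : F → V →ₗ[F] E := fun c =>
    ((eich QE e (c • v)).1 : E →ₗ[F] E) ∘ₗ Φ ∘ₗ (T.tm (eich QE e (c • v)).1⁻¹ 1 : V →ₗ[F] V) +
    ((eich QE e (-(c • v))).1 : E →ₗ[F] E) ∘ₗ Φ ∘ₗ (T.tm (eich QE e (-(c • v))).1⁻¹ 1 : V →ₗ[F] V) -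
    (Φ + Φ)
  have P1 : ∀ c, P c ∈ T.QA M (W₁ := W1 QW.polarBilin w₀) h0 := fun c => sub_mem (add_mem
    (conj_mem_QA hΦ (H.tm_eich _ _)) (conj_mem_QA hΦ (H.tm_eich _ _))) (add_mem hΦ hΦ)
  obtain ⟨u, hu⟩ := exists_polar_eq H.ndW
    ((-8 * (a * a) * (a * a - 1) ^ 2 * QE v ^ 2) • QE.polarBilin e ∘ₗ Φ ∘ₗ T.t e)
  have k : ∀ e', QE e' = 0 → e' ≠ 0 → ∃ c : F, c ≠ 0 ∧ ∃ m ∈ M, ∀ y, tpi T QW.polarBilin w₀ y = 0 →
      m y = y + T.t ((c * polar QE e' (tpi T QW.polarBilin u y)) • e') w₀ := fun e' h4 h5 => by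
    obtain ⟨s, s1, c, c0, s2⟩ := exists_EG_apply_eq_smul H.ndE h3.ge e0 he h5 h4
    obtain ⟨-, m, hm, h6⟩ := conj_mem_QA (A := s.1) (add_mem (add_mem (sub_mem (sub_mem (P1 (2 * a))
      (add_mem (P1 a) (P1 a))) (P1 (1 + a * a))) (P1 1)) (P1 (a * a)))
      (T.swap_tm s.1 1 ▸ H.swap'.EG_mem s1)
    refine ⟨c * c, mul_ne_zero c0 c0, m, hm, fun y hy => ?_⟩
    rw [h6 y (mem_LS_W1.2 hy)]
    congr 3
    refine T.induction y (by simp) (fun x w => ?_) fun x y hx hy => by
      simp only [map_add, hx, hy, polar_add_right, mul_add, add_smul]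
    have k1 := fun c => eich_sum (Φ ∘ₗ T.t.flip w) he v1 c (s⁻¹ x)
    have k2 : polar QE e (s⁻¹ x) = c * polar QE e' x := by
      rw [← O.polar_apply_left, s2, polar_smul_left, smul_eq_mul]
    simp only [LinearMap.comp_apply, LinearMap.flip_apply] at k1
    simp only [P, LinearMap.comp_apply, LinearEquiv.coe_coe, tm_t, LinearMap.add_apply,
      LinearMap.sub_apply, LinearEquiv.coe_inv, eich_symm_apply, O.coe_apply, neg_neg,
      LinearEquiv.coe_one, id, show s.1.symm x = s⁻¹ x from rfl, k1, tpi_t, polarBilin_apply_apply,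
      polar_comm QW w u, hu, LinearMap.smul_apply, polar_smul_right, smul_eq_mul]
    refine (congrArg s (show _ = (-8 * (a * a) * (a * a - 1) ^ 2 * QE v ^ 2 * polar QE e (s⁻¹ x) *
      polar QE e (Φ (T.t e w))) • e by module)).trans ?_
    rw [map_smul, s2, smul_smul, k2]
    congr 1
    ring
  have u0 : polar QW w₀ u = 0 := by rw [polar_comm, hu]; simp [hΦ.1]
  have u1 : QW u ≠ 0 := fun h => by
    obtain ⟨c, rfl⟩ := Submodule.mem_span_singleton.1 (hI w₀ u hw h00 u0 h)
    have := hu z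
    have h8 : (8 : F) ≠ 0 := by rw [show (8 : F) = 2 ^ 3 by norm_num]; exact pow_ne_zero _ H.two
    simp [pc hz, h1, hc, a0, sub_eq_zero, a1, v2, h8] at this
  obtain ⟨c, c0, m, hm, m1⟩ := k e he e0
  obtain ⟨d, d0, n, hn, n1⟩ := k f hf.2 hf.symm.ne_zero
  have ad : ∀ {e' : E} {c : F} {m : V ≃ₗ[F] V}, m ∈ M → (∀ y, tpi T QW.polarBilin w₀ y = 0 →
      m y = y + T.t ((c * polar QE e' (tpi T QW.polarBilin u y)) • e') w₀) → ∀ x,
      tpi T QW.polarBilin w₀ (m (T.t x p) - T.t x p) = 0 ∧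
      tpi T QW.polarBilin u (m (T.t x p) - T.t x p) = -(c * 2 * QW u * polar QE e' x) • e' :=
    fun {e' c m} hm h x => by
      have b1 : ∀ e, m (T.t e w₀) = T.t e w₀ := fun e => by
        rw [h (T.t e w₀) (by simp [h00])]; simp [u0]
      refine ⟨by rw [map_sub, H.tpi_sub (H.isom hm) b1, sub_self], H.extE fun y => ?_⟩
      have b2 := H.isom hm (T.t x p) (T.t y u)
      have b3 := fun z => H.isom hm (T.t x p) (T.t z w₀)
      rw [h (T.t y u) (by simp [pc u0]), map_add] at b2
      simp only [b1] at b3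
      rw [b3, H.tens, H.tens] at b2
      rw [← H.f_t, map_sub, LinearMap.sub_apply, H.tens]
      simp only [tpi_t, map_smul, polarBilin_apply_apply, polar_self', smul_eq_mul, hp.fe,
        polar_smul_right, LinearMap.smul_apply, polar_comm QE x e'] at b2 ⊢
      linear_combination b2
  obtain ⟨γ, hγ⟩ := H.exists_gamma hw (H.isom (mul_mem (inv_mem (mul_mem hn hm)) (mul_mem hm hn)))
    fun y hy => (n * m).injective (by
      rw [← LinearEquiv.mul_apply, mul_inv_cancel_left,
        LinearEquiv.mul_apply, LinearEquiv.mul_apply, n1 y hy, m1 y hy, m1 _ (by simp [hy, h00]),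
        n1 _ (by simp [hy, h00])]
      simp [u0]; abel)
  obtain rfl := Z0 γ ⟨_, mul_mem (inv_mem (mul_mem hn hm)) (mul_mem hm hn), hγ⟩
  have b1 : m (n (T.t e p)) = n (m (T.t e p)) := by
    simpa [LinearEquiv.symm_apply_eq] using hγ (T.t e p)
  have b2 := m1 _ (ad hn n1 e).1
  have b3 := n1 _ (ad hm m1 e).1
  rw [map_sub, (ad hn n1 e).2] at b2
  rw [map_sub, (ad hm m1 e).2, ← b1] at b3
  have b4 := sub_eq_iff_eq_add.1 b2
  rw [sub_eq_iff_eq_add.1 b3] at b4
  simp [pself he, hf.3, hf.fe, t_eq_zero, sub_add_eq_add_sub, add_assoc, add_comm (m _), c0, d0, u1,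
    H.two, e0, hw] at b4

end OO

end H91
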