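/- Maximality of `O₃ ⊗ O₄⁻` in `Ω₁₂⁻`. -/
import Cfsg.Agent.H91.TenI1
import Cfsg.Agent.H1.CoprimeGen
import Cfsg.Agent.H98.Coprime
import Cfsg.Agent.H2.PrimeCore
import Cfsg.Agent.H58.QDisc
import Cfsg.Agent.H56.OrthCard

set_option autoImplicit false

namespace H91

open Module H56 H56.Ten H62 H60 QuadraticMap
open LinearMap (BilinForm)

section grp

variable {G : Type*} [Group G] [Finite G]

theorem dih_cases (K : Subgroup G) {s t : G} (hs : s ∈ K) (ht : t ∈ K) (s2 : s * s = 1)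
    (t2 : t * t = 1) : (∃ g ∈ K, g * s * g⁻¹ = t) ∨ ∃ w ∈ K, w ≠ 1 ∧ w * s = s * w ∧
      w * t = t * w ∧ ∃ g ∈ K, g * s * g⁻¹ = w * s ∨ g * t * g⁻¹ = w * s := by
  have si := inv_eq_of_mul_eq_one_right s2
  have ti := inv_eq_of_mul_eq_one_right t2
  set r := s * t with hr
  have rK : ∀ k : ℕ, r ^ k ∈ K := fun k => pow_mem (mul_mem hs ht) k
  have a1 : ∀ k : ℕ, s * (r ^ k)⁻¹ = r ^ k * s := fun k => by
    have : SemiconjBy s r⁻¹ r := by
      show _ = _
      rw [hr, mul_inv_rev, si, ti, mul_assoc]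
    rw [← inv_pow]; exact this.pow_right k
  have a2 : ∀ k : ℕ, t * (r ^ k)⁻¹ = r ^ k * t := fun k => by
    have : SemiconjBy t r⁻¹ r := by
      show _ = _
      rw [hr, mul_inv_rev, si, ti, mul_assoc, ← mul_assoc t t, t2, one_mul, mul_one]
    rw [← inv_pow]; exact this.pow_right k
  have b1 : ∀ k : ℕ, r ^ k * s * (r ^ k)⁻¹ = r ^ (2 * k) * s := fun k => by
    rw [mul_assoc, a1, ← mul_assoc, ← pow_add, two_mul]
  have c1 : r * t = s := by rw [hr, mul_assoc, t2, mul_one]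
  have hn := pow_orderOf_eq_one r
  have hp := orderOf_pos r
  obtain ⟨k, hk | hk⟩ := Nat.even_or_odd' (orderOf r)
  · have wi := inv_eq_of_mul_eq_one_right (show r ^ k * r ^ k = 1 by
      rw [← pow_add, ← two_mul, ← hk, hn])
    refine Or.inr ⟨r ^ k, rK k, pow_ne_one_of_lt_orderOf (by omega) (by omega),
      by rw [← a1, wi], by rw [← a2, wi], ?_⟩
    obtain ⟨j, rfl | rfl⟩ := Nat.even_or_odd' k
    · exact ⟨_, rK j, Or.inl (b1 j)⟩
    · refine ⟨_, rK (j + 1), Or.inr ?_⟩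
      rw [mul_assoc, a2, ← mul_assoc, ← pow_add, ← c1, ← mul_assoc, ← pow_succ]
      congr 2; ring
  · refine Or.inl ⟨_, rK k, ?_⟩
    rw [b1, ← c1, ← mul_assoc, ← pow_succ, ← hk, hn, one_mul]

/-- Two non-conjugate rigid involutions in a class closed under commuting products. -/
theorem le_of_invol {M H : Subgroup G} {D : Set G} (h1 : ∀ z ∈ D, z ∈ M ∧ z ∈ H ∧ z * z = 1)
    (h2 : ∀ z ∈ D, ∀ g ∈ M, g * z * g⁻¹ ∈ H → g ∈ H ∧ g * z * g⁻¹ ∈ D)
    (h3 : ∀ z ∈ D, ∀ z' ∈ D, z * z' = z' * z → z ≠ z' → z * z' ∈ D) {a b : G} (ha : a ∈ D)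
    (hb : b ∈ D) (hab : ∀ g ∈ M, g ∈ H → g * b * g⁻¹ ≠ a) : M ≤ H := fun g hg => by
  obtain ⟨a1, a2, a3⟩ := h1 a ha
  obtain ⟨b1, b2, b3⟩ := h1 b hb
  have t1 : g⁻¹ * a * g ∈ M := mul_mem (mul_mem (inv_mem hg) a1) hg
  rcases dih_cases M b1 t1 b3 (by simp [mul_assoc, ← mul_assoc a a, a3]) with
    ⟨k, k1, k2⟩ | ⟨w, w1, w2, w3, w4, k, k1, k2⟩
  · have : g * k * b * (g * k)⁻¹ = a := by
      rw [mul_assoc g, mul_inv_rev, ← mul_assoc, mul_assoc g, k2]; group
    exact absurd this (hab _ (mul_mem hg k1) (h2 b hb _ (mul_mem hg k1) (this ▸ a2)).1)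
  have c1 : w * b ∈ H := mul_mem (h2 b hb w w1 (by simpa [w3] using b2)).1 b2
  have c2 : w * b ∈ D := by
    rcases k2 with k2 | k2
    · exact k2 ▸ (h2 b hb k k1 (k2 ▸ c1)).2
    · rw [show k * (g⁻¹ * a * g) * k⁻¹ = k * g⁻¹ * a * (k * g⁻¹)⁻¹ by group] at k2
      exact k2 ▸ (h2 a ha _ (mul_mem k1 (inv_mem hg)) (k2 ▸ c1)).2
  have c3 := h3 _ c2 b hb (by rw [← mul_assoc, w3]) (by simpa using w2)
  rw [mul_assoc, b3, mul_one] at c3
  have c4 := (h2 w c3 _ t1 (by rw [← w4, mul_inv_cancel_right]; exact (h1 w c3).2.1)).1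
  exact inv_mem_iff.1 (h2 a ha _ (inv_mem hg) (by rwa [inv_inv])).1

theorem le_of_pgroup_act {p : ℕ} [Fact p.Prime] {X C H : Subgroup G} [IsMulCommutative X]
    (hX : IsPGroup p X) (hc : ¬ IsCyclic X) (hn : ∀ a ∈ X, ∀ c ∈ C, a * c * a⁻¹ ∈ C)
    (h1 : ∀ a ∈ X, a ≠ 1 → ∀ c ∈ C, a * c = c * a → c ∈ H)
    (h2 : ∀ c ∈ C, c ∈ H → ∀ k, c ^ p ^ k = 1 → c = 1) : C ≤ H := by
  have hn' : X ≤ Subgroup.normalizer (C : Set G) := fun a ha => Subgroup.mem_normalizer_iff.2
    fun c => ⟨hn a ha c, fun h => by simpa [mul_assoc] using hn _ (inv_mem ha) _ h⟩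
  refine H1.le_of_noncyclic_centralizer_le hc hn' (H2.coprime_card_of_isPGroup hX
    ((Nat.Prime.coprime_iff_not_dvd Fact.out).2 ?_).symm) H fun a ha h c hc =>
      h1 a ha h c hc.1 (hc.2 a rfl)
  obtain ⟨S, hS, hXS⟩ := H98.exists_isSyl_le hX (le_sup_right : X ≤ C ⊔ X)
  have hV := hS.inf_of_le_normalizer le_sup_left (hS.le.trans (sup_le Subgroup.le_normalizer hn'))
  rw [← hV.eq_bot_iff]
  by_contra hne
  refine H98.inf_centralizer_ne_bot hV.isPGroup hX
    (H98.le_normalizer_inf (hXS.trans Subgroup.le_normalizer) hn') hne (eq_bot_iff.2 fun c hc' => ?_)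
  obtain ⟨k, hk⟩ := H98.isPGroup_iff_forall.1 hV.isPGroup c hc'.1
  obtain ⟨a, ha⟩ : ∃ a : X, a ≠ 1 := by
    by_contra h
    push Not at h
    exact hc ⟨1, fun x => ⟨0, by simp [h x]⟩⟩
  exact h2 c hc'.1.2 (h1 a a.2 (by simpa using ha) c hc'.1.2 (hc'.2 a a.2)) k hk

end grp

variable {F E W V : Type*} [Field F] [AddCommGroup E] [Module F E] [AddCommGroup W] [Module F W]
  [AddCommGroup V] [Module F V] {T : Ten F E W V} {QE : QuadraticForm F E}
  {QW : QuadraticForm F W} {Q : QuadraticForm F V} {M : Subgroup (V ≃ₗ[F] V)}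

theorem finrank_inf_ort_lt [FiniteDimensional F E] (h2 : (2 : F) ≠ 0) {U : Submodule F E} {e : E}
    (h : e ∈ U) (he : QE e ≠ 0) : finrank F ↥(U ⊓ ort QE e) < finrank F U :=
  Submodule.finrank_lt_finrank_of_lt (lt_of_le_of_ne inf_le_left fun h' => by
    simpa [h2, he] using (h'.ge h).2)

theorem exists_third [FiniteDimensional F E] (hQ : QE.polarBilin.Nondegenerate) (h2 : (2 : F) ≠ 0)
    (h3 : finrank F E = 3) {a b : E} (ha : QE a ≠ 0) (hb : QE b ≠ 0) (h : polar QE a b = 0) :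
    ∃ c, QE c ≠ 0 ∧ refl QE a * refl QE b = O.negOne QE * refl QE c := by
  have k1 := finrank_le_inf_ort (Q := QE) ⊤ a
  have k2 := finrank_le_inf_ort (Q := QE) (⊤ ⊓ ort QE a) b
  have k3 := finrank_inf_ort_lt h2 (U := ⊤) trivial ha
  have k4 := finrank_inf_ort_lt h2 (U := ⊤ ⊓ ort QE a) ⟨trivial, h⟩ hb
  rw [finrank_top] at k1 k3
  obtain ⟨c, c1, c2⟩ := (((nondeg_top hQ).inf_ort (a := a) trivial (by simp [h2, ha])).inf_ort (a := b)
    ⟨trivial, h⟩ (by simp [h2, hb])).exists_Q_ne fun e => by rw [e, finrank_bot] at k2; omega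
  have k5 := (finrank_eq_one_iff_of_nonzero' (K := F) (⟨c, c1⟩ : ↥(⊤ ⊓ ort QE a ⊓ ort QE b))
    (fun h => c2 (by simp [show c = 0 from congrArg Subtype.val h]))).1
    (by omega)
  refine ⟨c, c2, ?_⟩
  rcases eq_one_or_refl_of_mov (g := O.negOne QE * (refl QE a * refl QE b)) c2 fun x => by
    obtain ⟨d, hd⟩ := k5 ⟨(O.negOne QE * (refl QE a * refl QE b)) x - x, by
      simp [refl_apply, h, pc h]; constructor <;> field_simp <;> ring⟩
    exact ⟨d, (congrArg Subtype.val hd).symm⟩ with k | k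
  · have := congrArg (fun g : O QE => polar QE c (g c)) k
    simp [refl_apply_of_orth c1.2, refl_apply_of_orth c1.1.2, neg_eq_iff_add_eq_zero, ← two_mul, h2,
      c2] at this
  · rw [← k, ← mul_assoc, O.negOne_mul_self, one_mul]

theorem mv_refl (h2 : (2 : F) ≠ 0) {e : E} (he : QE e ≠ 0) : mv (refl QE e).1 = F ∙ e :=
  le_antisymm (mv_le.2 (refl_sub_mem_span e)) ((Submodule.span_singleton_le_iff_mem _ _).2
    (mem_mv.2 ⟨-(2 : F)⁻¹ • e, by
      rw [O.coe_apply, map_smul, refl_apply_self he]; match_scalars; field_simp; ring⟩))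

@[simp] theorem swap_rt_t (A : E ≃ₗ[F] E) (e : E) (w : W) : T.swap.rt A (T.t e w) = T.t (A e) w :=
  T.swap.rt_t A w e

variable (T QE) in
/-- The involution with fixed space `e ⊗ W`. -/
def zz (e : E) : V ≃ₗ[F] V := T.tm (O.negOne QE * refl QE e).1 1

namespace OO

variable (H : OO T QE QW Q M) [Fintype F] [FiniteDimensional F E] [FiniteDimensional F W]
  (h3 : finrank F E = 3) (h4 : finrank F W = 4)
include H

omit [Fintype F] [FiniteDimensional F E] [FiniteDimensional F W] in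
theorem Q_t (e : E) (w : W) : Q (T.t e w) = 2 * QE e * QW w := mul_left_cancel₀ H.two (by
  rw [← polar_self', H.pol]; simp; ring)

include h4 in
theorem refl_mul_mem {a b : E} (ha : QE a ≠ 0) (hb : QE b ≠ 0) :
    T.tm (refl QE a * refl QE b).1 1 ∈ M := by
  have := T.finite
  let _ := invertibleOfNonzero H.two
  obtain ⟨v, hv⟩ := LinearMap.BilinForm.exists_orthogonal_basis (B := QW.polarBilin)
    ⟨fun x y => polar_comm _ _ _⟩
  have v0 : ∀ i, QW (v i) ≠ 0 := fun i h =>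
    LinearMap.BilinForm.iIsOrtho.not_isOrtho_basis_self_of_nondegenerate hv H.ndW i (pself h)
  let u := v.reindex (finCongr h4)
  have u0 : ∀ i, QW (u i) ≠ 0 := fun i => by simpa [u] using v0 _
  have u1 : ∀ i j, i ≠ j → polar QW (u i) (u j) = 0 := fun i j h => by
    simpa [u] using hv (show (finCongr h4).symm i ≠ (finCongr h4).symm j by simpa)
  let r : E → O Q := fun e => refl Q (T.t e (u 0)) * refl Q (T.t e (u 1)) * refl Q (T.t e (u 2)) *
    refl Q (T.t e (u 3))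
  have q0 : ∀ e i, QE e ≠ 0 → Q (T.t e (u i)) ≠ 0 := fun e i h => by simp [H.Q_t, H.two, h, u0]
  have k1 : ∀ e, QE e ≠ 0 → (r e).1 = T.tm (refl QE e).1 1 := fun e he => by
    have a1 : ∀ i j x, refl Q (T.t e (u i)) (T.t x (u j)) =
        if i = j then T.t (refl QE e x) (u j) else T.t x (u j) := fun i j x => by
      split_ifs with h
      · have := u0 j
        have := H.two
        simp only [h, refl_apply, H.pol, H.Q_t, tpi_t, map_sub, map_smul, LinearMap.sub_apply,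
          LinearMap.smul_apply, polarBilin_apply_apply, polar_self', smul_eq_mul, polar_comm QE x]
        congr 2
        field_simp
      · exact refl_apply_of_orth (by simp [H.pol, u1 j i (Ne.symm h)])
    refine T.equiv_ext fun x w => (LinearMap.congr_fun (u.ext
      (f₁ := ((r e).1 : V →ₗ[F] V) ∘ₗ T.t x) (f₂ := T.t (refl QE e x)) fun j => ?_) w).trans
      (by simp)
    fin_cases j <;> simp [r, a1]
  have k2 : ∀ e, QE e ≠ 0 → dickson H.nd (r e) = 1 ∧
      spinor H.nd (r e) = sqcl (QW (u 0) * QW (u 1) * QW (u 2) * QW (u 3)) := fun e he => by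
    refine ⟨by simp [r, dickson_refl _ (q0 e _ he)], ?_⟩
    simp only [r, map_mul, spinor_refl]
    rw [← sqcl_mul (q0 e _ he) (q0 e _ he), ← sqcl_mul (by simp [q0, he]) (q0 e _ he),
      ← sqcl_mul (by simp [q0, he]) (q0 e _ he),
      ← sqcl_mul_self_mul (a := 2 * QE e * (2 * QE e)) (by simp [H.two, he]) (QW (u 0) * _ * _ * _)]
    simp only [H.Q_t]
    congr 1
    ring
  have k3 : (r a * r b).1 = T.tm (refl QE a * refl QE b).1 1 := by
    rw [Subgroup.coe_mul, k1 a ha, k1 b hb, tm_mul, mul_one, Subgroup.coe_mul]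
  refine k3 ▸ H.ge _ ((mem_commutator_iff H.nd (fun h => H.two (two_eq_zero_of_forall h.1)) _).2 ?_)
    (k3 ▸ T.tm_mem _ _)
  simp [k2 a ha, k2 b hb]

include h3 h4

theorem zz_mem {e : E} (he : QE e ≠ 0) : zz T QE e ∈ M := by
  obtain ⟨a, ⟨-, a1⟩, a2⟩ := ((nondeg_top H.ndE).inf_ort (a := e) trivial
    (by simp [H.two, he])).exists_Q_ne fun h => by
      have := finrank_le_inf_ort (Q := QE) ⊤ e
      rw [h, finrank_top, finrank_bot] at this; omega
  obtain ⟨c, c1, c2⟩ := exists_third H.ndE H.two h3 he a2 a1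
  convert H.refl_mul_mem h4 c1 a2 using 1
  refine congrArg (fun g : O QE => T.tm g.1 1) ?_
  rw [← mul_one (refl QE e), ← refl_mul_self a, ← mul_assoc (refl QE e), c2, ← mul_assoc, ← mul_assoc,
    O.negOne_mul_self, one_mul]

variable (hI : I1 QW)
  (H1 : ∀ w, w ≠ 0 → QW w = 0 → ∀ g ∈ M, (∀ v ∈ T.LS (F ∙ w), g v ∈ T.LS (F ∙ w)) → g ∈ T.grp)
include hI H1

theorem fix_mem {e : E} (he : QE e ≠ 0) {g : V ≃ₗ[F] V} (hg : g ∈ M)
    (h : ∀ w, g (T.t e w) = T.t e w) : g ∈ T.grp := by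
  have := T.finite
  have := finite_linearEquiv (F := F) (V := V)
  have hp : Fact (ringChar F).Prime := ⟨CharP.char_is_prime F _⟩
  have : Nontrivial W := Module.nontrivial_of_finrank_pos (R := F) (by omega)
  obtain ⟨w, -, w1, w2⟩ := exists_sing (Q := QW) ⊤ (by rw [finrank_top]; omega)
  let X : Subgroup (V ≃ₗ[F] V) :=
    { carrier := {x | ∃ u, polar QW w u = 0 ∧ x = T.rt (eich QW w u).1}
      one_mem' := ⟨0, by simp⟩
      mul_mem' := by
        rintro _ _ ⟨u, u1, rfl⟩ ⟨v, v1, rfl⟩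
        exact ⟨u + v, by simp [u1, v1], by rw [eich_add w2 u1 v1, Subgroup.coe_mul, map_mul]⟩
      inv_mem' := by
        rintro _ ⟨u, u1, rfl⟩
        exact ⟨-u, by simp [u1], by rw [eich_neg, Subgroup.coe_inv, map_inv]⟩ }
  have : IsMulCommutative X := ⟨⟨by
    rintro ⟨_, u, u1, rfl⟩ ⟨_, v, v1, rfl⟩
    exact Subtype.ext (show T.rt _ * T.rt _ = T.rt _ * T.rt _ by
      rw [← map_mul, ← map_mul, ← Subgroup.coe_mul, eich_comm w2 u1 v1, Subgroup.coe_mul])⟩⟩
  refine le_of_pgroup_act (p := ringChar F) (X := X)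
    (C := M ⊓ ⨅ w, MulAction.stabilizer (V ≃ₗ[F] V) (T.t e w)) (H98.isPGroup_iff_forall.2 ?_)
    (fun hc => ?_) ?_ ?_ (fun c hc c1 k c2 => ?_) (by simpa using ⟨hg, h⟩)
  · rintro _ ⟨u, -, rfl⟩
    exact (unip_iff _).1 (unip_eich w u).rt
  · obtain ⟨x, hx⟩ := (Subgroup.isCyclic_iff_exists_zpowers_eq_top X).1 hc
    obtain ⟨u, u1, rfl⟩ : x ∈ X := hx ▸ Subgroup.mem_zpowers x
    obtain ⟨v, v1, v2⟩ := exists_mem_not_mem_of_finrank_lt (A := Submodule.span F {w, u})
      (B := ⊤ ⊓ ort QW w) (by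
        have := finrank_le_inf_ort (Q := QW) ⊤ w
        have := finrank_span_pair_le (F := F) w u
        rw [finrank_top] at *; omega)
    have k1 : X ≤ movIn (T.LS (Submodule.span F {w, u})) := by
      rw [← hx, Subgroup.zpowers_le]
      exact (T.mv_rt _).le.trans (T.LS_mono (mv_eich_le w2 u1))
    obtain ⟨p, hp⟩ := exists_isHyp H.ndW w1 w2
    have k2 := mv_le.1 (k1 ⟨v, v1.2, rfl⟩) (T.t e p)
    rw [rt_t, ← map_sub, T.t_mem_LS_iff (by rintro rfl; simp at he), O.coe_apply,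
      eich_apply w2 v1.2] at k2
    refine v2 ?_
    convert sub_mem (Submodule.smul_mem _ (polar QW v p - QW v) (Submodule.subset_span
      (show w ∈ ({w, u} : Set W) by simp))) k2 using 1
    rw [hp.3]; module
  · rintro _ ⟨u, -, rfl⟩ c hc
    simp only [Subgroup.mem_inf, Subgroup.mem_iInf, MulAction.mem_stabilizer_iff,
      LinearEquiv.smul_def] at hc ⊢
    exact ⟨mul_mem (mul_mem (H.eich_mem _ _) hc.1) (inv_mem (H.eich_mem _ _)), fun x => by
      rw [← map_inv, LinearEquiv.mul_apply, LinearEquiv.mul_apply, rt_t, hc.2]; simp⟩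
  · rintro _ ⟨u, u1, rfl⟩ a1 c hc a2
    refine (H.rigid3 h3.ge (by omega) H1 w1 w2 u1 fun h => a1 ?_).2 c hc.1
      (by rw [← a2, mul_inv_cancel_right]; exact T.rt_mem _)
    obtain ⟨d, rfl⟩ := Submodule.mem_span_singleton.1 (hI w u w1 w2 u1 h)
    simp [eich_smul_self d w2]
  simp only [Subgroup.mem_inf, Subgroup.mem_iInf, MulAction.mem_stabilizer_iff,
    LinearEquiv.smul_def] at hc
  obtain ⟨A, rfl⟩ := T.swap.exists_eq_rt_of_sub_mem (g := c) (by simpa) (J := ⊥) (w := e)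
    (by rintro rfl; simp at he) fun x => by simp [hc.2]
  have a1 : Unip A := (unip_iff _).2 ⟨k, LinearEquiv.ext fun x => (T.t_left_inj w1).1 (by
    simpa [← map_pow] using LinearEquiv.congr_fun c2 (T.t x w))⟩
  have a2 := H.swap.iso_of_rt (H.isom hc.1)
  have a3 : A e = e := (T.t_left_inj w1).1 (by simpa using hc.2 w)
  obtain ⟨φ, ⟨x, -, p1⟩, p2, p3⟩ := a1.exists_dual (J₀ := F ∙ e) (J := ⊤) (by simp) (fun x hx => by
    obtain ⟨d, rfl⟩ := Submodule.mem_span_singleton.1 hx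
    simpa [a3] using hx) fun h => by
      have := (Submodule.finrank_mono h).trans (finrank_span_singleton_le e)
      rw [finrank_top] at this; omega
  rw [a1.eq_one_of_symm H.ndE (fun x y => polar_comm _ _ _) H.two h3.ge (μ := 1) (fun x y => by
    simpa using a2 x y) ?_, map_one]
  have b1 := Submodule.finrank_mono (show mv A ≤ LinearMap.ker φ ⊓ ort QE e from mv_le.2 fun y =>
    ⟨by simp [p3], by simpa [a3, sub_eq_zero] using a2 e y⟩)
  have b2 := finrank_inf_ort_lt H.two (U := LinearMap.ker φ)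
    (p2 e (Submodule.mem_span_singleton_self e)) he
  have b3 := Submodule.finrank_lt (s := LinearMap.ker φ) fun h => by simpa [p1] using h.ge (x := x) trivial
  omega

theorem mem_of_map_e {e e' : E} (he : QE e ≠ 0) {g : V ≃ₗ[F] V} (hg : g ∈ M)
    (h : ∀ w, g (T.t e w) ∈ T.swap.LS (F ∙ e')) : g ∈ T.grp := by
  have := T.finite
  obtain ⟨w, -, w1, w2⟩ := exists_sing (Q := QW) ⊤ (by rw [finrank_top]; omega)
  obtain ⟨p, hp⟩ := exists_isHyp H.ndW w1 w2
  obtain ⟨u, u1, -, u2⟩ := hp.exists_perp_Q_ne H.ndW (by omega)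
  have e0 : e ≠ 0 := by rintro rfl; simp at he
  have e1 : e' ≠ 0 := by
    rintro rfl
    simpa [t_eq_zero, e0, w1] using h w
  obtain ⟨φ, hφ⟩ := exists_dual_of_ne_zero (F := F) e1
  let f : W →ₗ[F] W := T.cL φ ∘ₗ (g : V →ₗ[F] V) ∘ₗ T.t e
  have hf : ∀ x, g (T.t e x) = T.t e' (f x) := fun x => by
    obtain ⟨y, hy⟩ := T.swap.mem_LS_span.1 (h x)
    simp [f, hy, hφ]
  let C := LinearEquiv.ofInjectiveEndo f ((injective_iff_map_eq_zero f).2 fun x hx => by
    simpa [hx, t_eq_zero, e0] using hf x)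
  have hC : ∀ x, g (T.t e x) = T.t e' (C x) := hf
  have k1 : ∀ x y, QE e' * polar QW (C x) (C y) = QE e * polar QW x y := fun x y =>
    mul_left_cancel₀ H.two (by
      have := H.isom hg (T.t e x) (T.t e y)
      simp only [hC, H.tens, polarBilin_apply_apply, polar_self'] at this
      linear_combination this)
  have e2 : QE e' ≠ 0 := fun e => he (by simpa [e, hp.3] using (k1 w p).symm)
  have k2 : T.rt (C * (eich QW w u).1 * C⁻¹) ∈ M :=
    H.ge ⟨_, mem_OG_of_iso H.two (H.iso_rt fun x y => mul_left_cancel₀ e2 (by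
      obtain ⟨x, rfl⟩ := C.surjective x
      obtain ⟨y, rfl⟩ := C.surjective y
      simp [k1]))⟩ (mem_commutator_of_unip H.nd H.two ((unip_eich w u).conj C).rt) (T.rt_mem _)
  refine (H.rigid3 h3.ge (by omega) H1 w1 w2 u1 u2).2 g hg ((mul_mem_cancel_left
    (inv_mem (T.rt_mem (C * (eich QW w u).1 * C⁻¹)))).1 (H.fix_mem h3 h4 hI H1 e2
      (mul_mem (inv_mem k2) (mul_mem (mul_mem hg (H.eich_mem _ _)) (inv_mem hg))) fun x => ?_))
  obtain ⟨x, rfl⟩ := C.surjective x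
  rw [LinearEquiv.mul_apply, ← map_inv, show (g * T.rt (eich QW w u).1 * g⁻¹) (T.t e' (C x)) =
    T.t e' (C ((eich QW w u).1 x)) by simp [← hC], rt_t]
  generalize (eich QW w u).1 = B
  simp

theorem zz_rigid {e : E} (he : QE e ≠ 0) {g : V ≃ₗ[F] V} (hg : g ∈ M)
    (h : g * zz T QE e * g⁻¹ ∈ T.grp) : g ∈ T.grp := by
  have := T.finite
  have e0 : e ≠ 0 := by rintro rfl; simp at he
  have k0 : ∀ y, T.tm (O.negOne QE).1 1 y = -y := fun y =>
    T.induction y (by simp) (by simp) fun x y hx hy => by rw [map_add, hx, hy, neg_add]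
  have k1 : g * T.swap.rt (refl QE e).1 * g⁻¹ ∈ T.grp := by
    convert mul_mem (T.tm_mem (O.negOne QE).1 1) h using 1
    ext y
    obtain ⟨y, rfl⟩ := g.surjective y
    refine T.induction y (by simp) (fun x w => by simp [k0, zz]) fun x y hx hy => by
      simp only [map_add, hx, hy]
  have k2 := mv_conj g (T.swap.rt (refl QE e).1)
  rw [mv_rt, mv_refl H.two he] at k2
  have k3 := congrArg (fun L : Submodule F V => finrank F L) k2
  simp only [LinearEquiv.finrank_map_eq, T.swap.finrank_LS_span e0, h4] at k3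
  generalize g * T.swap.rt (refl QE e).1 * g⁻¹ = ρ at k1 k2 k3
  obtain ⟨A, rfl⟩ : ∃ A, ρ = T.swap.rt A := by
    obtain ⟨A, B, rfl⟩ := k1
    obtain ⟨x, hx⟩ : ∃ x, A x ∉ F ∙ x := by
      by_contra hc
      push Not at hc
      obtain ⟨B', hB⟩ := T.exists_eq_rt B hc
      rw [hB, mv_rt, finrank_LS, h3] at k3
      omega
    obtain ⟨l, l1, l2⟩ := exists_dual_pair (notMem_span_symm (by rintro rfl; simp at hx) hx)
    let f : W →ₗ[F] V := ((T.tm A B : V →ₗ[F] V) - LinearMap.id) ∘ₗ T.t x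
    have a1 : LinearMap.range f = mv (T.tm A B) := Submodule.eq_of_le_of_finrank_le
      (LinearMap.range_comp_le_range _ _) (by
        rw [LinearMap.finrank_range_of_inj ((injective_iff_map_eq_zero f).2 fun w hw => by
          simpa [f, l1, l2] using congrArg (T.cL l) hw)]; omega)
    obtain ⟨y, -, hy⟩ := exists_mem_not_mem_of_finrank_lt (A := Submodule.span F {x, A x}) (B := ⊤)
      (by have := finrank_span_pair_le (F := F) x (A x); rw [finrank_top]; omega)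
    refine T.swap.exists_eq_rt_of_sub_mem (by simpa using T.tm_mem A B) hy fun w => ?_
    obtain ⟨w', hw⟩ := a1.ge (sub_mem_mv _ (T.t y w))
    rw [swap_t, ← hw]
    simp only [f, LinearMap.comp_apply, LinearMap.sub_apply, LinearEquiv.coe_coe, tm_t,
      LinearMap.id_apply]
    exact sub_mem (T.swap.t_mem_LS _ (Submodule.subset_span (by simp)))
      (T.swap.t_mem_LS _ (Submodule.subset_span (by simp)))
  rw [mv_rt] at k2 k3
  rw [finrank_LS] at k3
  obtain ⟨⟨e', a1⟩, -, a3⟩ := finrank_eq_one_iff'.1 (show finrank F (mv A) = 1 by rw [h4] at k3; omega)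
  refine H.mem_of_map_e h3 h4 hI H1 (e' := e') he hg fun w => T.swap.LS_mono (fun x hx => ?_)
    (k2.ge (Submodule.mem_map_of_mem (T.swap.t_mem_LS w (Submodule.mem_span_singleton_self e))))
  obtain ⟨d, hd⟩ := a3 ⟨x, hx⟩
  exact Submodule.mem_span_singleton.2 ⟨d, congrArg Subtype.val hd⟩

omit hI H1 in
theorem conj_zz {g : V ≃ₗ[F] V} (hg : g ∈ M) (h : g ∈ T.grp) {e : E} (he : QE e ≠ 0) :
    ∃ e', sqcl (QE e') = sqcl (QE e) ∧ QE e' ≠ 0 ∧ g * zz T QE e * g⁻¹ = zz T QE e' := by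
  obtain ⟨A, B, rfl⟩ := h
  obtain ⟨w, -, hw⟩ := (nondeg_top H.ndW).exists_Q_ne fun h => by
    have := congrArg (fun U : Submodule F W => finrank F U) h
    simp [h4] at this
  have k1 : ∀ x, QE (A x) * QW (B w) = QE x * QW w := fun x => mul_left_cancel₀ H.two (by
    simpa [H.Q_t, mul_assoc] using (H.le _ hg).1 (T.t x w))
  have k2 : QW (B w) ≠ 0 := fun h => by simpa [h, he, hw] using k1 e
  have k3 : ∀ x, QE (A x) = QW w / QW (B w) * QE x := fun x => by field_simp; linear_combination k1 x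
  obtain ⟨c, hc⟩ := H58.isSquare_multiplier H.ndE (by rw [h3]; decide) A k3
  have c0 : c ≠ 0 := by rintro rfl; simp [hw, k2] at hc
  rw [hc] at k3
  refine ⟨A e, by rw [k3, sqcl_mul_self_mul c0], by simp [k3, c0, he], T.equiv_ext fun x y => ?_⟩
  obtain ⟨x, rfl⟩ := A.surjective x
  have k4 : polar QE (A e) (A x) = c * c * polar QE e x := by
    simp only [polar, ← map_add, k3]; ring
  simp only [tm_inv, zz, tm_mul, tm_t, mul_one, mul_inv_cancel]
  have k5 : (QE (A e))⁻¹ * polar QE (A e) (A x) = (QE e)⁻¹ * polar QE e x := by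
    rw [k3, k4]; field_simp
  simp [refl_apply, k5]

theorem le_grp34 : M ≤ T.grp := by
  have := T.finite
  have := finite_linearEquiv (F := F) (V := V)
  have : Nontrivial W := Module.nontrivial_of_finrank_pos (R := F) (by omega)
  obtain ⟨w, hw⟩ := exists_ne (0 : W)
  have inj : ∀ {g k : O QE}, T.tm g.1 1 = T.tm k.1 1 → g = k := fun h => O.ext fun x =>
    (T.t_left_inj hw).1 (by simpa using LinearEquiv.congr_fun h (T.t x w))
  have mul : ∀ a b, zz T QE a * zz T QE b = T.tm (refl QE a * refl QE b).1 1 := fun a b =>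
    T.equiv_ext fun x y => by simp [zz]
  have hy := (nondeg_top H.ndE).hasHyp (by rw [finrank_top]; omega)
  obtain ⟨c, hc⟩ := H58.exists_not_isSquare H.two
  obtain ⟨a, -, -, ha⟩ := hy.exists_Q_eq 1
  obtain ⟨b, -, -, hb⟩ := hy.exists_Q_eq c
  refine le_of_invol (D := {z | ∃ e, QE e ≠ 0 ∧ z = zz T QE e}) ?_ ?_ ?_ ⟨a, by simp [ha], rfl⟩
    ⟨b, by simp [hb], rfl⟩ fun g g1 g2 g3 => ?_
  · rintro _ ⟨e, he, rfl⟩
    exact ⟨H.zz_mem h3 h4 he, T.tm_mem _ _, by simp [mul]⟩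
  · rintro _ ⟨e, he, rfl⟩ g g1 g2
    have g3 := H.zz_rigid h3 h4 hI H1 he g1 g2
    obtain ⟨e', -, h⟩ := H.conj_zz h3 h4 g1 g3 he
    exact ⟨g3, e', h⟩
  · rintro _ ⟨e, he, rfl⟩ _ ⟨e', he', rfl⟩ h hne
    rw [mul, mul] at h
    obtain ⟨d, hd⟩ := exists_smul_of_refl_eq H.ndE (a := refl QE e e') (b := e') (by simpa)
      (by rw [← conj_refl, inj h, mul_inv_cancel_right])
    obtain ⟨f, f1, f2⟩ := exists_third H.ndE H.two h3 he he' (by_contra fun h0 => hne (by
      rw [refl_apply] at hd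
      have k : (1 - d) • e' = ((QE e)⁻¹ * polar QE e e') • e := by
        linear_combination (norm := module) hd
      have e0 : e ≠ 0 := by rintro rfl; simp at he
      have k1 : 1 - d ≠ 0 := fun h1 => by
        rw [h1, zero_smul, eq_comm] at k
        simp [he, h0, e0] at k
      rw [zz, zz, ← refl_smul k1 e', k, refl_smul (by simp [he, h0])]))
    exact ⟨f, f1, by rw [mul, f2, zz]⟩
  obtain ⟨e, e1, e2, e3⟩ := H.conj_zz h3 h4 g1 g2 (e := b) (by simp [hb])
  obtain ⟨d, hd⟩ := exists_smul_of_refl_eq H.ndE e2 (mul_left_cancel (inj (e3.symm.trans g3)))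
  rw [hd, Q_smul, ha, hb, mul_one, sqcl_mul_self, eq_comm, sqcl_eq_one_iff'] at e1
  exact hc e1

end OO

/-- **Maximality of `O₃ ⊗ O₄⁻`.** -/
theorem TF.maximal_34 [Fintype F] [FiniteDimensional F E] [FiniteDimensional F W]
    (H : TF T QE.polarBilin QW.polarBilin Q.polarBilin 1 1) (h2 : (2 : F) ≠ 0)
    (hq : Fintype.card F ≠ 3) (h3 : finrank F E = 3) (h4 : finrank F W = 4) (hI : I1 QW) :
    Cfsg.Geo.IsMaximalIn (commutator (O Q)) (T.grp.subgroupOf (OG Q) ⊓ commutator (O Q)) := by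
  have := T.finite
  have hV : finrank F V = 12 := by rw [T.finrank_eq, h3, h4]
  obtain ⟨a, a0, a1⟩ := exists_sq_ne h2 hq
  refine isMaximalIn_ten ?_ fun M hM hM' nt => ?_
  · obtain ⟨e, -, e1, e2⟩ := exists_sing (Q := Q) ⊤ (by rw [finrank_top]; omega)
    obtain ⟨f, hf⟩ := exists_isHyp H.nd e1 e2
    obtain ⟨v, v1, v2, v3⟩ := hf.exists_perp_Q_ne H.nd (by omega)
    have k := (Submodule.finrank_mono (mv_eich_le e2 v1)).trans (finrank_span_pair_le _ _)
    have : Nontrivial E := Module.nontrivial_of_finrank_pos (R := F) (by omega)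
    refine ⟨_, mem_commutator_of_unip H.nd h2 (unip_eich e v), fun h => ?_⟩
    have := congrArg (fun g : V ≃ₗ[F] V => polar Q v (g f))
      (T.eq_one_of_finrank h (by omega) (by omega))
    simp [eich_apply e2 v1, pc v1, pc v2, hf.3, h2, v3] at this
  have K : OO T QE QW Q M := ⟨H, h2, hM, hM'⟩
  exact K.le_grp34 h3 h4 hI (K.stab_i1 h3 (by omega) hI a0 a1 nt)

open Cfsg.Geo Matrix in
theorem maximal_o34_GL [Fintype F] {ι : Type} [Fintype ι] [DecidableEq ι]
    {Q : QuadraticForm F (ι → F)} (hQ : Q.polarBilin.Nondegenerate) (h2 : (2 : F) ≠ 0)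
    (hq : Fintype.card F ≠ 3) (e : ι ≃ Fin 3 × Fin 4) (P : GL ι F)
    {f₁ : (Fin 3 → F) → (Fin 3 → F) → F} {f₂ : (Fin 4 → F) → (Fin 4 → F) → F}
    (h₁ : IsSymmetricForm f₁) (h₂ : IsSymmetricForm f₂) (hm : ¬ IsPlusTypeOn (fun v => f₂ v v) ⊤)
    (hT : IsTensorFormStructure id (polar Q) f₁ f₂ e P) :
    IsMaximalIn (omegaGL ⇑Q) (tensorProductSubgroup 3 4 e P ⊓ omegaGL ⇑Q) := by
  obtain ⟨q₁, q₂, H, hq'⟩ := exists_TF_oo hQ h2 e P h₁ h₂ hT
  refine isMaximalIn_matTen e P (H.maximal_34 h2 hq (by simp) (by simp) (i1_of fun U hU => ?_))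
  by_contra hc
  have := (nondeg_top H.ndW).two_mul_finrank_le H.ndW (W := U) le_top (polar_eq_zero_of_ts hU)
  exact hm ⟨U, le_top, fun u hu => by simp [hq', hU u hu], by
    rw [finrank_top, finrank_fin_fun] at *; omega⟩

end H91
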