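/- Maximality of `Sp(E) ⊗ Sp(W)` in `Ω(E ⊗ W)`. -/
import Cfsg.Agent.H91.TenOm
import Cfsg.Agent.H91.TenNz
import Cfsg.Agent.H62.SpFull
import Cfsg.Agent.H54.SpBasis

set_option autoImplicit false

namespace H91

open Module H56 H56.Ten H62 H60 QuadraticMap
open LinearMap (BilinForm)

variable {F E W V : Type*} [Field F] [AddCommGroup E] [Module F E] [AddCommGroup W] [Module F W]
  [AddCommGroup V] [Module F V] {T : Ten F E W V} {fE : BilinForm F E} {fW : BilinForm F W}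
  {Q : QuadraticForm F V} {M : Subgroup (V ≃ₗ[F] V)}

/-- A product of two symplectic forms polarising `Q`. -/
structure SS (T : Ten F E W V) (fE : BilinForm F E) (fW : BilinForm F W) (Q : QuadraticForm F V) :
    Prop extends TF T fE fW Q.polarBilin (-1) (-1) where
  altE : fE.IsAlt
  altW : fW.IsAlt
  pure : ∀ e w, Q (T.t e w) = 0

namespace SS

variable (H : SS T fE fW Q)
include H

theorem swap' : SS T.swap fW fE Q := ⟨H.swap, H.altW, H.altE, fun w e => H.pure e w⟩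

theorem mem_OG {k : V ≃ₗ[F] V} (hk : k ∈ T.grp) (hI : Iso Q.polarBilin k) : k ∈ OG Q := by
  obtain ⟨A, B, rfl⟩ := hk
  exact fun y => T.induction y (by simp) (by simp [H.pure]) fun x y hx hy => by
    rw [map_add, Q_add, Q_add, hx, hy]
    exact congrArg _ (hI x y)

variable [Fintype F] [FiniteDimensional F E] [FiniteDimensional F W]

theorem rt_mem (h5 : 5 ≤ finrank F V) (hM : ∀ g ∈ commutator (O Q), g.1 ∈ T.grp → g.1 ∈ M)
    {B : W ≃ₗ[F] W} (hB : Iso fW B) : T.rt B ∈ M := by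
  have := T.finite
  refine mem_of_forall_fullSp (H := M.comap T.rt) H.ndW H.altW
    (fun v c => hasSp_of_forall H.altW fun B hB => ?_) B hB
  have h1 := H.mem_OG (T.rt_mem B) (H.iso_rt (isom_of_sp H.altW hB))
  refine hM ⟨_, h1⟩ ?_ (T.rt_mem B)
  by_cases h2 : (2 : F) = 0
  · rw [mem_commutator_iff_of_char_two H.nd h2 fun h => by have := h.2.1; omega]
    change Even (finrank F (mv (T.rt B)))
    rw [mv_rt, finrank_LS]
    exact (H54.even_finrank_of_isAlt H.ndE H.altE).mul_right _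
  have h3 := rt_eb (T := T) (fW := fW) (ε := -1) (w := v) (u := 0) (B := B) (c := -c)
    fun x => by simp [hB]
  exact mem_commutator_of_unip H.nd h2 (unip_of_three (L := T.LS (F ∙ v)) (L' := ⊤)
    (fun _ => trivial) (fun y _ => T.mem_LS_span.2 ⟨c • tpi T fW v y, by simp [h3]⟩) fun y hy => by
      obtain ⟨e, rfl⟩ := T.mem_LS_span.1 hy
      simp [h3, H.altW v])

theorem mem_of_two [Nontrivial E] [Nontrivial W] (h2 : (2 : F) = 0) (h5 : 5 ≤ finrank F V)
    (hM : ∀ g ∈ commutator (O Q), g.1 ∈ T.grp → g.1 ∈ M) {k : V ≃ₗ[F] V} (hk : k ∈ T.grp)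
    (hI : Iso Q.polarBilin k) : k ∈ M := by
  obtain ⟨A, B, rfl⟩ := hk
  obtain ⟨w, hw⟩ := exists_ne (0 : W)
  obtain ⟨e, he⟩ := exists_ne (0 : E)
  obtain ⟨w', hw'⟩ := H.exists_one hw
  obtain ⟨e', he'⟩ := H.swap.exists_one he
  have h : ∀ x y u v, fE (A x) (A y) * fW (B u) (B v) = fE x y * fW u v := fun x y u v => by
    simpa only [tm_t, H.tens] using hI (T.t x u) (T.t y v)
  have : CharP F 2 := CharTwo.of_one_ne_zero_of_two_eq_zero one_ne_zero h2
  obtain ⟨ν, hν⟩ := FiniteField.isSquare_of_char_two (ringChar.eq F 2) (fW (B w') (B w))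
  have h1 := h e' e w' w
  rw [hν, he', hw'] at h1
  have h0 : ν ≠ 0 := by rintro rfl; simp at h1
  rw [show T.tm A B = T.swap.rt (LinearEquiv.smulOfNeZero F E ν h0 * A) *
    T.rt (LinearEquiv.smulOfNeZero F W ν⁻¹ (inv_ne_zero h0) * B) from
      T.equiv_ext fun e w => by
        conv_rhs => rw [LinearEquiv.mul_apply, rt_t, ← swap_t T, rt_t]
        simp [smul_smul, h0]]
  refine mul_mem (H.swap'.rt_mem h5 (by simpa using hM) fun x y => ?_) (H.rt_mem h5 hM fun x y => ?_)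
  · have := h x y w' w
    rw [hν, hw'] at this
    simp; linear_combination this
  · have := h e' e x y
    rw [he'] at this
    simp; field_simp; linear_combination ν ^ 2 * this - fW (B x) (B y) * h1

theorem oc (ha : 2 ≤ finrank F E) (hb : 5 ≤ finrank F W)
    (hex : ¬ (finrank F E = 2 ∧ Fintype.card F = 2))
    (hM : ∀ g ∈ commutator (O Q), g.1 ∈ T.grp → g.1 ∈ M)
    (hM' : ∀ g ∈ M, ∃ h : g ∈ OG Q, ⟨g, h⟩ ∈ commutator (O Q))
    (nt : ¬ commutator (O Q) ≤ M.subgroupOf (OG Q)) : OC T fE fW Q (-1) M := by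
  have := T.finite
  have : Nontrivial E := Module.nontrivial_of_finrank_pos (R := F) (by omega)
  have : Nontrivial W := Module.nontrivial_of_finrank_pos (R := F) (by omega)
  have h5 : 5 ≤ finrank F V := by
    rw [T.finrank_eq]; exact hb.trans (Nat.le_mul_of_pos_left _ (by omega))
  refine ⟨⟨H.toTF, fun m hm => iso_of_OG (hM' m hm).1, fun u => ⟨0, by simp [H.altW u]⟩,
    fun w u _ h => ?_, fun w _ _ k k1 k2 g k3 k4 => ?_⟩, fun m hm => (hM' m hm).1,
    fun e w _ => H.pure e w, hb, fun w hw _ => ?_, fun 𝔄 h α h1 h2 => ?_, nt⟩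
  · have a1 : fW.flip u w = 0 := H.reflW h
    have a2 : fW.flip w u = 0 := h
    have e : ∀ x, (LinearEquiv.transvection a1 * LinearEquiv.transvection a2) x =
        x + fW x u • w - (-1 * fW x w) • u - (0 * fW x w) • w := fun x => by
      rw [LinearEquiv.mul_apply]
      simp only [LinearEquiv.transvection.apply]
      simp [H.altW u]; abel
    refine ⟨_, H.rt_mem h5 hM fun x y => ?_, 0, e⟩
    simp only [e, map_add, map_sub, map_smul, LinearMap.add_apply, LinearMap.sub_apply,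
      LinearMap.smul_apply, smul_eq_mul, H.altW u, H.altW w, h, H.reflW h, H.symW y u, H.symW y w]
    ring
  · by_cases h2 : (2 : F) = 0
    · exact H.mem_of_two h2 h5 hM k1 k2
    obtain ⟨g1, g2⟩ := hM' g k3
    have k5 := H.mem_OG k1 k2
    have k6 := mem_commutator_of_unip (g := (⟨k, k5⟩ : O Q)⁻¹ * ⟨g, g1⟩) H.nd h2
      (H.unip_of_UL (k2.inv.mul (iso_of_OG g1)) k4)
    exact hM ⟨k, k5⟩ (by simpa using mul_mem g2 (inv_mem k6)) k1
  · obtain ⟨z, -, z1, z2⟩ := exists_mem_notMem_ker [fW.flip w] (W := ⊤) (Z := F ∙ w)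
      (by simp [finrank_span_singleton hw]; omega)
    exact ⟨z, H.altW z, z2 (fW.flip w) (by simp), z1⟩
  · exact eq_top_of_nz_sp H.ndE H.altE (fun e c A hA => h A (T.swap_tm A 1 ▸
      H.swap'.rt_mem h5 (by simpa using hM) (isom_of_sp H.altE hA))) hex h1 h2

/-- **Maximality of `Sp(E) ⊗ Sp(W)` in `Ω(E ⊗ W)`.** -/
theorem maximal (ha : 2 ≤ finrank F E) (hab : finrank F E < finrank F W) (hb : 5 ≤ finrank F W)
    (hex : ¬ (finrank F E = 2 ∧ Fintype.card F = 2)) :
    Cfsg.Geo.IsMaximalIn (commutator (O Q)) (T.grp.subgroupOf (OG Q) ⊓ commutator (O Q)) := by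
  have := T.finite
  have : Nontrivial E := Module.nontrivial_of_finrank_pos (R := F) (by omega)
  have : Nontrivial W := Module.nontrivial_of_finrank_pos (R := F) (by omega)
  have h5 : 5 ≤ finrank F V := by
    rw [T.finrank_eq]; exact hb.trans (Nat.le_mul_of_pos_left _ (by omega))
  obtain ⟨w₀, hw⟩ := exists_ne (0 : W)
  refine isMaximalIn_ten ?_ fun M hM hM' nt => by_contra fun hne => ?_
  · obtain ⟨z, -, z1, z2⟩ := exists_mem_notMem_ker [fW.flip w₀] (W := ⊤) (Z := F ∙ w₀)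
      (by simp [finrank_span_singleton hw]; omega)
    exact H.exists_notMem_grp (fun e w _ => H.pure e w) ha (by omega) hw (H.altW _)
      (z2 (fW.flip w₀) (by simp)) (H.altW _) z1
  have H1 := fun w hw => (H.oc ha hb hex hM hM' nt).stab (w₀ := w) hw (H.altW w)
  obtain ⟨k, c⟩ := exists_crit (T.LS (F ∙ w₀)) hne
  obtain ⟨y, y1, y2⟩ := c.exists_notMem (H1 w₀ hw)
  obtain ⟨u, u1, u2⟩ := (Submodule.ne_bot_iff _).1 (LinearMap.ker_ne_bot_of_finrank_lt
    (f := (T.cRat y ∘ₗ fW.flip).prod (fW w₀)) (by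
      have := H54.even_finrank_of_isAlt H.ndE H.altE
      have := H54.even_finrank_of_isAlt H.ndW H.altW
      simp only [finrank_prod, finrank_self, Nat.even_iff] at *; omega))
  obtain ⟨u3, u4⟩ : T.cR (fW.flip u) y = 0 ∧ fW w₀ u = 0 := by simpa using u1
  have h0 : fW.flip u u = 0 := H.altW u
  refine y2 (c.mem_of (h := T.rt (LinearEquiv.transvection h0)) ⟨H.rt_mem h5 hM
    (isom_of_sp H.altW (c := 1) (v := u) fun x => by simp [LinearMap.transvection.apply]),
      fun g hg h3 => ?_⟩ (fun v hv hv' => ?_) y1 (by simpa [rt_tv, u3] using y1))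
  · obtain ⟨w, h4, h6⟩ := exists_map_LS hab u2 (mv_tv h0 fun e => u2 (H.ndW.2 u fun x =>
      LinearMap.congr_fun e x)) h3
    obtain ⟨s, s1, s2⟩ := sp_trans H.ndW H.altW h4 u2
    refine (mul_mem_cancel_left (T.rt_mem s)).1
      (H1 u u2 _ (mul_mem (H.rt_mem h5 hM s1) hg) fun v hv => ?_)
    obtain ⟨e, he⟩ := T.mem_LS_span.1 (h6 v hv)
    exact T.mem_LS_span.2 ⟨e, by simp [he, s2]⟩
  · obtain ⟨x, rfl⟩ := T.mem_LS_span.1 hv
    simpa [LinearMap.transvection.apply, u4] using hv'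

end SS

open Cfsg.Geo Matrix in
theorem maximal_spTensor_GL [Fintype F] {ι : Type} [Fintype ι] [DecidableEq ι] {n₁ n₂ : ℕ}
    {Q : QuadraticForm F (ι → F)} (hQ : Q.polarBilin.Nondegenerate) (hn : 0 < Fintype.card ι)
    (h12 : n₁ < n₂) (h5 : 5 ≤ n₂) (hex : ¬ (Fintype.card F = 2 ∧ n₁ = 2))
    (e : ι ≃ Fin n₁ × Fin n₂) (P : GL ι F) {f₁ : (Fin n₁ → F) → (Fin n₁ → F) → F}
    {f₂ : (Fin n₂ → F) → (Fin n₂ → F) → F} (h₁ : IsSymplecticForm f₁) (h₂ : IsSymplecticForm f₂)
    (hT : IsTensorFormStructure id (polar Q) f₁ f₂ e P)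
    (hp : ∀ (x₁ : Fin n₁ → F) (x₂ : Fin n₂ → F),
      Q ((P : Matrix ι ι F) *ᵥ ((fun a : Fin n₁ × Fin n₂ => x₁ a.1 * x₂ a.2) ∘ e)) = 0) :
    IsMaximalIn (omegaGL ⇑Q) (tensorProductSubgroup n₁ n₂ e P ⊓ omegaGL ⇑Q) := by
  obtain ⟨c, hc, h⟩ := tens_of_structure e P (f := Q.polarBilin) h₁.bilinear h₂.bilinear hT
  have n1 := bilinOf_nondegenerate h₁.bilinear h₁.nondegenerate
  have H : SS (matTen e P) (c • bilinOf h₁.bilinear) (bilinOf h₂.bilinear) Q :=
    ⟨⟨⟨fun x hx => n1.1 x (by simpa [hc] using hx), fun x hx => n1.2 x (by simpa [hc] using hx)⟩,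
      bilinOf_nondegenerate _ h₂.nondegenerate, hQ, fun x y => by simp [h₁.skew y x],
      fun x y => by simp [h₂.skew y x], by simp, by simp, h⟩, fun x => by simp [h₁.alternating],
      h₂.alternating, fun x y => by rw [matTen_t]; exact hp x y⟩
  have h2 := H54.even_finrank_of_isAlt H.ndE H.altE
  have h3 := Fintype.card_congr e
  simp only [finrank_fintype_fun_eq_card, Fintype.card_fin, Nat.even_iff, Fintype.card_prod] at h2 h3
  have h4 : n₁ ≠ 0 := by rintro rfl; omega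
  exact isMaximalIn_matTen e P (H.maximal (by simp; omega) (by simpa) (by simpa) (by simpa [and_comm] using hex))

end H91
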